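import Cfsg.Agent.Lib.SLM.Defs
import Cfsg.Agent.Lib.TV.Alg

/-! Unitriangular Sylow 2-subgroups, package LA: see `blueprint/SLM/README.md`. -/

set_option autoImplicit false
set_option linter.unusedSectionVars false

namespace H46.Sl
open Subgroup H69 Cfsg Matrix
open scoped commutatorElement

variable {G : Type*} [Group G] [Finite G] {S E P M : Subgroup G}

variable {F : Type*} [Field F] {n : ℕ} {N N' : Matrix (Fin n) (Fin n) F}

theorem la_zero {v : Fin n → F} (h : ∀ a, a ⬝ᵥ v = 0) : v = 0 := by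
  by_contra h0
  obtain ⟨w, hw⟩ := H55.Tv.sep0 h0
  exact one_ne_zero (hw.symm.trans (h w))

theorem la_dim (N : Matrix (Fin n) (Fin n) F) :
    Module.finrank F (LinearMap.ker N.vecMulLinear) = Module.finrank F (LinearMap.ker N.mulVecLin) := by
  have a1 := LinearMap.finrank_range_add_finrank_ker N.mulVecLin
  have a2 := LinearMap.finrank_range_add_finrank_ker Nᵀ.mulVecLin
  have a3 : Module.finrank F (LinearMap.range Nᵀ.mulVecLin) =
      Module.finrank F (LinearMap.range N.mulVecLin) := Matrix.rank_transpose N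
  rw [← Matrix.mulVecLin_transpose]
  omega

theorem row_of_perp {s : Fin n → F} (h : ∀ b, N *ᵥ b = 0 → s ⬝ᵥ b = 0) : ∃ a, s = a ᵥ* N := by
  obtain ⟨a, ha⟩ : s ∈ LinearMap.range N.vecMulLinear := H55.Tv.mem_of_perp fun w hw => by
    rw [dotProduct_comm]
    refine h w (la_zero fun a => ?_)
    rw [← H55.Tv.dvm, dotProduct_comm]
    exact H55.Tv.mem_perp.1 hw _ ⟨a, rfl⟩
  exact ⟨a, ha.symm⟩

theorem col_of_perp {t : Fin n → F} (h : ∀ a, a ᵥ* N = 0 → a ⬝ᵥ t = 0) : ∃ b, t = N *ᵥ b := by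
  obtain ⟨b, hb⟩ : t ∈ LinearMap.range N.mulVecLin := H55.Tv.mem_of_perp fun w hw => by
    refine h w (la_zero fun b => ?_)
    rw [dotProduct_comm, H55.Tv.dvm]
    exact H55.Tv.mem_perp.1 hw _ ⟨b, rfl⟩
  exact ⟨b, hb.symm⟩

theorem ker_eq (h1 : ∀ a, a ᵥ* N = 0 → a ᵥ* N' = 0) (h2 : ∀ b, N' *ᵥ b = 0 → N *ᵥ b = 0) :
    (∀ a, a ᵥ* N' = 0 → a ᵥ* N = 0) ∧ ∀ b, N *ᵥ b = 0 → N' *ᵥ b = 0 := by
  have l1 : LinearMap.ker N.vecMulLinear ≤ LinearMap.ker N'.vecMulLinear := fun a ha => h1 a ha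
  have l2 : LinearMap.ker N'.mulVecLin ≤ LinearMap.ker N.mulVecLin := fun a ha => h2 a ha
  have d1 := Submodule.finrank_mono l1
  have d2 := Submodule.finrank_mono l2
  have d3 := la_dim N
  have d4 := la_dim N'
  have e1 := Submodule.eq_of_le_of_finrank_eq l1 (by omega)
  have e2 := Submodule.eq_of_le_of_finrank_eq l2 (by omega)
  exact ⟨fun a ha => e1.ge (show a ∈ LinearMap.ker N'.vecMulLinear from ha),
    fun b hb => e2.ge (show b ∈ LinearMap.ker N.mulVecLin from hb)⟩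

/-- impossible: the left kernel of `N'` has codimension one in that of `N`, with the same right kernel
or a larger one -/
theorem ker_lt (h1 : ∀ a, a ᵥ* N' = 0 → a ᵥ* N = 0) (h2 : ∀ b, N *ᵥ b = 0 → N' *ᵥ b = 0) (a : Fin n → F)
    (ha : a ᵥ* N = 0) : a ᵥ* N' = 0 :=
  (ker_eq h1 h2).1 a ha

/-- equal ranks: left kernels cut by one linear condition each agree, right kernels agree -/
theorem ker_cut {x x' : Fin n → F} (h1 : ∀ a, (a ᵥ* N = 0 ∧ a ⬝ᵥ x = 0) ↔ (a ᵥ* N' = 0 ∧ a ⬝ᵥ x' = 0))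
    (h2 : ∀ b, N *ᵥ b = 0 ↔ N' *ᵥ b = 0) (h : ∃ a, a ᵥ* N = 0 ∧ a ⬝ᵥ x ≠ 0) : ∃ a, a ᵥ* N' = 0 ∧ a ⬝ᵥ x' ≠ 0 := by
  by_contra hn
  push Not at hn
  obtain ⟨a, ha, hx⟩ := h
  have := ker_lt (fun a h => ((h1 a).2 ⟨h, hn a h⟩).1) (fun b => (h2 b).1) a ha
  exact hx ((h1 a).2 ⟨this, hn a this⟩).2

/-- the same with the cut on different sides: impossible -/
theorem ker_cross {x y' : Fin n → F} (h1 : ∀ a, (a ᵥ* N = 0 ∧ a ⬝ᵥ x = 0) ↔ a ᵥ* N' = 0)
    (h2 : ∀ b, N *ᵥ b = 0 ↔ (N' *ᵥ b = 0 ∧ y' ⬝ᵥ b = 0)) (a : Fin n → F) (ha : a ᵥ* N = 0) : a ⬝ᵥ x = 0 :=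
  ((h1 a).2 (ker_lt (fun a h => ((h1 a).2 h).1) (fun b h => ((h2 b).1 h).1) a ha)).2

/-- a linear functional vanishing on the kernel of another one inside a subspace -/
theorem prop_of_ker {V : Type*} [AddCommGroup V] [Module F V] (K : Submodule F V) (φ ψ : V →ₗ[F] F)
    (h : ∀ v ∈ K, ψ v = 0 → φ v = 0) : ∃ k : F, ∀ v ∈ K, φ v = k * ψ v := by
  by_cases h0 : ∀ v ∈ K, ψ v = 0
  · exact ⟨0, fun v hv => by rw [h v hv (h0 v hv), zero_mul]⟩
  push Not at h0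
  obtain ⟨u, hu, h0⟩ := h0
  refine ⟨φ u / ψ u, fun v hv => ?_⟩
  have := h (ψ u • v - ψ v • u) (K.sub_mem (K.smul_mem _ hv) (K.smul_mem _ hu))
    (by rw [map_sub, map_smul, map_smul, smul_eq_mul, smul_eq_mul]; ring)
  rw [map_sub, map_smul, map_smul, smul_eq_mul, smul_eq_mul] at this
  field_simp
  linear_combination this

/-- a fixed vector in a set closed under commutators with unitriangular matrices -/
theorem ex_fix (T : Set (Fin n → F)) (X : Set (Matrix (Fin n) (Fin n) F))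
    (hX : ∀ L ∈ X, ∀ i j, j ≤ i → L i j = (1 : Matrix (Fin n) (Fin n) F) i j)
    (hT : ∀ L ∈ X, ∀ t ∈ T, t ᵥ* L - t ∈ T) {t : Fin n → F} (ht : t ∈ T) (h0 : t ≠ 0) :
    ∃ s ∈ T, s ≠ 0 ∧ ∀ L ∈ X, s ᵥ* L = s := by
  by_contra hn
  push Not at hn
  have key : ∀ k : ℕ, ∃ s ∈ T, s ≠ 0 ∧ ∀ i : Fin n, (i : ℕ) < k → s i = 0 := fun k => by
    induction k with
    | zero => exact ⟨t, ht, h0, fun i hi => absurd hi (Nat.not_lt_zero _)⟩
    | succ k ih =>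
      obtain ⟨s, hs, s0, hz⟩ := ih
      obtain ⟨L, hL, hne⟩ := hn s hs s0
      refine ⟨s ᵥ* L - s, hT L hL s hs, sub_ne_zero.2 hne, fun j hj => ?_⟩
      have : (s ᵥ* L) j = (s ᵥ* (1 : Matrix (Fin n) (Fin n) F)) j := by
        simp only [Matrix.vecMul, dotProduct]
        refine Finset.sum_congr rfl fun i _ => ?_
        by_cases hi : j ≤ i
        · rw [hX L hL i j hi]
        · rw [hz i (by have : (i : ℕ) < j := not_le.1 hi; omega), zero_mul, zero_mul]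
      rw [Pi.sub_apply, this, Matrix.vecMul_one, sub_self]
  obtain ⟨s, -, s0, hz⟩ := key n
  exact s0 (funext fun i => hz i i.2)

theorem rank_one {x y : Fin n → F} (hx : x ≠ 0) (hy : y ≠ 0) (h1 : ∀ a, a ⬝ᵥ y = 0 → a ᵥ* N = 0)
    (h2 : ∀ b, x ⬝ᵥ b = 0 → N *ᵥ b = 0) : ∃ k : F, N = k • vecMulVec y x := by
  obtain ⟨u, rfl⟩ := H55.Tv.eq_tv_of_ker hx h2
  obtain ⟨c, rfl⟩ := H55.Tv.prop_of (x := u) (v := y) fun w hw => by
    have := h1 w hw
    rw [Matrix.vecMul_vecMulVec] at this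
    exact (smul_eq_zero.1 this).resolve_right hx
  exact ⟨c, Matrix.smul_vecMulVec _ _ _⟩

theorem rank_one' {x : Fin n → F} (hx : x ≠ 0) (h2 : ∀ b, x ⬝ᵥ b = 0 → N *ᵥ b = 0) :
    ∃ y, N = vecMulVec y x :=
  H55.Tv.eq_tv_of_ker hx h2

theorem dep_of_minor {x y : Fin n → F} (h : ∀ s, y s • x = x s • y) : ∃ a b : F, (a ≠ 0 ∨ b ≠ 0) ∧ a • x + b • y = 0 := by
  by_cases hy : y = 0
  · exact ⟨0, 1, Or.inr one_ne_zero, by rw [hy, zero_smul, smul_zero, add_zero]⟩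
  obtain ⟨s, hs⟩ := Function.ne_iff.1 hy
  exact ⟨y s, -x s, Or.inl hs, by rw [h s, neg_smul, add_neg_cancel]⟩

end H46.Sl
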