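import Cfsg.Agent.Lib.SLM.MB1

/-! Unitriangular Sylow 2-subgroups, package MB2: see `blueprint/SLM/README.md`. -/

set_option autoImplicit false
set_option linter.unusedSectionVars false

namespace H46.Sl
open Subgroup H69 Cfsg Matrix
open scoped commutatorElement

variable {G : Type*} [Group G] [Finite G] {S E P M : Subgroup G}

theorem MB2_dih {H : Type*} [Group H] [Finite H] {a c : H} (ha : a * a = 1) (hc : c * c = 1) :
    (∃ k : ℕ, (a * c) ^ k * a * ((a * c) ^ k)⁻¹ * c⁻¹ = 1) ∨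
    ∃ k : ℕ, (a * c) ^ k ≠ 1 ∧ (a * c) ^ k * (a * c) ^ k = 1 ∧
      (a * c) ^ k * a * ((a * c) ^ k)⁻¹ * a⁻¹ = 1 ∧ c * (a * c) ^ k * c⁻¹ * ((a * c) ^ k)⁻¹ = 1 := by
  have ia : a⁻¹ = a := inv_eq_of_mul_eq_one_right ha
  have ic : c⁻¹ = c := inv_eq_of_mul_eq_one_right hc
  have e1 : ∀ k : ℕ, a * ((a * c) ^ k)⁻¹ * a⁻¹ = (a * c) ^ k := fun k => by
    rw [← inv_pow, ← conj_pow]
    congr 1
    rw [_root_.mul_inv_rev, ic, ia, mul_assoc, mul_assoc, ha, mul_one]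
  have e2 : ∀ k : ℕ, c * (a * c) ^ k * c⁻¹ = ((a * c) ^ k)⁻¹ := fun k => by
    rw [← inv_pow, ← conj_pow]
    congr 1
    rw [_root_.mul_inv_rev, ia]
    conv_rhs => rw [ic]
    group
  rcases Nat.even_or_odd' (orderOf (a * c)) with ⟨m, hm | hm⟩
  · have h2 : (a * c) ^ m * (a * c) ^ m = 1 := by
      rw [← pow_add, ← two_mul, ← hm, pow_orderOf_eq_one]
    have hpos := orderOf_pos (a * c)
    refine Or.inr ⟨m, pow_ne_one_of_lt_orderOf (by omega) (by omega), h2, ?_, ?_⟩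
    · calc (a * c) ^ m * a * ((a * c) ^ m)⁻¹ * a⁻¹ = (a * c) ^ m * (a * ((a * c) ^ m)⁻¹ * a⁻¹) := by group
        _ = 1 := by rw [e1, h2]
    · rw [e2, ← _root_.mul_inv_rev, h2, inv_one]
  · have h2 : (a * c) ^ m * (a * c) ^ m * (a * c) = 1 := by
      rw [← pow_add, ← two_mul, ← pow_succ, ← hm, pow_orderOf_eq_one]
    refine Or.inl ⟨m, ?_⟩
    calc (a * c) ^ m * a * ((a * c) ^ m)⁻¹ * c⁻¹
        = (a * c) ^ m * (a * ((a * c) ^ m)⁻¹ * a⁻¹) * (a * c⁻¹) := by group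
      _ = 1 := by rw [e1, ic, h2]

theorem MB2_dih_mod {a c : G} (ha : a ∈ 𝐍(E)) (hc : c ∈ 𝐍(E)) (a2 : a * a ∈ E) (c2 : c * c ∈ E) :
    (∃ k : ℕ, (a * c) ^ k * a * ((a * c) ^ k)⁻¹ * c⁻¹ ∈ E) ∨
    ∃ k : ℕ, (a * c) ^ k ∉ E ∧ (a * c) ^ k * (a * c) ^ k ∈ E ∧
      (a * c) ^ k * a * ((a * c) ^ k)⁻¹ * a⁻¹ ∈ E ∧ c * (a * c) ^ k * c⁻¹ * ((a * c) ^ k)⁻¹ ∈ E := by
  let π := QuotientGroup.mk' (E.subgroupOf 𝐍(E))
  have hπ : ∀ x : 𝐍(E), π x = 1 ↔ (x : G) ∈ E := fun x => by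
    simp only [π, QuotientGroup.mk'_apply, QuotientGroup.eq_one_iff, mem_subgroupOf]
  let A : 𝐍(E) := ⟨a, ha⟩
  let C : 𝐍(E) := ⟨c, hc⟩
  have h1 : π A * π A = 1 := by rw [← map_mul, hπ]; exact a2
  have h2 : π C * π C = 1 := by rw [← map_mul, hπ]; exact c2
  rcases MB2_dih h1 h2 with ⟨k, hk⟩ | ⟨k, k1, k2, k3, k4⟩
  · refine Or.inl ⟨k, ?_⟩
    simp only [← map_mul, ← map_pow, ← map_inv, hπ] at hk
    exact hk
  · refine Or.inr ⟨k, ?_⟩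
    simp only [← map_mul, ← map_pow, ← map_inv, hπ, ne_eq] at k1 k2 k3 k4
    exact ⟨k1, k2, k3, k4⟩

theorem MB2_two (hS : IsPGroup 2 S) {a : G} (ha : a ∈ S) : ∃ k : ℕ, a ^ 2 ^ k = 1 := by
  obtain ⟨k, hk⟩ := hS ⟨a, ha⟩
  exact ⟨k, congrArg Subtype.val hk⟩

theorem ME.MB2_EM (h : ME S E P M) : E ≤ M := (le_inf h.le le_normalizer).trans h.RM

theorem ME.MB2_se (h : ME S E P M) {g a b : G} (hg : g ∈ P) (ha : a ∈ M) (h2 : ∃ k : ℕ, a ^ 2 ^ k = 1)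
    (ha' : a ∉ E) (hb : b ∈ M) (he : g * a * g⁻¹ * b⁻¹ ∈ E) : g ∈ M :=
  h.se g hg a ha h2 ha' (by simpa using mul_mem (h.MB2_EM he) hb)

theorem ME.inv_conj (h : ME S E P M) {a b : G} (ha : a ∈ S ⊓ 𝐍(E)) (hb : b ∈ S ⊓ 𝐍(E)) (ha' : a ∉ E)
    (hb' : b ∉ E) (a2 : a * a ∈ E) (b2 : b * b ∈ E) : ∃ g ∈ M, g * a * g⁻¹ * b⁻¹ ∈ E := by
  obtain ⟨x, hx, hxM⟩ := h.ex_x
  obtain ⟨cP, cM⟩ := h.out hx hxM hb hb'
  have aP : a ∈ P := h.syl.le ha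
  have c2 : x * b * x⁻¹ * (x * b * x⁻¹) ∈ E := by
    have := conj_mem_of_mem_normalizer (h.nE hx) b2
    rwa [← conj_mul] at this
  rcases MB2_dih_mod ha.2 (h.nE cP) a2 c2 with ⟨k, hk⟩ | ⟨k, k1, k2, k3, k4⟩
  · have gP : x⁻¹ * (a * (x * b * x⁻¹)) ^ k ∈ P := mul_mem (inv_mem hx) (pow_mem (mul_mem aP cP) k)
    have e := conj_mem_of_mem_normalizer' (h.nE hx) hk
    have e' : x⁻¹ * (a * (x * b * x⁻¹)) ^ k * a * (x⁻¹ * (a * (x * b * x⁻¹)) ^ k)⁻¹ * b⁻¹ ∈ E := by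
      convert e using 1
      generalize (a * (x * b * x⁻¹)) ^ k = t
      group
    exact ⟨_, h.MB2_se gP (h.RM ha) (MB2_two h.pS ha.1) ha' (h.RM hb) e', e'⟩
  · have tP : (a * (x * b * x⁻¹)) ^ k ∈ P := pow_mem (mul_mem aP cP) k
    have tM := h.MB2_se tP (h.RM ha) (MB2_two h.pS ha.1) ha' (h.RM ha) k3
    obtain ⟨j, hj⟩ := MB2_two h.pS (h.le k2)
    refine (cM (h.MB2_se cP tM ⟨j + 1, ?_⟩ k1 tM k4)).elim
    rw [pow_succ', pow_mul, pow_two, hj]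

theorem ME.inv_adj (h : ME S E P M) {a b : G} (ha : a ∈ S ⊓ 𝐍(E)) (hb : b ∈ S ⊓ 𝐍(E)) (ha' : a ∉ E)
    (hb' : b ∉ E) (a2 : a * a ∈ E) (b2 : b * b ∈ E) (hc : ∀ s ∈ S ⊓ 𝐍(E), ⁅b, s⁆ ∈ E) {T : Subgroup G}
    (hT : T ≤ S ⊓ 𝐍(E)) (hTa : ∀ t ∈ T, ⁅a, t⁆ ∈ E) : ∃ g ∈ M, g * a * g⁻¹ * b⁻¹ ∈ E ∧ T ^ᶜ g ≤ S := by
  obtain ⟨g, hg, he⟩ := h.inv_conj ha hb ha' hb' a2 b2
  have gP := h.MP hg
  let C : Subgroup G := sub (fun s => s ∈ P ∧ ⁅b, s⁆ ∈ E) ⟨one_mem _, by simp⟩ fun s t hs ht =>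
    ⟨mul_mem hs.1 ht.1, by
      have := mul_mem hs.2 (conj_mem_of_mem_normalizer (h.nE hs.1) ht.2)
      convert this using 1
      simp only [commutatorElement_def]
      group⟩
  have hC : IsSylowIn 2 (S ⊓ 𝐍(E)) C := h.syl.mono (fun s hs => ⟨h.syl.le hs, hc s hs⟩) fun s hs => hs.1
  have TC : T ^ᶜ g ≤ C := fun s hs => by
    obtain ⟨t, ht, rfl⟩ := mem_cj'.1 hs
    have tP : g * t * g⁻¹ ∈ P := mul_mem (mul_mem gP (h.syl.le (hT ht))) (inv_mem gP)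
    refine ⟨tP, ?_⟩
    have e1 := conj_mem_of_mem_normalizer (h.nE gP) (hTa t ht)
    have e2 := conj_mem_of_mem_normalizer (h.nE tP) he
    have := mul_mem (mul_mem (inv_mem he) e1) e2
    convert this using 1
    simp only [commutatorElement_def]
    group
  obtain ⟨c, hc', hle⟩ := hC.exists_cj_le (isPGroup_cj (h.syl.isP.to_le hT) g) TC
  have e' : c * g * a * (c * g)⁻¹ * b⁻¹ ∈ E := by
    have := mul_mem (conj_mem_of_mem_normalizer (h.nE hc'.1) he) (inv_mem hc'.2)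
    convert this using 1
    simp only [commutatorElement_def]
    group
  refine ⟨c * g, h.MB2_se (mul_mem hc'.1 gP) (h.RM ha) (MB2_two h.pS ha.1) ha' (h.RM hb) e', e', ?_⟩
  rw [← cj_cj]
  exact hle.trans inf_le_left

theorem norm_Yp (E : Subgroup G) : 𝐍(E) ≤ 𝐍(Yp E) := fun g hg => mem_normalizer_of_cj_le fun y hy => by
  obtain ⟨s, hs, rfl⟩ := mem_cj'.1 hy
  exact ⟨conj_mem_of_mem_normalizer hg hs.1,
    conj_mem_of_mem_normalizer (normalizer_le_normalizer_centralizer E hg) hs.2.1,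
    by rw [conj_mul, hs.2.2, mul_one, mul_inv_cancel]⟩

theorem Yp_comm {s t : G} (hs : s ∈ Yp E) (ht : t ∈ Yp E) : s * t = t * s := ht.2.1 s hs.1

theorem Yp_cm {s a : G} (hs : s ∈ Yp E) (ha : a ∈ 𝐍(E)) : ⁅s, a⁆ ∈ Yp E := by
  have := mul_mem hs (conj_mem_of_mem_normalizer (norm_Yp E ha) (inv_mem hs))
  convert this using 1
  simp only [commutatorElement_def]
  group

theorem Yp_cm_mul {s t a : G} (hs : s ∈ Yp E) (ht : t ∈ Yp E) (ha : a ∈ 𝐍(E)) : ⁅s * t, a⁆ = ⁅s, a⁆ * ⁅t, a⁆ := by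
  have e : ⁅s * t, a⁆ = s * ⁅t, a⁆ * s⁻¹ * ⁅s, a⁆ := by
    simp only [commutatorElement_def]
    group
  rw [e, Yp_comm hs (Yp_cm ht ha), mul_inv_cancel_right, Yp_comm (Yp_cm ht ha) (Yp_cm hs ha)]

theorem ME.rho (h : ME S E P M) {a b : G} (ha : a ∈ S ⊓ 𝐍(E)) (hb : b ∈ S ⊓ 𝐍(E)) (ha' : a ∉ E)
    (hb' : b ∉ E) (a2 : a * a ∈ E) (b2 : b * b ∈ E) :
    (centralizer {a}).relIndex (Yp E) = (centralizer {b}).relIndex (Yp E) := by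
  obtain ⟨g, hg, he⟩ := h.inv_conj ha hb ha' hb' a2 b2
  have e1 : (centralizer {a} ^ᶜ g).relIndex (Yp E ^ᶜ g) = (centralizer {a}).relIndex (Yp E) :=
    relIndex_map_map_of_injective _ _ (MulAut.conj g).injective
  rw [← e1, cj_centralizer_singleton, cj_eq_of_mem_normalizer (norm_Yp E (h.nE (h.MP hg))),
    ← inf_relIndex_right, ← inf_relIndex_right (centralizer {b})]
  congr 1
  ext y
  simp only [mem_inf, mem_centralizer_singleton_iff]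
  refine and_congr_left fun hy => ?_
  have e2 : g * a * g⁻¹ * b⁻¹ * y = y * (g * a * g⁻¹ * b⁻¹) := hy.2.1 _ he
  generalize g * a * g⁻¹ = a' at e2
  constructor
  · intro e
    have : a' * (b⁻¹ * y) = a' * (y * b⁻¹) := by rw [← mul_assoc, e2, ← mul_assoc, e, mul_assoc]
    have := mul_left_cancel this
    calc y * b = b * (b⁻¹ * y) * b := by group
      _ = b * y := by rw [this]; group
  · intro e
    calc y * a' = y * (a' * b⁻¹) * b := by group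
      _ = a' * b⁻¹ * (y * b) := by rw [← e2, mul_assoc]
      _ = a' * y := by rw [e]; group

/-- `|Y : C_Y(a)| = |[Y, a]|` -/
theorem rho_eq {a : G} (ha : a ∈ 𝐍(E)) :
    (centralizer {a}).relIndex (Yp E) = Nat.card {t : G // ∃ s ∈ Yp E, t = ⁅s, a⁆} := by
  let φ : Yp E →* G := MonoidHom.mk' (fun s => ⁅(s : G), a⁆) fun s t => Yp_cm_mul s.2 t.2 ha
  have hk : (centralizer {a}).subgroupOf (Yp E) = φ.ker := by
    ext s
    rw [mem_subgroupOf, mem_centralizer_singleton_iff, MonoidHom.mem_ker]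
    exact commutatorElement_eq_one_iff_mul_comm.symm
  rw [relIndex, hk, index_ker]
  refine Nat.card_congr (Equiv.subtypeEquivRight fun t => ?_)
  exact ⟨fun ⟨s, hs⟩ => ⟨s, s.2, hs.symm⟩, fun ⟨s, hs, e⟩ => ⟨⟨s, hs⟩, e.symm⟩⟩

theorem rho_le {a : G} (ha : a ∈ 𝐍(E)) {X : Subgroup G} (h : ∀ s ∈ Yp E, ⁅s, a⁆ ∈ X) :
    (centralizer {a}).relIndex (Yp E) ≤ Nat.card X := by
  rw [rho_eq ha]
  refine Nat.card_le_card_of_injective (fun t => (⟨t.1, ?_⟩ : X)) fun t t' e => Subtype.ext (Subtype.mk.inj e)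
  obtain ⟨s, hs, e⟩ := t.2
  exact e ▸ h s hs

/-- a complement -/
theorem rho_dec {a : G} (ha : a ∈ 𝐍(E)) {X : Subgroup G} (hX : X ≤ Yp E) (h1 : X ⊓ centralizer {a} = ⊥)
    (h2 : (centralizer {a}).relIndex (Yp E) ≤ Nat.card X) {s : G} (hs : s ∈ Yp E) : ∃ t ∈ X, ⁅s, a⁆ = ⁅t, a⁆ := by
  rw [rho_eq ha] at h2
  let f : X → {t : G // ∃ s ∈ Yp E, t = ⁅s, a⁆} := fun t => ⟨⁅(t : G), a⁆, t, hX t.2, rfl⟩
  have hf : Function.Injective f := fun t t' e => by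
    have e1 : ⁅(t : G), a⁆ = ⁅(t' : G), a⁆ := congrArg Subtype.val e
    have m : (t' : G)⁻¹ * t ∈ X := mul_mem (inv_mem t'.2) t.2
    have e2 := Yp_cm_mul (hX t'.2) (hX m) ha
    rw [mul_inv_cancel_left, e1, left_eq_mul, commutatorElement_eq_one_iff_mul_comm] at e2
    have : (t' : G)⁻¹ * t ∈ X ⊓ centralizer {a} := ⟨m, mem_centralizer_singleton_iff.2 e2⟩
    rw [h1, mem_bot, inv_mul_eq_one] at this
    exact Subtype.ext this.symm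
  obtain ⟨t, ht⟩ := (hf.bijective_of_nat_card_le h2).2 ⟨_, s, hs, rfl⟩
  exact ⟨t, t.2, (congrArg Subtype.val ht).symm⟩

/-- a map `γ : T → Y`, multiplicative on `T`, with `γ b` centralising `a` only for `b ∈ E` -/
theorem rho_ge {a : G} {T : Subgroup G} (γ : G → G) (h0 : ∀ b ∈ T, γ b ∈ Yp E)
    (h1 : ∀ b ∈ T, ∀ b' ∈ T, γ (b * b') = γ b * γ b') (h2 : ∀ b ∈ T, γ b * a = a * γ b → b ∈ E) :
    E.relIndex T ≤ (centralizer {a}).relIndex (Yp E) := by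
  let ψ : T →* Yp E := MonoidHom.mk' (fun b => ⟨γ b, h0 b b.2⟩) fun b b' => Subtype.ext (h1 b b.2 b' b'.2)
  have hle : ((centralizer {a}).subgroupOf (Yp E)).comap ψ ≤ E.subgroupOf T := fun b hb =>
    h2 b b.2 (mem_centralizer_singleton_iff.1 (mem_subgroupOf.1 (mem_comap.1 hb)))
  calc E.relIndex T ≤ (((centralizer {a}).subgroupOf (Yp E)).comap ψ).index := index_antitone hle
    _ = ((centralizer {a}).subgroupOf (Yp E)).relIndex ψ.range := index_comap _ _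
    _ ≤ ((centralizer {a}).subgroupOf (Yp E)).relIndex ⊤ :=
        relIndex_le_of_le_right le_top (by rw [relIndex_top_right]; exact FiniteIndex.index_ne_zero)
    _ = _ := relIndex_top_right _

theorem nrm_of (hE : E ≤ S) {y a : G} (hy : y ∈ 𝐂(E)) (h : S ⊓ centralizer {y} ≤ E) (ha : a ∈ S)
    (h' : a * y * a⁻¹ ∈ 𝐂(E)) : a ∈ 𝐍(E) := by
  have _ := hy
  rw [← inv_mem_iff]
  refine mem_normalizer_of_cj_le fun s hs => ?_
  obtain ⟨e, he, rfl⟩ := mem_cj'.1 hs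
  refine h ⟨S.mul_mem (S.mul_mem (S.inv_mem ha) (hE he)) (S.inv_mem (S.inv_mem ha)), mem_centralizer_singleton_iff.2 ?_⟩
  have e1 : e * (a * y * a⁻¹) = a * y * a⁻¹ * e := h' e he
  calc a⁻¹ * e * a⁻¹⁻¹ * y = a⁻¹ * (e * (a * y * a⁻¹)) * a := by group
    _ = _ := by rw [e1]; group

theorem ex_Yp (hE : IsPGroup 2 E) {T : Subgroup G} (hT : T ≤ E) (hn : E ≤ 𝐍(T)) (h : T ≠ ⊥) :
    ∃ t ∈ T, t ≠ 1 ∧ t ∈ Yp E := by
  obtain ⟨t, ht, ho⟩ := exists_orderOf_eq_prime ((hE.to_le hT).to_le (inf_le_left (b := 𝐂(E))))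
    (inf_centralizer_ne_bot (hE.to_le hT) hE hn h)
  refine ⟨t, ht.1, fun e => by simp [e] at ho, hT ht.1, ht.2, ?_⟩
  rw [← pow_two, ← ho, pow_orderOf_eq_one]

/-- a central element modulo `E` -/
theorem ex_cen (hS : IsPGroup 2 S) {T : Subgroup G} (hT : T ≤ S ⊓ 𝐍(E)) (hn : S ⊓ 𝐍(E) ≤ 𝐍(T)) (h : ¬ T ≤ E) :
    ∃ t ∈ T, t ∉ E ∧ ∀ s ∈ S ⊓ 𝐍(E), ⁅t, s⁆ ∈ E := by
  have hR : IsPGroup 2 (S ⊓ 𝐍(E) : Subgroup G) := hS.to_le inf_le_left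
  induction T using WellFoundedLT.induction with
  | ind T ih =>
    by_cases hc : ⁅T, S ⊓ 𝐍(E)⁆ ≤ E
    · obtain ⟨t, ht, tE⟩ := SetLike.not_le_iff_exists.1 h
      exact ⟨t, ht, tE, fun s hs => hc (commutator_mem_commutator ht hs)⟩
    · have lt := commutator_lt_of_isPGroup (hR.to_le hT) hR hn (fun e => h (e ▸ bot_le))
      obtain ⟨t, ht, h'⟩ := ih _ lt (lt.le.trans hT) (le_normalizer_commutator hn le_normalizer) hc
      exact ⟨t, lt.le ht, h'⟩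

theorem MB2_cj {z x s : G} (hz : z ∈ 𝐂(S)) (hs : s ∈ (S ⊓ 𝐍(E)) ^ᶜ x) : s * (x * z * x⁻¹) = x * z * x⁻¹ * s := by
  obtain ⟨r, hr, rfl⟩ := mem_cj'.1 hs
  rw [conj_mul, conj_mul, hz r hr.1]

theorem ME.reg (h : ME S E P M) {z x : G} (hz : z ∈ S ⊓ 𝐂(S)) (z2 : z * z = 1) (hP : z ∉ 𝐂(P)) (hx : x ∈ P)
    (hM : x ∉ M) : x * z * x⁻¹ ∈ Yp E ∧ S ⊓ centralizer {x * z * x⁻¹} ≤ E := by
  have zC : z ∈ 𝐂(E) := centralizer_anti h.le hz.2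
  have yY : x * z * x⁻¹ ∈ Yp E := conj_mem_of_mem_normalizer (norm_Yp E (h.nE hx)) ⟨h.cen ⟨hz.1, zC⟩, zC, z2⟩
  refine ⟨yY, grow h.pS (fun e he => ⟨h.le he, mem_centralizer_singleton_iff.2 (yY.2.1 e he)⟩) inf_le_left
    fun a ha => ?_⟩
  by_contra aE
  have hK : P ≤ centralizer {x * z * x⁻¹} :=
    h.gen (g := x) (x := 1) hx (one_mem _) (by simpa using hM) ⟨ha.1.1, ha.2⟩ aE
      (fun s hs => mem_centralizer_singleton_iff.2 (MB2_cj hz.2 hs)) (by simpa using ha.1.2)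
  have e : x * z * x⁻¹ = z := by
    have := mem_centralizer_singleton_iff.1 (hK hx)
    rw [inv_mul_cancel_right] at this
    exact mul_left_cancel this
  rw [e] at hK
  exact hP fun g hg => mem_centralizer_singleton_iff.1 (hK hg)

/-- the `Z₀` trick -/
theorem ME.z0 (h : ME S E P M) {Z : Subgroup G} (hZ : Z ≤ S ⊓ 𝐂(S)) (hP : ¬ Z ≤ 𝐂(P)) {z x : G} (hz : z ∈ Z)
    (hx : x ∈ P) (hM : x ∉ M) (hs : ∀ t ∈ Z, ∃ a ∈ S ⊓ 𝐍(E), ⁅x * z * x⁻¹, a⁆ = t ∧ (t ≠ 1 → a ∉ E)) :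
    Z ⊓ 𝐂(P) = ⊥ := by
  rw [eq_bot_iff]
  intro t ht
  by_contra t1
  obtain ⟨a, ha, e, aE⟩ := hs t ht.1
  have hN : P ≤ 𝐍((Z ⊓ 𝐂(P) : Subgroup G)) :=
    le_normalizer_of_le_centralizer fun g hg d hd => (hd.2 g hg).symm
  have k := h.fix_mod (p := x * z * x⁻¹) hN hx hM ha (aE t1)
    (fun s hs => by
      rw [commutatorElement_eq_one_iff_mul_comm.2 (MB2_cj (hZ hz).2 hs).symm]
      exact one_mem _) (e ▸ ht)
  refine hP fun t' ht' => ?_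
  obtain ⟨a', ha', e', -⟩ := hs t' ht'
  exact (e' ▸ k a' (h.syl.le ha')).2

end H46.Sl
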