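import Cfsg.Agent.Lib.SLM.Bas2
import Cfsg.Agent.Lib.SLM.LA
import Cfsg.Agent.Lib.SLM.MB2

/-! Unitriangular Sylow 2-subgroups, package A1a: see `blueprint/SLM/README.md`. -/

set_option autoImplicit false
set_option linter.unusedSectionVars false

namespace H46.Sl
open Subgroup H69 Cfsg Matrix
open scoped commutatorElement

namespace Fr
variable {G : Type*} [Group G] [Finite G] {F : Type*} [Field F] [Fintype F] [CharP F 2] {n : ℕ}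
  (f : Fr G F n) {E P M : Subgroup G}

theorem A1a_cj {A : Subgroup G} {g p : G} (h : g ∈ 𝐍(A)) (hp : p ∈ A) : g * p * g⁻¹ ∈ A :=
  (mem_normalizer_iff.1 h p).1 hp

theorem A1a_cj' {A : Subgroup G} {g p : G} (h : g ∈ 𝐍(A)) (hp : p ∈ A) : g⁻¹ * p * g ∈ A := by
  simpa using A1a_cj (inv_mem h) hp

theorem A1a_cz {A : Subgroup G} {g z : G} (h : g ∈ 𝐂(A)) (hz : z ∈ A) : g * z * g⁻¹ = z := by
  rw [← mem_centralizer_iff.1 h z hz, mul_inv_cancel_right]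

theorem A1a_B {p q r x : G} {a b : F} (e1 : f.w r = a • f.w p + b • f.w q)
    (e2 : f.u r = a • f.u p + b • f.u q) : f.B x r = a * f.B x p + b * f.B x q := by
  simp only [B, e1, e2, dotProduct_add, add_dotProduct, dotProduct_smul, smul_dotProduct, smul_eq_mul]
  ring

theorem A1a_nd {r : G} {x y : Fin n → F} (h : ∀ s ∈ f.Q, f.B s r = f.w s ⬝ᵥ y + x ⬝ᵥ f.u s) :
    f.w r = x ∧ f.u r = y := by
  refine ⟨funext fun t => ?_, funext fun t => ?_⟩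
  · obtain ⟨s, hs, e1, e2, -⟩ := f.exQ 0 (Pi.single t 1) 0
    simpa [B, e1, e2] using h s hs
  · obtain ⟨s, hs, e1, e2, -⟩ := f.exQ (Pi.single t 1) 0 0
    simpa [B, e1, e2] using h s hs

theorem A1a_cm {g q : G} (h1 : g ∈ 𝐍(f.Q)) (hq : q ∈ f.Q) : ⁅q, g⁆ ∈ f.Q ∧
    f.w ⁅q, g⁆ = f.w q + f.w (g * q * g⁻¹) ∧ f.u ⁅q, g⁆ = f.u q + f.u (g * q * g⁻¹) := by
  have hq' := A1a_cj h1 hq
  have e : ⁅q, g⁆ = q * (g * q * g⁻¹)⁻¹ := by rw [commutatorElement_def]; group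
  have k := f.mulQ hq (inv_mem hq')
  have k' := f.invQ hq'
  rw [e]
  exact ⟨mul_mem hq (inv_mem hq'), by rw [k.1, k'.1], by rw [k.2.1, k'.2.1]⟩

theorem form {g p q : G} (h1 : g ∈ 𝐍(f.Q)) (h2 : g ∈ 𝐂(f.Z)) (hp : p ∈ f.Q) (hq : q ∈ f.Q) :
    f.B (g * p * g⁻¹) (g * q * g⁻¹) = f.B p q ∧ f.w (g * p * g⁻¹) ⬝ᵥ f.u (g * p * g⁻¹) = f.w p ⬝ᵥ f.u p := by
  have hp' := A1a_cj h1 hp
  have hq' := A1a_cj h1 hq
  refine ⟨?_, ?_⟩
  · rw [← (f.cmQQ hp' hq').2, ← conjugate_commutatorElement, A1a_cz h2 (f.cmQQ hp hq).1,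
      (f.cmQQ hp hq).2]
  · rw [← (f.sqQ hp').2, show g * p * g⁻¹ * (g * p * g⁻¹) = g * (p * p) * g⁻¹ by group,
      A1a_cz h2 (f.sqQ hp).1, (f.sqQ hp).2]

theorem lin {g p q r : G} (h1 : g ∈ 𝐍(f.Q)) (h2 : g ∈ 𝐂(f.Z)) (hp : p ∈ f.Q) (hq : q ∈ f.Q) (hr : r ∈ f.Q)
    {a b : F} (e1 : f.w r = a • f.w p + b • f.w q) (e2 : f.u r = a • f.u p + b • f.u q) :
    f.w (g * r * g⁻¹) = a • f.w (g * p * g⁻¹) + b • f.w (g * q * g⁻¹) ∧
    f.u (g * r * g⁻¹) = a • f.u (g * p * g⁻¹) + b • f.u (g * q * g⁻¹) := by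
  refine f.A1a_nd fun s hs => ?_
  have hs' := A1a_cj' h1 hs
  have e : s = g * (g⁻¹ * s * g) * g⁻¹ := by group
  have k : ∀ x ∈ f.Q, f.B s (g * x * g⁻¹) = f.B (g⁻¹ * s * g) x := fun x hx => by
    rw [← (f.form h1 h2 hs' hx).1, ← e]
  rw [k r hr, f.A1a_B e1 e2, ← k p hp, ← k q hq]
  simp only [B, dotProduct_add, add_dotProduct, dotProduct_smul, smul_dotProduct, smul_eq_mul]
  ring

theorem sieg {g a e e' p : G} (h1 : g ∈ 𝐍(f.Q)) (h2 : g ∈ 𝐂(f.Z)) {s t : Fin n} (hst : s < t) {l : F}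
    (ha : f.El s t l a) (he : e ∈ f.V) (we : f.w e = Pi.single t 1) (he' : e' ∈ f.W)
    (ue : f.u e' = Pi.single s 1) (hp : p ∈ f.Q) : ⁅g * a * g⁻¹, p⁆ ∈ f.Q ∧
    f.w ⁅g * a * g⁻¹, p⁆ = (l * f.B p (g * e' * g⁻¹)) • f.w (g * e * g⁻¹) +
      (l * f.B p (g * e * g⁻¹)) • f.w (g * e' * g⁻¹) ∧
    f.u ⁅g * a * g⁻¹, p⁆ = (l * f.B p (g * e' * g⁻¹)) • f.u (g * e * g⁻¹) +
      (l * f.B p (g * e * g⁻¹)) • f.u (g * e' * g⁻¹) := by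
  have hp' := A1a_cj' h1 hp
  have ep : p = g * (g⁻¹ * p * g) * g⁻¹ := by group
  have e0 : ⁅g * a * g⁻¹, p⁆ = g * ⁅a, g⁻¹ * p * g⁆ * g⁻¹ := by
    rw [conjugate_commutatorElement, ← ep]
  have hr := (f.cmQ ha.1 hp').1
  have hc := El.cm hst ha hp'
  have hV := f.mem_V.1 he
  have hW := f.mem_W.1 he'
  have k : ∀ x ∈ f.Q, f.B p (g * x * g⁻¹) = f.B (g⁻¹ * p * g) x := fun x hx => by
    rw [← (f.form h1 h2 hp' hx).1, ← ep]
  rw [e0, k _ hV.1, k _ hW.1]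
  refine ⟨A1a_cj h1 hr, f.lin h1 h2 hV.1 hW.1 hr ?_ ?_⟩
  · rw [hc.1]
    ext x
    by_cases hx : x = t <;> simp [B, we, ue, hV.2, hW.2, hx]
  · rw [hc.2.1]
    ext x
    by_cases hx : x = s <;> simp [B, we, ue, hV.2, hW.2, hx]

/-- if `P` fixes `p` modulo `D j i` it fixes the multiples of `p` -/
theorem A1.fix_smul {f : Fr G F n} {j i : ℕ} (h : f.A1 E P M j i) {p q : G} (hp : p ∈ f.Q) (hq : q ∈ f.Q)
    (k : ∀ g ∈ P, ⁅p, g⁆ ∈ f.D j i) {a : F} {d : G} (hd : d ∈ f.D j i) (e1 : f.w q = a • f.w p + f.w d)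
    (e2 : f.u q = a • f.u p + f.u d) : ∀ g ∈ P, ⁅q, g⁆ ∈ f.D j i := by
  intro g hg
  have h1 := h.nQ hg
  have hj := h.dd.jn
  have hi := h.dd.in'
  have hd' : g * d * g⁻¹ ∈ f.D j i :=
    A1a_cj (normalizer_inf_normalizer_le_normalizer_sup _ _ ⟨h.dd.PV hg, h.dd.PW hg⟩) hd
  have kd := (f.mem_D hj hi).1 hd
  have kd' := (f.mem_D hj hi).1 hd'
  have kp := (f.mem_D hj hi).1 (k g hg)
  have cp := f.A1a_cm h1 hp
  have cq := f.A1a_cm h1 hq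
  have hl := f.lin h1 (h.cZ hg) hp kd.1 hq (a := a) (b := 1) (by rw [e1, one_smul]) (by rw [e2, one_smul])
  refine (f.mem_D hj hi).2 ⟨cq.1, fun t ht => ?_, fun t ht => ?_⟩
  · have := kp.2.1 t ht
    rw [cp.2.1, Pi.add_apply] at this
    rw [cq.2.1, hl.1, e1]
    simp only [Pi.add_apply, Pi.smul_apply, smul_eq_mul, kd.2.1 t ht, kd'.2.1 t ht]
    linear_combination a * this
  · have := kp.2.2 t ht
    rw [cp.2.2, Pi.add_apply] at this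
    rw [cq.2.2, hl.2, e2]
    simp only [Pi.add_apply, Pi.smul_apply, smul_eq_mul, kd.2.2 t ht, kd'.2.2 t ht]
    linear_combination a * this

end Fr

end H46.Sl
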