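import Cfsg.Agent.Lib.SLM.Bas2
import Cfsg.Agent.Lib.SLM.LA
import Cfsg.Agent.Lib.SLM.MB2

/-! Unitriangular Sylow 2-subgroups, package LQ: see `blueprint/SLM/README.md`. -/

set_option autoImplicit false
set_option linter.unusedSectionVars false

namespace H46.Sl
open Subgroup H69 Cfsg Matrix
open scoped commutatorElement

namespace Fr
variable {G : Type*} [Group G] [Finite G] {F : Type*} [Field F] [Fintype F] [CharP F 2] {n : ℕ}
  (f : Fr G F n) {E P M : Subgroup G}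

theorem LQ_add (x : Fin n → F) : x + x = 0 := by
  ext i; exact CharTwo.add_self_eq_zero _

theorem LQ_eq {x y : Fin n → F} (h : x + y = 0) : x = y := by
  rw [← add_zero x, ← LQ_add y, ← add_assoc, h, zero_add]

theorem LQ_perp {x : Fin n → F} (h : ∀ a, a ⬝ᵥ x = 0) : x = 0 := by
  ext i; simpa using h (Pi.single i 1)

theorem LQ_one {T : Subgroup G} (hT : T ≤ f.S) {x : G} (hx : x ∈ f.Q)
    (h : ∀ y ∈ T, ∀ p ∈ f.Q, x * ⁅y, p⁆ = ⁅y, p⁆ * x) {y : G} (hy : y ∈ T) : ⁅y, x⁆ ∈ f.Z := by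
  obtain ⟨c1, c2, c3, -⟩ := f.cmQ (hT hy) hx
  refine f.mem_Z.2 ⟨c1, ?_, ?_⟩
  · rw [c2]
    refine LQ_perp fun b => ?_
    obtain ⟨p, hp, e1, e2, -⟩ := f.exQ 0 b 0
    obtain ⟨d1, d2, d3, -⟩ := f.cmQ (hT (inv_mem hy)) hp
    have := (f.commQ hx d1).1 (h _ (inv_mem hy) p hp)
    rw [B, d2, d3, e1, e2] at this
    rw [dotProduct_comm, add_dotProduct, ← dotProduct_mulVec, ← dotProduct_add]
    simpa using this
  · rw [c3]
    refine LQ_perp fun a => ?_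
    obtain ⟨p, hp, e1, e2, -⟩ := f.exQ a 0 0
    obtain ⟨d1, d2, d3, -⟩ := f.cmQ (hT (inv_mem hy)) hp
    have := (f.commQ hx d1).1 (h _ (inv_mem hy) p hp)
    rw [B, d2, d3, e1, e2, inv_inv] at this
    rw [dotProduct_add, dotProduct_mulVec, ← add_dotProduct]
    simpa using this

theorem LQ_hom {T : Subgroup G} (hT : T ≤ f.S) (C : AddSubgroup ((Fin n → F) × (Fin n → F)))
    (h : ∀ y ∈ T, ∀ a, (a ᵥ* f.L y + a, (0 : Fin n → F)) ∈ C ∧ ((0 : Fin n → F), f.L y *ᵥ a + a) ∈ C) :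
    ∃ ψ : T →* Multiplicative (((Fin n → F) × (Fin n → F)) ⧸ C),
      ∀ y : T, ψ y = Multiplicative.ofAdd (QuotientAddGroup.mk (f.w y, f.u y)) := by
  refine ⟨MonoidHom.mk' (fun y => Multiplicative.ofAdd (QuotientAddGroup.mk (f.w y, f.u y))) fun a b => ?_,
    fun _ => rfl⟩
  rw [← ofAdd_add, ← QuotientAddGroup.mk_add]
  congr 1
  rw [eq_comm, QuotientAddGroup.eq, coe_mul, f.w_mul _ (hT a.2) _ (hT b.2), f.u_mul _ (hT a.2) _ (hT b.2)]
  convert C.add_mem (h b b.2 (f.w a)).1 (h a a.2 (f.u b)).2 using 1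
  ext i <;> simp [CharTwo.neg_eq] <;> grind

theorem lq (hE : E ≤ f.S) (hQ : f.Q ≤ E) {g : G} (h1 : g ∈ 𝐍(E)) (h2 : g ∈ 𝐍(f.Z)) : g ∈ 𝐍(f.Q) := by
  classical
  have hT : f.Q ^ᶜ g ≤ f.S := (cj_le_of_mem_normalizer hQ h1).trans hE
  have hT' : f.Q ^ᶜ g⁻¹ ≤ f.S := (cj_le_of_mem_normalizer hQ (inv_mem h1)).trans hE
  -- commutators
  have cU : ∀ y ∈ f.Q ^ᶜ g, ∀ p ∈ f.Q, ⁅y, p⁆ ∈ f.Q ^ᶜ g := fun y hy p hp => by
    have hp' : p ∈ 𝐍(f.Q ^ᶜ g) := by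
      rw [← cj_normalizer]
      exact mem_cj.2 (f.nQ (hE (by simpa using (mem_normalizer_iff.1 (inv_mem h1) p).1 (hQ hp))))
    have := mul_mem hy ((mem_normalizer_iff.1 hp' _).1 (inv_mem hy))
    simpa [commutatorElement_def, mul_assoc] using this
  have cZ : ∀ y ∈ f.Q ^ᶜ g, ∀ y' ∈ f.Q ^ᶜ g, ⁅y, y'⁆ ∈ f.Z := fun y hy y' hy' => by
    obtain ⟨a, ha, rfl⟩ := mem_cj'.1 hy
    obtain ⟨b, hb, rfl⟩ := mem_cj'.1 hy'
    have := (mem_normalizer_iff.1 h2 _).1 (f.cmQQ ha hb).1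
    convert this using 1
    simp only [commutatorElement_def]; group
  have two : ∀ y ∈ f.Q ^ᶜ g, (∀ y' ∈ f.Q ^ᶜ g, ∀ p ∈ f.Q, y * ⁅y', p⁆ = ⁅y', p⁆ * y) → y ∈ f.Q := by
    intro y hy h
    refine f.modZ (hT hy) fun v hv => ?_
    obtain ⟨x, hx, rfl⟩ := mem_cj'.1 hy
    have k := f.LQ_one hT' hx (fun y0 hy0 p0 hp0 => by
      have k1 := h _ (cj_mem g hp0) (g * y0 * g⁻¹) (by simpa using mem_cj.1 hy0)
      have k2 : Commute (g * x * g⁻¹) ⁅g * p0 * g⁻¹, g * y0 * g⁻¹⁆⁻¹ := Commute.inv_right k1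
      have e : ⁅g * p0 * g⁻¹, g * y0 * g⁻¹⁆⁻¹ = g * ⁅y0, p0⁆ * g⁻¹ := by
        simp only [commutatorElement_def]; group
      rw [e] at k2
      calc _ = g⁻¹ * (g * x * g⁻¹ * (g * ⁅y0, p0⁆ * g⁻¹)) * g := by group
        _ = _ := by rw [k2.eq]; group) (cj_mem g⁻¹ (f.Vs_le 0 hv))
    have := inv_mem ((mem_normalizer_iff.1 h2 _).1 k)
    convert this using 1
    simp only [commutatorElement_def]; group
  obtain ⟨C, hC⟩ : ∃ C : AddSubgroup ((Fin n → F) × (Fin n → F)), ∀ x, x ∈ C ↔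
      ∀ y ∈ f.Q ^ᶜ g, x.1 ᵥ* f.L y = x.1 ∧ f.L y *ᵥ x.2 = x.2 :=
    ⟨{ carrier := {x | ∀ y ∈ f.Q ^ᶜ g, x.1 ᵥ* f.L y = x.1 ∧ f.L y *ᵥ x.2 = x.2}
       zero_mem' := fun y _ => by simp
       add_mem' := fun {a b} ha hb y hy => by
         simp [add_vecMul, mulVec_add, (ha y hy).1, (ha y hy).2, (hb y hy).1, (hb y hy).2]
       neg_mem' := fun {a} ha y hy => by
         simp [neg_vecMul, mulVec_neg, (ha y hy).1, (ha y hy).2] }, fun _ => Iff.rfl⟩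
  have UC : ∀ x ∈ f.Q, x ∈ f.Q ^ᶜ g → (f.w x, f.u x) ∈ C := fun x hx hx' => (hC _).2 fun y hy => by
    have k1 := (f.mem_Z.1 (cZ _ (inv_mem hy) x hx')).2.1
    have k2 := (f.mem_Z.1 (cZ _ hy x hx')).2.2
    rw [(f.cmQ (hT (inv_mem hy)) hx).2.1, inv_inv] at k1
    rw [(f.cmQ (hT hy) hx).2.2.1] at k2
    exact ⟨LQ_eq k1, LQ_eq k2⟩
  obtain ⟨ψ, hψ⟩ := f.LQ_hom hT C fun y hy a => by
    constructor
    · obtain ⟨p, hp, e1, e2, -⟩ := f.exQ a 0 0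
      obtain ⟨d1, d2, d3, -⟩ := f.cmQ (hT (inv_mem hy)) hp
      have := UC _ d1 (cU _ (inv_mem hy) p hp)
      simpa [d2, d3, e1, e2] using this
    · obtain ⟨p, hp, e1, e2, -⟩ := f.exQ 0 a 0
      obtain ⟨d1, d2, d3, -⟩ := f.cmQ (hT hy) hp
      have := UC _ d1 (cU _ hy p hp)
      simpa [d2, d3, e1, e2] using this
  obtain ⟨φ, hφ⟩ := f.LQ_hom f.Q_le C fun y hy a => by
    rw [hy.2, vecMul_one, one_mulVec, LQ_add]
    exact ⟨C.zero_mem, C.zero_mem⟩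
  have ker : ∀ y ∈ f.Q ^ᶜ g, (f.w y, f.u y) ∈ C → y ∈ f.Q := fun y hy h => two y hy fun y' hy' p hp => by
    obtain ⟨d1, d2, d3, -⟩ := f.cmQ (hT hy') hp
    obtain ⟨k1, k2⟩ := (hC _).1 (UC _ d1 (cU _ hy' p hp)) y hy
    dsimp only at k1 k2
    refine (f.comm_iff (hT hy) d1.1).2 ⟨by rw [d1.2, mul_one, one_mul], ?_, ?_, ?_⟩
    · rw [d1.2, vecMul_one, k1, add_comm]
    · rw [d1.2, one_mulVec, k2, add_comm]
    · have k3 : f.w y ᵥ* f.L y' = f.w y := ((hC _).1 h y' hy').1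
      have k4 : f.L y'⁻¹ *ᵥ f.u y = f.u y := ((hC _).1 h _ (inv_mem hy')).2
      rw [d2, d3, dotProduct_add, add_dotProduct, dotProduct_mulVec, k3, ← dotProduct_mulVec, k4,
        CharTwo.add_self_eq_zero, CharTwo.add_self_eq_zero]
  have sφ : φ.range = ⊤ := by
    rw [eq_top_iff]
    rintro x -
    obtain ⟨⟨a, b⟩, e⟩ := QuotientAddGroup.mk_surjective x.toAdd
    obtain ⟨p, hp, e1, e2, -⟩ := f.exQ a b 0
    exact ⟨⟨p, hp⟩, by rw [hφ, e1, e2, e]; rfl⟩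
  have sψ : ψ.range = ⊤ := by
    have c1 := card_eq_card_quotient_mul_card_subgroup ψ.ker
    have c2 := card_eq_card_quotient_mul_card_subgroup φ.ker
    rw [Nat.card_congr (QuotientGroup.quotientKerEquivRange ψ).toEquiv, card_cj] at c1
    rw [Nat.card_congr (QuotientGroup.quotientKerEquivRange φ).toEquiv, sφ] at c2
    have c3 : Nat.card ψ.ker ≤ Nat.card φ.ker := by
      have m : ∀ y : ψ.ker, (f.w y.1, f.u y.1) ∈ C := fun y => by
        have := y.2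
        rw [MonoidHom.mem_ker, hψ] at this
        exact (QuotientAddGroup.eq_zero_iff _).1 (ofAdd_eq_one.1 this)
      refine Nat.card_le_card_of_injective (fun y : ψ.ker => (⟨⟨y.1, ker _ y.1.2 (m y)⟩, by
        rw [MonoidHom.mem_ker, hφ]
        exact ofAdd_eq_one.2 ((QuotientAddGroup.eq_zero_iff _).2 (m y))⟩ : φ.ker)) fun a b h => ?_
      exact Subtype.ext (Subtype.ext (congrArg (fun t : φ.ker => (t.1 : G)) h))
    refine (eq_of_le_of_card_ge le_top ?_)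
    have p1 : 0 < Nat.card φ.ker := Nat.card_pos
    refine Nat.le_of_mul_le_mul_right ?_ p1
    rw [← c2, c1]
    exact Nat.mul_le_mul_left _ c3
  have onto : ∀ a b, ∃ y ∈ f.Q ^ᶜ g, (f.w y + a, f.u y + b) ∈ C := fun a b => by
    obtain ⟨y, hy⟩ := (sψ.ge (mem_top (Multiplicative.ofAdd (QuotientAddGroup.mk (a, b)))))
    rw [hψ] at hy
    refine ⟨y, y.2, ?_⟩
    have := QuotientAddGroup.eq.1 (Multiplicative.ofAdd.injective hy)
    convert this using 1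
    ext i <;> simp [CharTwo.neg_eq]
  refine cj_eq_self_iff.1 (cj_eq_of_cj_le fun y0 hy0 => ⟨hT hy0, ?_⟩)
  refine Matrix.ext_of_mulVec_single fun t => ?_
  obtain ⟨y', hy', k⟩ := onto 0 (Pi.single t 1)
  have k1 : ∀ y ∈ f.Q ^ᶜ g, f.w y ᵥ* f.L y' = f.w y := fun y hy => by
    have hz := f.mem_Z.1 (cZ y hy y' hy')
    have e : y * y' = ⁅y, y'⁆ * (y' * y) := by simp only [commutatorElement_def]; group
    have k2 := congrArg f.w e
    have k3 : f.w y' ᵥ* f.L y = f.w y' := by simpa using ((hC _).1 k y hy).1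
    rw [f.w_mul _ (hT hy) _ (hT hy'), f.w_mul _ hz.1.1 _ (hT (mul_mem hy' hy)), hz.2.1, zero_vecMul, zero_add,
      f.w_mul _ (hT hy') _ (hT hy), k3, add_comm] at k2
    exact add_left_cancel k2
  have k4 : y' ∈ f.Q := ⟨hT hy', Matrix.ext_of_single_vecMul fun s => by
    obtain ⟨y, hy, k5⟩ := onto (Pi.single s 1) 0
    have k6 := ((hC _).1 k5 y' hy').1
    rw [add_vecMul, k1 y hy] at k6
    rw [add_left_cancel k6, vecMul_one]⟩
  have k7 := ((hC _).1 (C.add_mem k (UC _ k4 hy')) y0 hy0).2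
  simp only [Prod.snd_add] at k7
  rw [add_right_comm, LQ_add, zero_add] at k7
  rw [k7, one_mulVec]

end Fr

end H46.Sl
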