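import Cfsg.Agent.Lib.SLM.DD
import Cfsg.Agent.Lib.SLM.A1a
import Cfsg.Agent.Lib.SLM.LQ

/-! Unitriangular Sylow 2-subgroups, package A1b: see `blueprint/SLM/README.md`. -/

set_option autoImplicit false
set_option linter.unusedSectionVars false

namespace H46.Sl
open Subgroup H69 Cfsg Matrix
open scoped commutatorElement

namespace Fr
variable {G : Type*} [Group G] [Finite G] {F : Type*} [Field F] [Fintype F] [CharP F 2] {n : ℕ}
  (f : Fr G F n) {E P M : Subgroup G}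

theorem A1b_DQ (j i : ℕ) : f.D j i ≤ f.Q := sup_le (f.Vs_le j) (f.Ws_le i)

theorem A1b_anti {j i j' i' : ℕ} (h1 : j' ≤ j) (h2 : i' ≤ i) : f.D j i ≤ f.D j' i' :=
  sup_le_sup (f.Vs_anti h1) (f.Ws_anti h2)

theorem A1b_cm {A : Subgroup G} {a p : G} (ha : a ∈ 𝐍(A)) (hp : p ∈ A) : ⁅a, p⁆ ∈ A := by
  rw [commutatorElement_def]
  exact mul_mem (conj_mem_of_mem_normalizer ha hp) (inv_mem hp)

theorem A1b_p {A : Subgroup G} (h : A ≤ f.Q) : IsPGroup 2 A := f.pS.to_le (h.trans f.Q_le)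

/-- the elements of odd order do not centralise `D^⊥` -/
theorem A1b_end {f : Fr G F n} {j i : ℕ} (h : f.A1 E P M j i) : ¬ Oc P (f.D (n - i) (n - j)) := by
  intro ho
  refine h.me.not_Oc_of h.QE h.nQ
    ((inf_le_inf_right _ h.me.le).trans (f.cenQ.trans (f.Vs_le n))) fun g hg hodd => ?_
  refine odd_two (f.A1b_p le_rfl) (f.A1b_DQ _ _) hodd (fun q hq => ?_) (ho g hg hodd)
  rw [← f.perpD h.dd.jn h.dd.in']
  refine ⟨A1b_cm (h.nQ hg) hq, ?_⟩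
  have hc := h.dd.cD g hg hodd
  have hn : q ∈ 𝐍(f.D j i) := f.nD j i (f.Q_le hq)
  have k : q * g⁻¹ * q⁻¹ ∈ 𝐂(f.D j i) :=
    conj_mem_of_mem_normalizer (normalizer_le_normalizer_centralizer _ hn) (inv_mem hc)
  have e : ⁅g, q⁆ = g * (q * g⁻¹ * q⁻¹) := by rw [commutatorElement_def]; group
  rw [e]
  exact mul_mem hc k

theorem ex_A1 (h : ME f.S E P M) (hZ : Oc P f.Z) (hQ : f.Q ≤ E) : ∃ j i, f.A1 E P M j i := by
  obtain ⟨j, i, d⟩ := f.ex_DD h hZ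
  have hc := f.cZ_of h hZ
  exact ⟨j, i, h, d, hQ, fun g hg => f.lq h.le hQ (h.nE hg) (le_normalizer_of_le_centralizer hc hg), hc⟩

theorem A1b_perp {f : Fr G F n} {j i : ℕ} (h : f.A1 E P M j i) : P ≤ 𝐍(f.D (n - i) (n - j)) := by
  rw [← f.perpD h.dd.jn h.dd.in']
  exact le_normalizer_inf h.nQ (le_normalizer_centralizer h.dd.PD)

theorem A1.om {f : Fr G F n} {j i : ℕ} (h : f.A1 E P M j i) {X Y : Subgroup G} (h1 : f.D j i ≤ X) (h2 : X ≤ Y)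
    (h3 : Y ≤ f.D (n - i) (n - j)) (hX : P ≤ 𝐍(X)) (hY : P ≤ 𝐍(Y)) {a : G} (ha : a ∈ f.S ⊓ 𝐍(E))
    (c1 : ∀ p ∈ f.D (n - i) (n - j), ⁅a, p⁆ ∈ Y) (c2 : ∀ p ∈ Y, ⁅a, p⁆ ∈ X) (c3 : ∀ p ∈ X, ⁅a, p⁆ ∈ f.D j i) :
    a ∈ E := by
  by_contra hE
  refine A1b_end h fun g hg hodd => ?_
  have q3 := f.A1b_DQ (n - i) (n - j)
  have k3 : g ∈ 𝐂(X) := odd_two (f.A1b_p (h2.trans (h3.trans q3))) h1 hodd
    (h.me.pm_mod hX h.dd.PD ha hE c3 g hg hodd) (h.dd.cD g hg hodd)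
  have k2 : g ∈ 𝐂(Y) := odd_two (f.A1b_p (h3.trans q3)) h2 hodd (h.me.pm_mod hY hX ha hE c2 g hg hodd) k3
  exact odd_two (f.A1b_p q3) h3 hodd (h.me.pm_mod (A1b_perp h) hY ha hE c1 g hg hodd) k2

theorem A1.Pperp {f : Fr G F n} {j i : ℕ} (h : f.A1 E P M j i) : P ≤ 𝐍(f.D (n - i) (n - j)) :=
  A1b_perp h

theorem A1b_om {f : Fr G F n} {j i : ℕ} (h : f.A1 E P M j i) (hij : n ≤ i + j) {a : G} (ha : a ∈ f.S ⊓ 𝐍(E))
    (c1 : ∀ p ∈ f.D (n - i) (n - j), ⁅a, p⁆ ∈ f.D j i) : a ∈ E :=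
  h.om le_rfl le_rfl (f.A1b_anti (by omega) (by omega)) h.dd.PD h.dd.PD ha c1
    (fun _ hp => A1b_cm (f.nD j i ha.1) hp) (fun _ hp => A1b_cm (f.nD j i ha.1) hp)

theorem A1.lt {f : Fr G F n} {j i : ℕ} (h : f.A1 E P M j i) : n + 1 < i + j := by
  by_contra hn
  by_cases h0 : i + j ≤ n
  · exact A1b_end h fun g hg hodd =>
      centralizer_anti (f.A1b_anti (by omega) (by omega)) (h.dd.cD g hg hodd)
  · obtain ⟨a, ha, hE⟩ := h.me.ex
    refine hE (A1b_om h (by omega) ha fun p hp => ?_)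
    have hp' : p ∈ f.D (j - 1) (i - 1) := f.A1b_anti (by omega) (by omega) hp
    rw [← commutatorElement_inv]
    exact inv_mem (h.dd.cmD hp' ha.1)

theorem A1b_K0 {f : Fr G F n} {j i : ℕ} (h : f.A1 E P M j i) {s : G} (hs : s ∈ f.S)
    (k : ∀ p ∈ f.D (n - i) (n - j), ⁅s, p⁆ ∈ f.D j i) : s ∈ E := by
  have hlt := h.lt
  let K : Subgroup G := sub (fun s => s ∈ f.S ∧ ∀ p ∈ f.D (n - i) (n - j), ⁅s, p⁆ ∈ f.D j i)
    ⟨one_mem _, fun p _ => by rw [commutatorElement_one_left]; exact one_mem _⟩ fun a b ha hb =>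
    ⟨mul_mem ha.1 hb.1, fun p hp => by
      have e : ⁅a * b, p⁆ = a * ⁅b, p⁆ * a⁻¹ * ⁅a, p⁆ := by simp only [commutatorElement_def]; group
      rw [e]
      exact mul_mem (conj_mem_of_mem_normalizer (f.nD j i ha.1) (hb.2 p hp)) (ha.2 p hp)⟩
  have hK : ∀ a, a ∈ K ↔ a ∈ f.S ∧ ∀ p ∈ f.D (n - i) (n - j), ⁅a, p⁆ ∈ f.D j i := fun a => Iff.rfl
  have hN : f.S ≤ 𝐍(K) := le_normalizer_of_cj_le fun e he x hx => by
    obtain ⟨a, ha, rfl⟩ := mem_cj'.1 hx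
    refine (hK _).2 ⟨mul_mem (mul_mem he ((hK a).1 ha).1) (inv_mem he), fun p hp => ?_⟩
    have e' : ⁅e * a * e⁻¹, p⁆ = e * ⁅a, e⁻¹ * p * e⁆ * e⁻¹ := by simp only [commutatorElement_def]; group
    rw [e']
    exact conj_mem_of_mem_normalizer (f.nD j i he)
      (((hK a).1 ha).2 _ (conj_mem_of_mem_normalizer' (f.nD _ _ he) hp))
  exact grow' f.pS h.me.le (h.me.le.trans hN) (fun a ha => ((hK a).1 ha).1)
    (fun a ha => A1b_om h (by omega) ⟨((hK a).1 ha.1).1, ha.2⟩ ((hK a).1 ha.1).2) ((hK s).2 ⟨hs, k⟩)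

theorem A1.K {f : Fr G F n} {j i : ℕ} (h : f.A1 E P M j i) {s : G} (hs : s ∈ f.S)
    (k : ∀ a b : Fin n, n ≤ a.val + i → a < b → b.val < j → f.L s a b = 0) : s ∈ E := by
  have hlt := h.lt
  have hj := h.dd.jn
  have hi := h.dd.in'
  let K : Subgroup G := sub (fun s => s ∈ f.S ∧ ∀ x : Fin n → F, (∀ t : Fin n, t.val < n - i → x t = 0) →
      ∀ t : Fin n, t.val < j → (x ᵥ* f.L s) t = x t)
    ⟨one_mem _, fun x _ t _ => by rw [f.L_one, vecMul_one]⟩ fun a b ha hb =>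
    ⟨mul_mem ha.1 hb.1, fun x hx t ht => by
      rw [f.L_mul _ ha.1 _ hb.1, ← vecMul_vecMul, hb.2 _ (fun r hr => by
        rw [ha.2 x hx r (by omega), hx r hr]) t ht, ha.2 x hx t ht]⟩
  have hK : ∀ a, a ∈ K ↔ a ∈ f.S ∧ ∀ x : Fin n → F, (∀ t : Fin n, t.val < n - i → x t = 0) →
      ∀ t : Fin n, t.val < j → (x ᵥ* f.L a) t = x t := fun a => Iff.rfl
  have hsK : s ∈ K := (hK s).2 ⟨hs, fun x hx t ht => by
    show ∑ a, x a * f.L s a t = x t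
    rw [Finset.sum_eq_single t]
    · rw [f.ut s hs t t le_rfl, one_apply_eq, mul_one]
    · intro a _ hat
      rcases lt_or_gt_of_ne hat with h1 | h1
      · by_cases h2 : n ≤ a.val + i
        · rw [k a t h2 h1 ht, mul_zero]
        · rw [hx a (by omega), zero_mul]
      · rw [f.ut s hs a t h1.le, one_apply_ne hat, mul_zero]
    · intro h1; exact absurd (Finset.mem_univ t) h1⟩
  refine A1b_K0 h hs fun p hp => ?_
  obtain ⟨pQ, pw, pu⟩ := (f.mem_D (by omega) (by omega)).1 hp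
  obtain ⟨c1, c2, c3, -⟩ := f.cmQ hs pQ
  refine (f.mem_D hj hi).2 ⟨c1, fun t ht => ?_, fun t ht => ?_⟩
  · rw [c2, Pi.add_apply, ((hK _).1 (inv_mem hsK)).2 _ pw t ht, CharTwo.add_self_eq_zero]
  · have e : (f.L s *ᵥ f.u p) t = f.u p t := by
      show ∑ b, f.L s t b * f.u p b = f.u p t
      rw [Finset.sum_eq_single t]
      · rw [f.ut s hs t t le_rfl, one_apply_eq, one_mul]
      · intro b _ hbt
        rcases lt_or_gt_of_ne hbt with h1 | h1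
        · rw [f.ut s hs t b h1.le, one_apply_ne (Ne.symm hbt), zero_mul]
        · by_cases h2 : b.val < j
          · rw [k t b ht h1 h2, zero_mul]
          · rw [pu b (by omega), mul_zero]
      · intro h1; exact absurd (Finset.mem_univ t) h1
    rw [c3, Pi.add_apply, e, CharTwo.add_self_eq_zero]

theorem A1.mvV {f : Fr G F n} {j i : ℕ} (h : f.A1 E P M j i) {v : G} (hv : v ∈ f.D (j - 1) i)
    (hv' : v ∉ f.D j i) : ∃ g ∈ P, ⁅v, g⁆ ∉ f.D j i := by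
  by_contra hn
  have k : ∀ g ∈ P, ⁅v, g⁆ ∈ f.D j i := fun g hg => by
    by_contra h1; exact hn ⟨g, hg, h1⟩
  have hj := h.dd.jn
  have hj1 := h.dd.j1
  have hi := h.dd.in'
  obtain ⟨vQ, vw, vu⟩ := (f.mem_D (by omega) hi).1 hv
  obtain ⟨v', hv1, g, hg, hg'⟩ := DD.exV h.me h.dd
  obtain ⟨v'Q, v'u, v'w, -⟩ := f.mem_Vs.1 hv1
  let r : Fin n := ⟨j - 1, by omega⟩
  have hr : ∀ t : Fin n, t.val < j → t.val < j - 1 ∨ t = r := fun t ht => by
    by_cases h1 : t.val < j - 1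
    · exact Or.inl h1
    · exact Or.inr (Fin.ext (by show t.val = j - 1; omega))
  have h0 : f.w v r ≠ 0 := fun h0 => hv' ((f.mem_D hj hi).2 ⟨vQ, fun t ht => by
    rcases hr t ht with h1 | h1
    · exact vw t h1
    · rw [h1, h0], vu⟩)
  obtain ⟨d, dQ, dw, du, -⟩ := f.exQ (f.w v' - (f.w v' r / f.w v r) • f.w v)
    (f.u v' - (f.w v' r / f.w v r) • f.u v) 0
  have hd : d ∈ f.D j i := (f.mem_D hj hi).2 ⟨dQ, fun t ht => by
    rw [dw, Pi.sub_apply, Pi.smul_apply, smul_eq_mul]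
    rcases hr t ht with h1 | h1
    · rw [vw t h1, v'w t h1, mul_zero, sub_zero]
    · rw [h1, div_mul_cancel₀ _ h0, sub_self], fun t ht => by
    rw [du, Pi.sub_apply, Pi.smul_apply, smul_eq_mul, vu t ht, v'u, mul_zero, sub_zero, Pi.zero_apply]⟩
  exact hg' (h.fix_smul vQ v'Q k hd (a := f.w v' r / f.w v r) (by rw [dw]; abel) (by rw [du]; abel) g hg)

end Fr

end H46.Sl
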