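import Cfsg.Agent.Lib.SLM.A1b

/-! Unitriangular Sylow 2-subgroups, package A1c: see `blueprint/SLM/README.md`. -/

set_option autoImplicit false
set_option linter.unusedSectionVars false

namespace H46.Sl
open Subgroup H69 Cfsg Matrix
open scoped commutatorElement

namespace Fr
variable {G : Type*} [Group G] [Finite G] {F : Type*} [Field F] [Fintype F] [CharP F 2] {n : ℕ}
  (f : Fr G F n) {E P M : Subgroup G}

theorem A1c_dual (a b : ℕ) : f.dual.D a b = f.D b a := by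
  show f.dual.Vs a ⊔ f.dual.Ws b = f.Vs b ⊔ f.Ws a
  rw [f.dual_Vs, f.dual_Ws, sup_comm]

theorem A1c_cj {f : Fr G F n} {j i : ℕ} (h : f.A1 E P M j i) {x p g : G} (hx : x ∈ P)
    (hp : p ∈ f.D (j - 1) (i - 1)) (hg : g ∈ f.S) : ⁅x * p * x⁻¹, x * g * x⁻¹⁆ ∈ f.D j i := by
  rw [← conjugate_commutatorElement]
  exact conj_mem_of_mem_normalizer (h.dd.PD hx) (h.dd.cmD hp hg)

theorem A1c_cjE {f : Fr G F n} {j i : ℕ} (h : f.A1 E P M j i) {x p g : G} (hx : x ∈ P)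
    (hp : p ∈ f.D (j - 1) (i - 1)) (hg : g ∈ E) : ⁅g, x * p * x⁻¹⁆ ∈ f.D j i := by
  have := A1c_cj h hx hp (h.me.le (conj_mem_of_mem_normalizer' (h.me.nE hx) hg))
  rw [show x * (x⁻¹ * g * x) * x⁻¹ = g by group] at this
  rw [← commutatorElement_inv]
  exact inv_mem this

/-- a conjugate that lies again in `D (j - 1) (i - 1)` is fixed modulo `D j i` -/
theorem A1c_fix {f : Fr G F n} {j i : ℕ} (h : f.A1 E P M j i) {x p : G} (hx : x ∈ P) (hM : x ∉ M)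
    (hp : p ∈ f.D (j - 1) (i - 1)) (hp' : x * p * x⁻¹ ∈ f.D (j - 1) (i - 1)) :
    ∀ g ∈ P, ⁅x * p * x⁻¹, g⁆ ∈ f.D j i := by
  obtain ⟨a, ha, aE⟩ := h.me.ex
  refine h.me.fix_mod h.dd.PD hx hM ha aE (fun s hs => ?_) (h.dd.cmD hp' ha.1)
  obtain ⟨s0, hs0, rfl⟩ := mem_cj'.1 hs
  exact A1c_cj h hx hp hs0.1

theorem A1c_reg {f : Fr G F n} {j i : ℕ} (h : f.A1 E P M j i) {x p g : G} (hx : x ∈ P) (hM : x ∉ M)
    (hp : p ∈ f.D (j - 1) (i - 1)) (h2 : ∃ g ∈ P, ⁅p, g⁆ ∉ f.D j i) (hg : g ∈ f.S)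
    (h3 : ⁅g, x * p * x⁻¹⁆ ∈ f.Z) : g ∈ E := by
  refine h.me.reg_mod (f.nD j i) h.dd.PD (h.dd.DE hp) (fun s hs => h.dd.cmD hp hs) h2 hx hM hg ?_
  rw [← commutatorElement_inv]
  exact inv_mem (mem_sup_left (f.Vs_anti h.dd.jn h3))

theorem A1c_add {x y : Fin n → F} (h : x + y = 0) : x = y := by
  ext r
  exact CharTwo.add_eq_zero.1 (congrFun h r)

theorem A1.notT {f : Fr G F n} {j i : ℕ} (h : f.A1 E P M j i) {s t : Fin n} (hs : s.val + i = n)
    (ht : t.val + 1 = j) {l : F} (hl : l ≠ 0) {a : G} (ha : f.El s t l a) : a ∉ E := by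
  intro aE
  have lt := h.lt
  have hst : s < t := by rw [Fin.lt_def]; omega
  have hst' : s.val < t.val := hst
  have jn := h.dd.jn
  have in' := h.dd.in'
  have mD : ∀ {q : G}, q ∈ f.D j i ↔ _ := f.mem_D jn in'
  have mD1 : ∀ {q : G}, q ∈ f.D (j - 1) (i - 1) ↔ _ := f.mem_D (by omega) (by omega)
  have mDp : ∀ {q : G}, q ∈ f.D (n - i) (n - j) ↔ _ := f.mem_D (by omega) (by omega)
  obtain ⟨x, hx, hM⟩ := h.me.ex_x
  have xQ := h.nQ hx
  have xZ := h.cZ hx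
  have cQ : ∀ {q : G}, q ∈ f.Q → x * q * x⁻¹ ∈ f.Q := fun hq => conj_mem_of_mem_normalizer xQ hq
  -- the elements `(α e_t, β e_s)`
  have inD1 : ∀ {q : G} {α β : F}, q ∈ f.Q → f.w q = Pi.single t α → f.u q = Pi.single s β →
      q ∈ f.D (j - 1) (i - 1) := fun hq e1 e2 => mD1.2 ⟨hq,
    fun r hr => by rw [e1, Pi.single_eq_of_ne (fun e => by rw [e] at hr; omega)],
    fun r hr => by rw [e2, Pi.single_eq_of_ne (fun e => by rw [e] at hr; omega)]⟩
  have perp : ∀ {q : G}, q ∈ f.D (j - 1) (i - 1) → x * q * x⁻¹ ∈ f.D (n - i) (n - j) := fun hq =>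
    conj_mem_of_mem_normalizer (h.Pperp hx) (mDp.2 ⟨(mD1.1 hq).1,
      fun r hr => (mD1.1 hq).2.1 r (by omega), fun r hr => (mD1.1 hq).2.2 r (by omega)⟩)
  have notD : ∀ {q : G} {α β : F}, f.w q = Pi.single t α → f.u q = Pi.single s β → (α ≠ 0 ∨ β ≠ 0) →
      x * q * x⁻¹ ∉ f.D j i := fun {q α β} e1 e2 ne hq => by
    have := conj_mem_of_mem_normalizer' (h.dd.PD hx) hq
    rw [show x⁻¹ * (x * q * x⁻¹) * x = q by group, mD] at this
    have h1 := this.2.1 t (by omega)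
    have h2 := this.2.2 s (by omega)
    rw [e1, Pi.single_eq_same] at h1
    rw [e2, Pi.single_eq_same] at h2
    exact ne.elim (fun e => e h1) fun e => e h2
  -- `a` fixes the conjugates modulo `D`
  have zero : ∀ {q : G}, q ∈ f.D (j - 1) (i - 1) →
      f.w (x * q * x⁻¹) s = 0 ∧ f.u (x * q * x⁻¹) t = 0 := fun {q} hq => by
    have h1 := mD.1 (A1c_cjE h hx hq aE)
    obtain ⟨e1, e2, -⟩ := ha.cm hst (cQ (mD1.1 hq).1)
    have h2 := h1.2.1 t (by omega)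
    have h3 := h1.2.2 s (by omega)
    rw [e1, Pi.single_eq_same] at h2
    rw [e2, Pi.single_eq_same] at h3
    exact ⟨(mul_eq_zero.1 h2).resolve_left hl, (mul_eq_zero.1 h3).resolve_left hl⟩
  obtain ⟨e, eQ, we, ue, -⟩ := f.exQ (Pi.single t 1) 0 0
  obtain ⟨e', eQ', we', ue', -⟩ := f.exQ 0 (Pi.single s 1) 0
  have eV := f.mem_V.2 ⟨eQ, ue⟩
  have eW := f.mem_W.2 ⟨eQ', we'⟩
  have tS : x * a * x⁻¹ ∈ f.S := h.me.le (conj_mem_of_mem_normalizer (h.me.nE hx) aE)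
  obtain ⟨α, β, ne1, d1⟩ := dep_of_minor (x := f.u (x * e * x⁻¹)) (y := f.u (x * e' * x⁻¹)) fun r => by
    obtain ⟨p, pQ, wp, up, -⟩ := f.exQ (Pi.single r 1) 0 0
    have h1 := (f.cmVs tS (f.mem_V.2 ⟨pQ, up⟩)).2.1
    rw [(f.sieg xQ xZ hst ha eV we eW ue' pQ).2.2] at h1
    simp only [B, wp, up, single_dotProduct, one_mul, dotProduct_zero, add_zero, mul_smul,
      ← smul_add] at h1
    exact A1c_add ((smul_eq_zero.1 h1).resolve_left hl)
  obtain ⟨α', β', ne2, d2⟩ := dep_of_minor (x := f.w (x * e * x⁻¹)) (y := f.w (x * e' * x⁻¹)) fun r => by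
    obtain ⟨p, pQ, wp, up, -⟩ := f.exQ 0 (Pi.single r 1) 0
    have h1 := (f.cmWs tS (f.mem_W.2 ⟨pQ, wp⟩)).2.1
    rw [(f.sieg xQ xZ hst ha eV we eW ue' pQ).2.1] at h1
    simp only [B, wp, up, dotProduct_single, mul_one, zero_dotProduct, zero_add, mul_smul,
      ← smul_add] at h1
    exact A1c_add ((smul_eq_zero.1 h1).resolve_left hl)
  have lin : ∀ {q : G} {α β : F}, q ∈ f.Q → f.w q = Pi.single t α → f.u q = Pi.single s β →
      f.w (x * q * x⁻¹) = α • f.w (x * e * x⁻¹) + β • f.w (x * e' * x⁻¹) ∧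
      f.u (x * q * x⁻¹) = α • f.u (x * e * x⁻¹) + β • f.u (x * e' * x⁻¹) := fun hq e1 e2 =>
    f.lin xQ xZ eQ eQ' hq (by rw [e1, we, we', smul_zero, add_zero, ← Pi.single_smul', smul_eq_mul, mul_one])
      (by rw [e2, ue, ue', smul_zero, zero_add, ← Pi.single_smul', smul_eq_mul, mul_one])
  obtain ⟨q1, q1Q, w1, u1, -⟩ := f.exQ (Pi.single t α) (Pi.single s β) 0
  obtain ⟨q2, q2Q, w2, u2, -⟩ := f.exQ (Pi.single t α') (Pi.single s β') 0
  have up1 : f.u (x * q1 * x⁻¹) = 0 := (lin q1Q w1 u1).2.trans d1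
  have wp2 : f.w (x * q2 * x⁻¹) = 0 := (lin q2Q w2 u2).1.trans d2
  have q1D := inD1 q1Q w1 u1
  have q2D := inD1 q2Q w2 u2
  by_cases m1 : ∃ g ∈ P, ⁅q1, g⁆ ∉ f.D j i
  · have hu : ∀ r : Fin n, s.val < r.val → f.u (x * q2 * x⁻¹) r = 0 := fun r hr => by
      by_cases hr' : r.val ≤ t.val
      · obtain ⟨g, hg⟩ := f.exEl (s := s) (t := r) hr 1
        obtain ⟨e1, e2, -⟩ := hg.cm hr (cQ q1Q)
        have gE := A1c_reg h hx hM q1D m1 hg.1 (f.mem_Z.2 ⟨(f.cmQ hg.1 (cQ q1Q)).1,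
          by rw [e1, (zero q1D).1, mul_zero, Pi.single_zero], by rw [e2, up1]; simp⟩)
        have h1 := (mD.1 (A1c_cjE h hx q2D gE)).2.2 s (by omega)
        rwa [(hg.cm hr (cQ q2Q)).2.1, Pi.single_eq_same, one_mul] at h1
      · exact (mDp.1 (perp q2D)).2.2 r (by omega)
    obtain ⟨g, hg, ng⟩ := h.dual.mvV (v := x * q2 * x⁻¹)
      (by
        rw [A1c_dual, f.mem_D jn (by omega)]
        exact ⟨cQ q2Q, fun r _ => by rw [wp2]; rfl, fun r hr => hu r (by omega)⟩)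
      (by rw [A1c_dual]; exact notD w2 u2 ne2)
    rw [A1c_dual] at ng
    exact ng (A1c_fix h hx hM q2D (mD1.2 ⟨cQ q2Q, fun r _ => by rw [wp2]; rfl,
      fun r hr => hu r (by omega)⟩) g hg)
  by_cases m2 : ∃ g ∈ P, ⁅q2, g⁆ ∉ f.D j i
  · have hw : ∀ r : Fin n, r.val < t.val → f.w (x * q1 * x⁻¹) r = 0 := fun r hr => by
      by_cases hr' : s.val ≤ r.val
      · obtain ⟨g, hg⟩ := f.exEl (s := r) (t := t) hr 1
        obtain ⟨e1, e2, -⟩ := hg.cm hr (cQ q2Q)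
        have gE := A1c_reg h hx hM q2D m2 hg.1 (f.mem_Z.2 ⟨(f.cmQ hg.1 (cQ q2Q)).1,
          by rw [e1, wp2]; simp, by rw [e2, (zero q2D).2, mul_zero, Pi.single_zero]⟩)
        have h1 := (mD.1 (A1c_cjE h hx q1D gE)).2.1 t (by omega)
        rwa [(hg.cm hr (cQ q1Q)).1, Pi.single_eq_same, one_mul] at h1
      · exact (mDp.1 (perp q1D)).2.1 r (by omega)
    obtain ⟨g, hg, ng⟩ := h.mvV (v := x * q1 * x⁻¹)
      (by
        rw [f.mem_D (by omega) in']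
        exact ⟨cQ q1Q, fun r hr => hw r (by omega), fun r _ => by rw [up1]; rfl⟩)
      (notD w1 u1 ne1)
    exact ng (A1c_fix h hx hM q1D (mD1.2 ⟨cQ q1Q, fun r hr => hw r (by omega),
      fun r _ => by rw [up1]; rfl⟩) g hg)
  push Not at m1 m2
  -- the two vectors are independent
  have hδ : α * β' + α' * β ≠ 0 := fun hδ => by
    have hδ' : α * β' = α' * β := by
      rw [← add_zero (α * β'), ← CharTwo.add_self_eq_zero (α' * β), ← add_assoc, hδ, zero_add]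
    have wp1 : f.w (x * q1 * x⁻¹) = 0 := by
      rw [(lin q1Q w1 u1).1]
      rcases ne2 with ne | ne
      · refine (smul_eq_zero.1 ?_).resolve_left ne
        rw [smul_add, smul_smul, smul_smul, ← hδ', mul_comm α' α, ← smul_smul, ← smul_smul, ← smul_add, d2,
          smul_zero]
      · refine (smul_eq_zero.1 ?_).resolve_left ne
        rw [smul_add, smul_smul, smul_smul, mul_comm β' α, hδ', mul_comm α' β, mul_comm β' β, ← smul_smul,
          ← smul_smul, ← smul_add, d2, smul_zero]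
    exact notD w1 u1 ne1 (mem_sup_left (f.Vs_anti jn (f.mem_Z.2 ⟨cQ q1Q, wp1, up1⟩)))
  obtain ⟨r1, r1Q, wr1, ur1, -⟩ := f.exQ ((β' / (α * β' + α' * β)) • f.w q1) ((β' / (α * β' + α' * β)) • f.u q1) 0
  obtain ⟨r2, r2Q, wr2, ur2, -⟩ := f.exQ ((β / (α * β' + α' * β)) • f.w q2) ((β / (α * β' + α' * β)) • f.u q2) 0
  have f1 := h.fix_smul q1Q r1Q m1 (one_mem _) (by rw [wr1, f.w_one, add_zero]) (by rw [ur1, f.u_one, add_zero])
  have f2 := h.fix_smul q2Q r2Q m2 (one_mem _) (by rw [wr2, f.w_one, add_zero]) (by rw [ur2, f.u_one, add_zero])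
  obtain ⟨e1, e2, -⟩ := f.mulQ r1Q r2Q
  have wr : f.w (r1 * r2) = Pi.single t 1 := by
    rw [e1, wr1, wr2, w1, w2, ← Pi.single_smul', ← Pi.single_smul', ← Pi.single_add]
    congr 1
    simp only [smul_eq_mul]
    rw [div_mul_eq_mul_div, div_mul_eq_mul_div, ← add_div, mul_comm β' α, mul_comm β α', div_self hδ]
  have ur : f.u (r1 * r2) = 0 := by
    rw [e2, ur1, ur2, u1, u2, ← Pi.single_smul', ← Pi.single_smul', ← Pi.single_add]
    simp only [smul_eq_mul]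
    rw [show β' / (α * β' + α' * β) * β = β / (α * β' + α' * β) * β' by ring, CharTwo.add_self_eq_zero,
      Pi.single_zero]
  obtain ⟨g, hg, ng⟩ := h.mvV (v := r1 * r2)
    (by
      rw [f.mem_D (by omega) in']
      exact ⟨mul_mem r1Q r2Q, fun r hr => by
        rw [wr, Pi.single_eq_of_ne (fun e => by rw [e] at hr; omega)], fun r _ => by rw [ur]; rfl⟩)
    (fun hD => by
      have := (mD.1 hD).2.1 t (by omega)
      rw [wr, Pi.single_eq_same] at this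
      exact one_ne_zero this)
  refine ng ?_
  rw [show ⁅r1 * r2, g⁆ = r1 * ⁅r2, g⁆ * r1⁻¹ * ⁅r1, g⁆ by simp only [commutatorElement_def]; group]
  exact mul_mem (conj_mem_of_mem_normalizer (f.nD j i (f.Q_le r1Q)) (f2 g hg)) (f1 g hg)

end Fr

end H46.Sl
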