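import Cfsg.Agent.Lib.SLM.A1c

/-! Unitriangular Sylow 2-subgroups, package A1d: see `blueprint/SLM/README.md`. -/

set_option autoImplicit false
set_option linter.unusedSectionVars false

namespace H46.Sl
open Subgroup H69 Cfsg Matrix
open scoped commutatorElement

namespace Fr
variable {G : Type*} [Group G] [Finite G] {F : Type*} [Field F] [Fintype F] [CharP F 2] {n : ℕ}
  (f : Fr G F n) {E P M : Subgroup G}

section aux
variable {j i : ℕ} {s t : Fin n}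

theorem a1d_D (hs : s.val + i = n) (ht : t.val + 1 = j) {a : G} : a ∈ f.D j i ↔
    a ∈ f.Q ∧ (∀ r, r ≤ t → f.w a r = 0) ∧ ∀ r, s ≤ r → f.u a r = 0 := by
  rw [f.mem_D (by omega) (by omega)]
  refine and_congr_right fun _ => and_congr (forall_congr' fun r => imp_congr_left ?_)
    (forall_congr' fun r => imp_congr_left ?_) <;> rw [Fin.le_def] <;> omega

theorem a1d_D' (hs : s.val + i = n) (ht : t.val + 1 = j) {a : G} : a ∈ f.D (j - 1) (i - 1) ↔
    a ∈ f.Q ∧ (∀ r, r < t → f.w a r = 0) ∧ ∀ r, s < r → f.u a r = 0 := by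
  rw [f.mem_D (by omega) (by omega)]
  refine and_congr_right fun _ => and_congr (forall_congr' fun r => imp_congr_left ?_)
    (forall_congr' fun r => imp_congr_left ?_) <;> rw [Fin.lt_def] <;> omega

theorem a1d_DV (hs : s.val + i = n) (ht : t.val + 1 = j) {a : G} : a ∈ f.D (j - 1) i ↔
    a ∈ f.Q ∧ (∀ r, r < t → f.w a r = 0) ∧ ∀ r, s ≤ r → f.u a r = 0 := by
  rw [f.mem_D (by omega) (by omega)]
  refine and_congr_right fun _ => and_congr (forall_congr' fun r => imp_congr_left ?_)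
    (forall_congr' fun r => imp_congr_left ?_)
  · rw [Fin.lt_def]; omega
  · rw [Fin.le_def]; omega

theorem a1d_DW (hs : s.val + i = n) (ht : t.val + 1 = j) {a : G} : a ∈ f.D j (i - 1) ↔
    a ∈ f.Q ∧ (∀ r, r ≤ t → f.w a r = 0) ∧ ∀ r, s < r → f.u a r = 0 := by
  rw [f.mem_D (by omega) (by omega)]
  refine and_congr_right fun _ => and_congr (forall_congr' fun r => imp_congr_left ?_)
    (forall_congr' fun r => imp_congr_left ?_)
  · rw [Fin.le_def]; omega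
  · rw [Fin.lt_def]; omega

theorem a1d_Dp (hs : s.val + i = n) (ht : t.val + 1 = j) {a : G} : a ∈ f.D (n - i) (n - j) ↔
    a ∈ f.Q ∧ (∀ r, r < s → f.w a r = 0) ∧ ∀ r, t < r → f.u a r = 0 := by
  rw [f.mem_D (by omega) (by omega)]
  refine and_congr_right fun _ => and_congr (forall_congr' fun r => imp_congr_left ?_)
    (forall_congr' fun r => imp_congr_left ?_) <;> rw [Fin.lt_def] <;> omega

theorem a1d_lt {f : Fr G F n} (h : f.A1 E P M j i) (hs : s.val + i = n) (ht : t.val + 1 = j) : s < t := by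
  have := h.lt
  rw [Fin.lt_def]
  omega

theorem a1d_ex {f : Fr G F n} (h : f.A1 E P M j i) : ∃ s t : Fin n, s.val + i = n ∧ t.val + 1 = j := by
  have := h.dd.j1
  have := h.dd.jn
  have := h.dd.i1
  have := h.dd.in'
  exact ⟨⟨n - i, by omega⟩, ⟨j - 1, by omega⟩, by simp only; omega, by simp only; omega⟩

theorem a1d_ent (B C : Matrix (Fin n) (Fin n) F) (l : F) (x y : Fin n) :
    (B * single s t l * C) x y = B x s * l * C t y := by
  rw [mul_apply, Finset.sum_eq_single t]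
  · rw [mul_single_apply_same]
  · intro b _ hb
    rw [mul_single_apply_of_ne _ _ _ _ _ hb, zero_mul]
  · simp

theorem a1d_comm (hs : s.val + i = n) (ht : t.val + 1 = j) (st : s < t) {p q : G}
    (hp : p ∈ f.D (j - 1) (i - 1)) (hq : q ∈ f.D (j - 1) (i - 1)) : p * q = q * p := by
  rw [f.a1d_D' hs ht] at hp hq
  have k : ∀ {x y : Fin n → F}, (∀ r, r < t → x r = 0) → (∀ r, s < r → y r = 0) → x ⬝ᵥ y = 0 :=
    fun hx hy => Finset.sum_eq_zero fun r _ => by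
      rcases lt_or_ge r t with a | a
      · rw [hx r a, zero_mul]
      · rw [hy r (st.trans_le a), mul_zero]
  rw [f.commQ hp.1 hq.1, B, k hp.2.1 hq.2.2, k hq.2.1 hp.2.2, add_zero]

theorem a1d_cmD' {f : Fr G F n} (hs : s.val + i = n) (ht : t.val + 1 = j) (st : s < t) {l : F} {a q : G}
    (ha : f.El s t l a) (hq : q ∈ f.Q) : ⁅a, q⁆ ∈ f.D (j - 1) (i - 1) := by
  obtain ⟨e1, e2, -⟩ := ha.cm st hq
  refine (f.a1d_D' hs ht).2 ⟨(f.cmQ ha.1 hq).1, fun r hr => ?_, fun r hr => ?_⟩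
  · rw [e1, Pi.single_eq_of_ne hr.ne]
  · rw [e2, Pi.single_eq_of_ne hr.ne']

theorem a1d_cmD {f : Fr G F n} (hs : s.val + i = n) (ht : t.val + 1 = j) (st : s < t) {l : F} {a q : G}
    (ha : f.El s t l a) (hq : q ∈ f.Q) (h1 : f.w q s = 0) (h2 : f.u q t = 0) : ⁅a, q⁆ ∈ f.D j i := by
  obtain ⟨e1, e2, -⟩ := ha.cm st hq
  refine (f.a1d_D hs ht).2 ⟨(f.cmQ ha.1 hq).1, fun r _ => ?_, fun r _ => ?_⟩
  · simp [e1, h1]
  · simp [e2, h2]

theorem a1d_two {f : Fr G F n} {s' : Fin n} (st : s < t) (st' : s' < t) {l l' : F} {a a' y : G}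
    (ha : f.El s t l a) (ha' : f.El s' t l' a') (hy : y ∈ f.Q) : ⁅a' * a, y⁆ ∈ f.Q ∧
    f.w ⁅a' * a, y⁆ = Pi.single t (l * f.w y s + l' * f.w y s') ∧
    f.u ⁅a' * a, y⁆ = Pi.single s (l * f.u y t) + Pi.single s' (l' * f.u y t) := by
  have e : ⁅a' * a, y⁆ = ⁅a', ⁅a, y⁆⁆ * ⁅a, y⁆ * ⁅a', y⁆ := by
    simp only [commutatorElement_def]
    group
  have q1 := (f.cmQ ha.1 hy).1
  have q2 := (f.cmQ ha'.1 hy).1
  have q3 := (f.cmQ ha'.1 q1).1
  obtain ⟨w1, u1, -⟩ := ha.cm st hy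
  obtain ⟨w2, u2, -⟩ := ha'.cm st' hy
  obtain ⟨w3, u3, -⟩ := ha'.cm st' q1
  obtain ⟨w4, u4, -⟩ := f.mulQ q3 q1
  obtain ⟨w5, u5, -⟩ := f.mulQ (mul_mem q3 q1) q2
  refine ⟨(f.cmQ (mul_mem ha'.1 ha.1) hy).1, ?_, ?_⟩
  · rw [e, w5, w4, w3, w1, w2, Pi.single_eq_of_ne st'.ne, mul_zero, Pi.single_zero, zero_add, Pi.single_add]
  · rw [e, u5, u4, u3, u1, u2, Pi.single_eq_of_ne st.ne', mul_zero, Pi.single_zero, zero_add]

theorem a1d_lin (c c' : F) : ∃ α β : F, (α ≠ 0 ∨ β ≠ 0) ∧ α * c + β * c' = 0 := by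
  by_cases h : c = 0
  · exact ⟨1, 0, Or.inl one_ne_zero, by simp [h]⟩
  · exact ⟨-c', c, Or.inr h, by ring⟩

end aux

theorem A1.nT {f : Fr G F n} {j i : ℕ} (h : f.A1 E P M j i) {s t : Fin n} (hs : s.val + i = n)
    (ht : t.val + 1 = j) {l : F} {a : G} (ha : f.El s t l a) : a ∈ 𝐍(E) := by
  have st := a1d_lt h hs ht
  refine mem_normalizer_fintype fun e he => ?_
  have eS := h.me.le he
  have aS := ha.1
  have m : a * e * a⁻¹ * e⁻¹ ∈ E := by
    refine h.K (mul_mem (mul_mem (mul_mem aS eS) (inv_mem aS)) (inv_mem eS)) fun x y hx hxy hy => ?_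
    have xs : s ≤ x := by rw [Fin.le_def]; omega
    have yt : y ≤ t := by rw [Fin.le_def]; omega
    rw [f.L_mul _ (mul_mem (mul_mem aS eS) (inv_mem aS)) _ (inv_mem eS), f.L_mul _ (mul_mem aS eS) _ (inv_mem aS),
      f.L_mul _ aS _ eS, ha.inv st, ha.2.1]
    have e1 : (1 + single s t l) * f.L e * (1 + single s t l) * f.L e⁻¹ =
        f.L e * f.L e⁻¹ + 1 * single s t l * (f.L e * f.L e⁻¹) + f.L e * single s t l * f.L e⁻¹ +
          1 * single s t l * f.L e * single s t l * f.L e⁻¹ := by noncomm_ring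
    rw [e1, f.L_mul_inv eS, Matrix.add_apply, Matrix.add_apply, Matrix.add_apply, a1d_ent, a1d_ent, a1d_ent, a1d_ent,
      f.ut e eS x s xs, f.ut _ (inv_mem eS) t y yt, f.ut e eS t s st.le, one_apply_ne hxy.ne,
      one_apply_ne st.ne', mul_zero, zero_mul, zero_mul, add_zero, zero_add, CharTwo.add_self_eq_zero]
  simpa using mul_mem m he

theorem A1.mv {f : Fr G F n} {j i : ℕ} (h : f.A1 E P M j i) {p : G} (hp : p ∈ f.D (j - 1) (i - 1))
    (hp' : p ∉ f.D j i) : ∃ g ∈ P, ⁅p, g⁆ ∉ f.D j i := by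
  obtain ⟨s, t, hs, ht⟩ := a1d_ex h
  have st := a1d_lt h hs ht
  obtain ⟨pQ, pw, pu⟩ := (f.a1d_D' hs ht).1 hp
  by_cases hβ : f.u p s = 0
  · exact h.mvV ((f.a1d_DV hs ht).2 ⟨pQ, pw, fun r hr => hr.eq_or_lt.elim (fun e => e ▸ hβ) (pu r)⟩) hp'
  by_cases hα : f.w p t = 0
  · have e : ∀ a b, f.dual.D a b = f.D b a := fun a b => by
      rw [D, D, dual_Vs, dual_Ws, sup_comm]
    have := h.dual.mvV (v := p) (by
      rw [e]
      exact (f.a1d_DW hs ht).2 ⟨pQ, fun r hr => hr.eq_or_lt.elim (fun e => e ▸ hα) (pw r), pu⟩) (by rwa [e])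
    rwa [e] at this
  by_contra k
  push Not at k
  let X : Subgroup G := sub (fun q => q ∈ f.D (j - 1) (i - 1) ∧ f.u p s * f.w q t = f.w p t * f.u q s)
    ⟨one_mem _, by simp [f.w_one, f.u_one]⟩ fun a b ha hb => ⟨mul_mem ha.1 hb.1, by
      obtain ⟨e1, e2, -⟩ := f.mulQ ((f.a1d_D' hs ht).1 ha.1).1 ((f.a1d_D' hs ht).1 hb.1).1
      rw [e1, e2, Pi.add_apply, Pi.add_apply, mul_add, mul_add, ha.2, hb.2]⟩
  have DX : f.D j i ≤ X := fun d hd => by
    obtain ⟨dQ, dw, du⟩ := (f.a1d_D hs ht).1 hd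
    exact ⟨(f.a1d_D' hs ht).2 ⟨dQ, fun r hr => dw r hr.le, fun r hr => du r hr.le⟩, by
      rw [dw t le_rfl, du s le_rfl, mul_zero, mul_zero]⟩
  have PX : P ≤ 𝐍(X) := fun g hg => mem_normalizer_fintype fun q hq => by
    obtain ⟨qQ, qw, qu⟩ := (f.a1d_D' hs ht).1 hq.1
    obtain ⟨d, dQ, dw, du, -⟩ := f.exQ (f.w q - (f.w q t / f.w p t) • f.w p)
      (f.u q - (f.w q t / f.w p t) • f.u p) 0
    have hd : d ∈ f.D j i := (f.a1d_D hs ht).2 ⟨dQ, fun r hr => by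
      rcases hr.eq_or_lt with rfl | hr
      · rw [dw, Pi.sub_apply, Pi.smul_apply, smul_eq_mul, div_mul_cancel₀ _ hα, sub_self]
      · simp [dw, qw r hr, pw r hr], fun r hr => by
      rcases hr.eq_or_lt with rfl | hr
      · have := hq.2
        rw [du, Pi.sub_apply, Pi.smul_apply, smul_eq_mul]
        field_simp
        linear_combination -this
      · simp [du, qu r hr, pu r hr]⟩
    have c := h.fix_smul pQ qQ k (a := f.w q t / f.w p t) hd (by rw [dw]; abel) (by rw [du]; abel) g hg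
    have := mul_mem (inv_mem (DX c)) (show q ∈ X from hq)
    rwa [show ⁅q, g⁆⁻¹ * q = g * q * g⁻¹ by simp only [commutatorElement_def]; group] at this
  have XY : f.D (j - 1) (i - 1) ≤ f.Q ⊓ 𝐂(X) := fun q hq =>
    ⟨((f.a1d_D' hs ht).1 hq).1, fun x hx => f.a1d_comm hs ht st hx.1 hq⟩
  obtain ⟨a, ha⟩ := f.exEl st 1
  refine h.notT hs ht one_ne_zero ha (h.om (X := X) (Y := f.Q ⊓ 𝐂(X)) DX (fun q hq => XY hq.1) ?_ PX
    (le_normalizer_inf h.nQ (le_normalizer_centralizer PX)) ⟨ha.1, h.nT hs ht ha⟩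
    (fun q hq => XY (a1d_cmD' hs ht st ha ((f.a1d_Dp hs ht).1 hq).1)) (fun q hq => ?_) fun q hq => ?_)
  · rw [← f.perpD h.dd.jn h.dd.in']
    exact inf_le_inf_left _ (centralizer_anti DX)
  · obtain ⟨e1, e2, -⟩ := ha.cm st hq.1
    refine ⟨a1d_cmD' hs ht st ha hq.1, ?_⟩
    obtain ⟨d, dQ, dw, du, -⟩ := f.exQ (Pi.single t (f.w p t)) (Pi.single s (f.u p s)) 0
    have hd : d ∈ X := ⟨(f.a1d_D' hs ht).2 ⟨dQ, fun r hr => by rw [dw, Pi.single_eq_of_ne hr.ne],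
      fun r hr => by rw [du, Pi.single_eq_of_ne hr.ne']⟩, by
        rw [dw, du, Pi.single_eq_same, Pi.single_eq_same, mul_comm]⟩
    have c := (f.commQ dQ hq.1).1 (hq.2 d hd)
    rw [B, dw, du, single_dotProduct, dotProduct_single, CharTwo.add_eq_zero] at c
    rw [e1, e2, Pi.single_eq_same, Pi.single_eq_same]
    linear_combination -c
  · obtain ⟨qQ, qw, qu⟩ := (f.a1d_D' hs ht).1 hq.1
    exact a1d_cmD hs ht st ha qQ (qw s st) (qu t st)

theorem a1d_reg {f : Fr G F n} {j i : ℕ} (h : f.A1 E P M j i) {p : G} (hp : p ∈ f.D (j - 1) (i - 1))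
    (hp' : p ∉ f.D j i) {x : G} (hx : x ∈ P) (hM : x ∉ M) {s : G} (hs : s ∈ f.S)
    (k : ⁅x * p * x⁻¹, s⁆ ∈ f.D j i) : s ∈ E :=
  h.me.reg_mod (f.nD j i) h.dd.PD (h.dd.DE hp) (fun _ hs => h.dd.cmD hp hs) (h.mv hp hp') hx hM hs k

theorem a1d_succ {f : Fr G F n} {j i : ℕ} (h : f.A1 E P M j i) {s t : Fin n} (hs : s.val + i = n)
    (ht : t.val + 1 = j) : t.val = s.val + 1 := by
  have st := a1d_lt h hs ht
  by_contra ne
  have lt : s.val + 1 < t.val := by have := Fin.lt_def.1 st; omega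
  obtain ⟨x, hx, hM⟩ := h.me.ex_x
  obtain ⟨e, eQ, ew, eu, -⟩ := f.exQ (Pi.single t 1) 0 0
  obtain ⟨e', eQ', ew', eu', -⟩ := f.exQ 0 (Pi.single s 1) 0
  have ex : ∀ α β : F, α ≠ 0 ∨ β ≠ 0 → ∃ p ∈ f.D (j - 1) (i - 1), p ∉ f.D j i ∧ x * p * x⁻¹ ∈ f.Q ∧
      f.w (x * p * x⁻¹) = α • f.w (x * e * x⁻¹) + β • f.w (x * e' * x⁻¹) ∧
      f.u (x * p * x⁻¹) = α • f.u (x * e * x⁻¹) + β • f.u (x * e' * x⁻¹) := fun α β h0 => by
    obtain ⟨p, pQ, pw, pu, -⟩ := f.exQ (Pi.single t α) (Pi.single s β) 0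
    refine ⟨p, (f.a1d_D' hs ht).2 ⟨pQ, fun r hr => by rw [pw, Pi.single_eq_of_ne hr.ne],
      fun r hr => by rw [pu, Pi.single_eq_of_ne hr.ne']⟩, fun k => ?_,
      conj_mem_of_mem_normalizer (h.nQ hx) pQ, f.lin (h.nQ hx) (h.cZ hx) eQ eQ' pQ ?_ ?_⟩
    · obtain ⟨-, k1, k2⟩ := (f.a1d_D hs ht).1 k
      have a1 := k1 t le_rfl
      have a2 := k2 s le_rfl
      rw [pw, Pi.single_eq_same] at a1
      rw [pu, Pi.single_eq_same] at a2
      exact h0.elim (· a1) (· a2)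
    · rw [pw, ew, ew', smul_zero, add_zero, ← Pi.single_smul, smul_eq_mul, mul_one]
    · rw [pu, eu, eu', smul_zero, zero_add, ← Pi.single_smul, smul_eq_mul, mul_one]
  obtain ⟨α, β, h0, e1⟩ := a1d_lin (f.u (x * e * x⁻¹) t) (f.u (x * e' * x⁻¹) t)
  obtain ⟨α', β', h0', e2⟩ := a1d_lin (f.w (x * e * x⁻¹) s) (f.w (x * e' * x⁻¹) s)
  obtain ⟨p, hp, hp', yQ, -, yu⟩ := ex α β h0
  obtain ⟨q, hq, hq', zQ, zw, -⟩ := ex α' β' h0'
  have y0 : f.u (x * p * x⁻¹) t = 0 := by rw [yu]; exact e1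
  have z0 : f.w (x * q * x⁻¹) s = 0 := by rw [zw]; exact e2
  obtain ⟨a, ha⟩ := f.exEl st 1
  have sw : ∀ {b c : G}, ⁅b, c⁆ ∈ f.D j i → ⁅c, b⁆ ∈ f.D j i := fun k => by
    rw [← commutatorElement_inv]; exact inv_mem k
  have y1 : f.w (x * p * x⁻¹) s ≠ 0 := fun k =>
    h.notT hs ht one_ne_zero ha (a1d_reg h hp hp' hx hM ha.1 (sw (a1d_cmD hs ht st ha yQ k y0)))
  have z1 : f.u (x * q * x⁻¹) t ≠ 0 := fun k =>
    h.notT hs ht one_ne_zero ha (a1d_reg h hq hq' hx hM ha.1 (sw (a1d_cmD hs ht st ha zQ z0 k)))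
  let s' : Fin n := ⟨s.val + 1, lt.trans t.2⟩
  have st' : s' < t := lt
  have ss' : s < s' := Nat.lt_succ_self _
  obtain ⟨b, hb⟩ := f.exEl st (f.w (x * p * x⁻¹) s')
  obtain ⟨b', hb'⟩ := f.exEl st' (f.w (x * p * x⁻¹) s)
  have gE : b' * b ∈ E := by
    obtain ⟨c1, c2, c3⟩ := a1d_two st st' hb hb' yQ
    refine a1d_reg h hp hp' hx hM (mul_mem hb'.1 hb.1) (sw ((f.a1d_D hs ht).2 ⟨c1, fun r _ => ?_, fun r _ => ?_⟩))
    · rw [c2, mul_comm, CharTwo.add_self_eq_zero, Pi.single_zero, Pi.zero_apply]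
    · simp [c3, y0]
  have c := conj_mem_of_mem_normalizer (h.dd.PD hx)
    (h.dd.cmD hq (h.me.le (conj_mem_of_mem_normalizer' (h.me.nE hx) gE)))
  rw [show x * ⁅q, x⁻¹ * (b' * b) * x⁆ * x⁻¹ = ⁅x * q * x⁻¹, b' * b⁆ by
    simp only [commutatorElement_def]; group] at c
  have d := ((f.a1d_D hs ht).1 (sw c)).2.2 s' ss'.le
  rw [(a1d_two st st' hb hb' zQ).2.2, Pi.add_apply, Pi.single_eq_of_ne ss'.ne', Pi.single_eq_same, zero_add] at d
  exact mul_ne_zero y1 z1 d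

theorem A1.mid {f : Fr G F n} {j i : ℕ} (h : f.A1 E P M j i) : ∃ k, E = f.U k ∧ f.Mid P M k := by
  obtain ⟨s, t, hs, ht⟩ := a1d_ex h
  have st := a1d_lt h hs ht
  have e := a1d_succ h hs ht
  have tn := t.2
  have UE : f.U t.val ≤ E := fun g hg => h.K (f.U_le _ hg) fun a b ha hab hb => by
    have := Fin.lt_def.1 hab
    exact (f.mem_U.1 hg).2.2.2 a b (by omega) (by omega)
  have mk : ∀ g ∈ f.S, f.L g s t = 0 → g ∈ f.U t.val := fun g hg k =>
    f.mem_U.2 ⟨hg, fun z => by omega, fun z => by omega, fun a b ha hb => by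
      obtain rfl : a = s := Fin.ext (by omega)
      obtain rfl : b = t := Fin.ext hb
      exact k⟩
  have EU : E = f.U t.val := by
    refine le_antisymm (fun g hg => mk g (h.me.le hg) ?_) UE
    by_contra k
    obtain ⟨a, ha⟩ := f.exEl st (f.L g s t)
    have gS := h.me.le hg
    have m := UE (mk (a * g) (mul_mem ha.1 gS) (by
      rw [f.L_mul _ ha.1 _ gS, ha.2.1, add_mul, one_mul, Matrix.add_apply, single_mul_apply_same, f.ut g gS t t le_rfl,
        one_apply_eq, mul_one, CharTwo.add_self_eq_zero]))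
    exact h.notT hs ht k ha (by simpa using mul_mem m (inv_mem hg))
  obtain rfl : j = t.val + 1 := ht.symm
  obtain rfl : i = n - t.val + 1 := by omega
  subst EU
  exact ⟨t.val, rfl, by omega, tn, h, fun p hp hp' x hx hM g hg k => a1d_reg h hp hp' hx hM hg k⟩

end Fr

end H46.Sl
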