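import Cfsg.Agent.Lib.SLM.A1b

/-! Unitriangular Sylow 2-subgroups, package A1e: see `blueprint/SLM/README.md`. -/

set_option autoImplicit false
set_option linter.unusedSectionVars false

namespace H46.Sl
open Subgroup H69 Cfsg Matrix
open scoped commutatorElement

namespace Fr
variable {G : Type*} [Group G] [Finite G] {F : Type*} [Field F] [Fintype F] [CharP F 2] {n : ℕ}
  (f : Fr G F n) {E P M : Subgroup G}

variable {k : ℕ} {x e e' : G} {s t : Fin n}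

theorem A1e_notU {f : Fr G F n} (hs : s.val + 1 = k) (ht : t.val = k) {a : G} (ha : f.El s t 1 a) :
    a ∉ f.U k := fun m => by
  have := (f.mem_U.1 m).2.2.2 s t hs ht
  have ne : s ≠ t := fun e => by rw [e] at hs; omega
  rw [ha.2.1] at this
  simp [ne] at this

theorem Mid.nV_of {f : Fr G F n} (h : f.Mid P M k) (hx : x ∈ P) (hM : x ∉ M) (hs : s.val + 1 = k) (ht : t.val = k)
    (he : e ∈ f.V) (we : f.w e = Pi.single t 1) (he' : e' ∈ f.W) (ue : f.u e' = Pi.single s 1) {a b : F}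
    (hab : a ≠ 0 ∨ b ≠ 0) (h0 : a • f.u (x * e * x⁻¹) + b • f.u (x * e' * x⁻¹) = 0) : P ≤ 𝐍(f.V) := by
  have hst : s < t := by rw [Fin.lt_def]; omega
  obtain ⟨c, hc⟩ := f.exEl hst 1
  refine h.a1.me.gen (g := 1) (one_mem _) hx (by simpa using hM) ⟨hc.1, f.nU k hc.1⟩ (A1e_notU hs ht hc)
    (by rw [cj_one]; exact inf_le_left.trans (f.nVs 0)) (mem_normalizer_of_cj_le fun y hy => ?_)
  obtain ⟨v, hv, rfl⟩ := mem_cj'.1 hy
  obtain ⟨hQ, hu⟩ := f.mem_V.1 hv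
  obtain ⟨m1, -, m3⟩ := f.sieg (h.a1.nQ hx) (h.a1.cZ hx) hst hc he we he' ue hQ
  have m : ⁅x * c * x⁻¹, v⁆ ∈ f.V := by
    refine f.mem_V.2 ⟨m1, ?_⟩
    rw [m3]
    simp only [B, hu, dotProduct_zero, add_zero, one_mul]
    generalize f.u (x * e * x⁻¹) = u1 at *
    generalize f.u (x * e' * x⁻¹) = u2 at *
    have two : (2 : F) = 0 := CharTwo.two_eq_zero
    have h1 : a * (f.w v ⬝ᵥ u1) + b * (f.w v ⬝ᵥ u2) = 0 := by
      have := congrArg (f.w v ⬝ᵥ ·) h0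
      simpa [dotProduct_add, dotProduct_smul] using this
    ext r
    have h2 : a * u1 r + b * u2 r = 0 := by simpa using congrFun h0 r
    simp only [Pi.add_apply, Pi.smul_apply, smul_eq_mul, Pi.zero_apply]
    rcases hab with h' | h'
    · refine mul_left_cancel₀ h' ?_
      linear_combination (f.w v ⬝ᵥ u2) * h2 + u2 r * h1 - b * (f.w v ⬝ᵥ u2) * u2 r * two
    · refine mul_left_cancel₀ h' ?_
      linear_combination (f.w v ⬝ᵥ u1) * h2 + u1 r * h1 - a * (f.w v ⬝ᵥ u1) * u1 r * two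
  have := mul_mem m hv
  rwa [commutatorElement_def, inv_mul_cancel_right] at this

theorem A1e_perp {f : Fr G F n} (h : f.Mid P M k) (hx : x ∈ P) {q : G} (hq : q ∈ f.D k (n - k)) :
    x * q * x⁻¹ ∈ f.Q ∧ (∀ r : Fin n, r.val + 1 < k → f.w (x * q * x⁻¹) r = 0) ∧
      ∀ r : Fin n, k < r.val → f.u (x * q * x⁻¹) r = 0 := by
  have k1 := h.k1
  have kn := h.kn
  have m : q ∈ f.D (n - (n - k + 1)) (n - (k + 1)) :=
    sup_le_sup (f.Vs_anti (by omega)) (f.Ws_anti (by omega)) hq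
  obtain ⟨m1, m2, m3⟩ := (f.mem_D (by omega) (by omega)).1 (conj_mem_of_mem_normalizer (h.a1.Pperp hx) m)
  exact ⟨m1, fun r hr => m2 r (by omega), fun r hr => m3 r (by omega)⟩

theorem A1e_ex {f : Fr G F n} (h : f.Mid P M k) (hx : x ∈ P) (hM : x ∉ M) (hs : s.val + 1 = k) (ht : t.val = k)
    (he : e ∈ f.V) (we : f.w e = Pi.single t 1) (he' : e' ∈ f.W) (ue : f.u e' = Pi.single s 1) {a b : F}
    (hab : a ≠ 0 ∨ b ≠ 0) : ∃ p, f.w p = a • f.w (x * e * x⁻¹) + b • f.w (x * e' * x⁻¹) ∧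
      f.u p = a • f.u (x * e * x⁻¹) + b • f.u (x * e' * x⁻¹) ∧ f.w p ⬝ᵥ f.u p = 0 ∧
      (∀ r : Fin n, k < r.val → f.u p r = 0) ∧ (f.w p s ≠ 0 ∨ f.u p t ≠ 0) := by
  have k1 := h.k1
  have kn := h.kn
  have hst : s < t := by rw [Fin.lt_def]; omega
  obtain ⟨eQ, eu⟩ := f.mem_V.1 he
  obtain ⟨eQ', ew⟩ := f.mem_W.1 he'
  obtain ⟨q, hq, wq, uq, -⟩ := f.exQ (Pi.single t a) (Pi.single s b) 0
  have qD : q ∈ f.D k (n - k) := (f.mem_D (by omega) (by omega)).2 ⟨hq, fun r hr => by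
    rw [wq, Pi.single_eq_of_ne (fun e => by rw [e] at hr; omega)], fun r hr => by
    rw [uq, Pi.single_eq_of_ne (fun e => by rw [e] at hr; omega)]⟩
  have qD' : q ∉ f.D (k + 1) (n - k + 1) := fun m => by
    obtain ⟨-, m1, m2⟩ := (f.mem_D (by omega) (by omega)).1 m
    have e1 := m1 t (by omega)
    have e2 := m2 s (by omega)
    rw [wq, Pi.single_eq_same] at e1
    rw [uq, Pi.single_eq_same] at e2
    exact hab.elim (· e1) (· e2)
  obtain ⟨l1, l2⟩ := f.lin (h.a1.nQ hx) (h.a1.cZ hx) eQ eQ' hq (a := a) (b := b)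
    (by rw [wq, we, ew, smul_zero, add_zero, ← Pi.single_smul, smul_eq_mul, mul_one])
    (by rw [uq, ue, eu, smul_zero, zero_add, ← Pi.single_smul, smul_eq_mul, mul_one])
  obtain ⟨pQ, -, p2⟩ := A1e_perp h hx qD
  refine ⟨x * q * x⁻¹, l1, l2, ?_, p2, ?_⟩
  · rw [(f.form (h.a1.nQ hx) (h.a1.cZ hx) hq hq).2, wq, uq, single_dotProduct, Pi.single_eq_of_ne hst.ne',
      mul_zero]
  · by_contra hn
    push Not at hn
    obtain ⟨c, hc⟩ := f.exEl hst 1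
    obtain ⟨c1, c2, -⟩ := hc.cm hst pQ
    refine A1e_notU hs ht hc (h.reg q qD qD' x hx hM c hc.1 ?_)
    rw [← commutatorElement_inv]
    refine inv_mem ((f.mem_D (by omega) (by omega)).2 ⟨(f.cmQ hc.1 pQ).1, fun r _ => ?_, fun r _ => ?_⟩)
    · rw [c1, hn.1]; simp
    · rw [c2, hn.2]; simp

theorem Mid.one {f : Fr G F n} (h : f.Mid P M 1) : P ≤ 𝐍(f.V) := by
  obtain ⟨x, hx, hM⟩ := h.a1.me.ex_x
  obtain ⟨e, eQ, we, eu, -⟩ := f.exQ (Pi.single f.i1 1) 0 0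
  obtain ⟨e', eQ', ew, ue, -⟩ := f.exQ 0 (Pi.single f.i0 1) 0
  have he := f.mem_V.2 ⟨eQ, eu⟩
  have he' := f.mem_W.2 ⟨eQ', ew⟩
  obtain ⟨a, b, hab, h0⟩ : ∃ a b : F, (a ≠ 0 ∨ b ≠ 0) ∧
      a * f.u (x * e * x⁻¹) f.i1 + b * f.u (x * e' * x⁻¹) f.i1 = 0 := by
    by_cases h1 : f.u (x * e * x⁻¹) f.i1 = 0
    · exact ⟨1, 0, Or.inl one_ne_zero, by simp [h1]⟩
    · exact ⟨-f.u (x * e' * x⁻¹) f.i1, _, Or.inr h1, by ring⟩
  obtain ⟨p, -, p2, p3, p4, p5⟩ := A1e_ex (s := f.i0) (t := f.i1) h hx hM rfl rfl he we he' ue hab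
  have p1 : f.u p f.i1 = 0 := by rw [p2]; simpa using h0
  refine h.nV_of (s := f.i0) (t := f.i1) hx hM rfl rfl he we he' ue hab ?_
  rw [← p2]
  have z : ∀ r, r ≠ f.i0 → f.u p r = 0 := fun r hr => by
    by_cases h1 : r = f.i1
    · rw [h1, p1]
    · refine p4 r ?_
      have e0 : r.val ≠ 0 := fun e => hr (Fin.ext e)
      have e1 : r.val ≠ 1 := fun e => h1 (Fin.ext e)
      omega
  rw [dotProduct, Finset.sum_eq_single f.i0 (fun r _ hr => by rw [z r hr, mul_zero]) (by simp)] at p3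
  ext r
  by_cases hr : r = f.i0
  · rw [hr]
    exact (mul_eq_zero.1 p3).resolve_left (p5.resolve_right fun e => e p1)
  · exact z r hr

theorem Mid.co {f : Fr G F n} (h : f.Mid P M k) (k2 : 2 ≤ k) (hx : x ∈ P) (hM : x ∉ M) (hs : s.val + 1 = k)
    (ht : t.val = k) (he : e ∈ f.V) (we : f.w e = Pi.single t 1) (he' : e' ∈ f.W)
    (ue : f.u e' = Pi.single s 1) : (∀ r, r ≠ f.i0 → f.u (x * e * x⁻¹) r = 0) ∧
    (∀ r, r < s → f.w (x * e * x⁻¹) r = 0) ∧ f.w (x * e * x⁻¹) s ≠ 0 ∧ (∀ r, r < s → f.w (x * e' * x⁻¹) r = 0) ∧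
    (∀ r, t < r → f.u (x * e' * x⁻¹) r = 0) ∧ f.u (x * e' * x⁻¹) t ≠ 0 := by
  have kn := h.kn
  obtain ⟨eQ, eu⟩ := f.mem_V.1 he
  obtain ⟨eQ', ew⟩ := f.mem_W.1 he'
  have eV : e ∈ f.Vs k := f.mem_Vs.2 ⟨eQ, eu, fun r hr => by
    rw [we, Pi.single_eq_of_ne (fun e => by rw [e] at hr; omega)], fun h => by omega⟩
  have eW : e' ∈ f.Ws (n - k) := f.mem_Ws.2 ⟨eQ', ew, fun r hr => by
    rw [ue, Pi.single_eq_of_ne (fun e => by rw [e] at hr; omega)], fun h => by omega⟩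
  obtain ⟨yQ, y1, -⟩ := A1e_perp h hx (mem_sup_left eV)
  obtain ⟨-, y2, y3⟩ := A1e_perp h hx (mem_sup_right eW)
  have c1 : ∀ r, r ≠ f.i0 → f.u (x * e * x⁻¹) r = 0 := fun r hr => by
    have lt : f.i0 < r := by
      rw [Fin.lt_def]
      exact Nat.pos_of_ne_zero fun e => hr (Fin.ext e)
    obtain ⟨g, hg⟩ := f.exEl lt 1
    have gU : g ∈ f.U k := f.mem_U.2 ⟨hg.1, fun e => by omega, fun e => by omega, fun i j hi hj => by
      have n1 : i ≠ j := fun e => by rw [e] at hi; omega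
      have n2 : f.i0 ≠ i := fun e => by
        rw [← e] at hi
        have : (f.i0 : ℕ) = 0 := rfl
        omega
      rw [hg.2.1]
      simp [n1, n2]⟩
    have m := conj_mem_of_mem_normalizer (h.a1.dd.PV hx)
      (f.cmVs (f.U_le k (conj_mem_of_mem_normalizer' (h.a1.me.nE hx) gU)) eV)
    rw [show x * ⁅x⁻¹ * g * x, e⁆ * x⁻¹ = ⁅g, x * e * x⁻¹⁆ by simp only [commutatorElement_def]; group] at m
    have := congrFun ((hg.cm lt yQ).2.1.symm.trans (f.mem_Vs.1 m).2.1) f.i0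
    simpa using this
  have t0 : t ≠ f.i0 := fun e => by
    rw [e] at ht
    have : (f.i0 : ℕ) = 0 := rfl
    omega
  have c3 : f.w (x * e * x⁻¹) s ≠ 0 := by
    obtain ⟨p, p1, p2, -, -, p5⟩ := A1e_ex h hx hM hs ht he we he' ue (a := 1) (b := 0) (Or.inl one_ne_zero)
    rw [p1, p2] at p5
    simpa [c1 t t0] using p5
  refine ⟨c1, fun r hr => y1 r (by rw [Fin.lt_def] at hr; omega), c3,
    fun r hr => y2 r (by rw [Fin.lt_def] at hr; omega), fun r hr => y3 r (by rw [Fin.lt_def] at hr; omega), ?_⟩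
  obtain ⟨p, p1, p2, -, -, p5⟩ := A1e_ex h hx hM hs ht he we he' ue
    (a := -(f.w (x * e' * x⁻¹) s / f.w (x * e * x⁻¹) s)) (b := 1) (Or.inr one_ne_zero)
  rw [p1, p2] at p5
  simpa [c1 t t0, div_mul_cancel₀ _ c3] using p5

end Fr

end H46.Sl
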