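import Cfsg.Agent.Lib.SLM.A1e

/-! Unitriangular Sylow 2-subgroups, package A1f: see `blueprint/SLM/README.md`. -/

set_option autoImplicit false
set_option linter.unusedSectionVars false

namespace H46.Sl
open Subgroup H69 Cfsg Matrix
open scoped commutatorElement

namespace Fr
variable {G : Type*} [Group G] [Finite G] {F : Type*} [Field F] [Fintype F] [CharP F 2] {n : ℕ}
  (f : Fr G F n) {E P M : Subgroup G}

theorem A1f_cj {g q : G} (hq : q ∈ f.Q) (h : ⁅g, q⁆ ∈ f.Q) : g * q * g⁻¹ ∈ f.Q ∧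
    f.w (g * q * g⁻¹) = f.w ⁅g, q⁆ + f.w q ∧ f.u (g * q * g⁻¹) = f.u ⁅g, q⁆ + f.u q := by
  rw [show g * q * g⁻¹ = ⁅g, q⁆ * q by rw [commutatorElement_def]; group]
  exact ⟨mul_mem h hq, (f.mulQ h hq).1, (f.mulQ h hq).2.1⟩

theorem A1f_sq {s t : Fin n} (hst : s < t) {l : F} {a : G} (ha : f.El s t l a) : a⁻¹ = a := by
  have hi := inv_mem ha.1
  have w1 : f.w a⁻¹ = 0 := by rw [f.w_inv ha.1, ha.2.2.1, zero_vecMul]
  refine f.inj _ hi _ ha.1 ((ha.inv hst).trans ha.2.1.symm) (w1.trans ha.2.2.1.symm)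
    (by rw [f.u_inv ha.1, ha.2.2.2, mulVec_zero]) ?_
  have := f.c_mul _ hi _ ha.1
  rw [inv_mul_cancel, f.c_one, w1, zero_dotProduct, add_zero] at this
  exact (CharTwo.add_eq_zero.1 this.symm)

theorem Mid.big {f : Fr G F n} {k : ℕ} (h : f.Mid P M k) (k3 : 3 ≤ k) : P ≤ 𝐍(f.V) := by
  have kn := h.kn
  obtain ⟨x, hx, hM⟩ := SetLike.not_le_iff_exists.1 h.a1.me.nM
  obtain ⟨s, hs⟩ : ∃ s : Fin n, s.val + 1 = k := ⟨⟨k - 1, by omega⟩, by simp; omega⟩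
  obtain ⟨t, ht⟩ : ∃ t : Fin n, t.val = k := ⟨⟨k, kn⟩, rfl⟩
  obtain ⟨r, hr⟩ : ∃ r : Fin n, r.val = 1 := ⟨⟨1, by omega⟩, rfl⟩
  have st : s < t := Fin.lt_def.2 (by omega)
  have rs : r < s := Fin.lt_def.2 (by omega)
  have rt := rs.trans st
  have r0 : r ≠ f.i0 := fun e => by simp [e, i0] at hr
  have t0 : t ≠ f.i0 := fun e => by simp [e, i0] at ht; omega
  obtain ⟨e, eQ, we, ue, -⟩ := f.exQ (Pi.single t 1) 0 0
  obtain ⟨e', eQ', we', ue', -⟩ := f.exQ 0 (Pi.single s 1) 0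
  obtain ⟨p, pQ, wp, up, -⟩ := f.exQ (Pi.single r 1) 0 0
  have he := f.mem_V.2 ⟨eQ, ue⟩
  have he' := f.mem_W.2 ⟨eQ', we'⟩
  obtain ⟨a, ha⟩ := f.exEl st 1
  obtain ⟨g, hg⟩ := f.exEl rt 1
  obtain ⟨c1, c2, -, c4, -, c6⟩ := h.co (by omega) hx hM hs ht he we he' ue'
  have x1 := h.a1.nQ hx
  have x2 := h.a1.cZ hx
  have g1 := f.nQ hg.1
  have g2 : g ∈ 𝐂(f.Z) := le_centralizer_iff.1 f.Z_cen hg.1
  have gU : g ∈ f.U k := f.mem_U.2 ⟨hg.1, by omega, by omega, fun i j hi hj => by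
    have e1 : i = s := Fin.ext (by omega)
    have e2 : j = t := Fin.ext (by omega)
    rw [hg.2.1, e1, e2, Matrix.add_apply, one_apply_ne st.ne, single_apply_of_row_ne rs.ne, add_zero]⟩
  have tN : x * a * x⁻¹ ∈ 𝐍(f.U k) :=
    mul_mem (mul_mem (h.a1.me.nE hx) (f.nU k ha.1)) (inv_mem (h.a1.me.nE hx))
  have hU : x * a * x⁻¹ * (g * x * a * (g * x)⁻¹) ∈ f.U k := by
    have := mul_mem ((mem_normalizer_iff.1 tN g).1 gU) (inv_mem gU)
    rwa [show x * a * x⁻¹ * g * (x * a * x⁻¹)⁻¹ * g⁻¹ = x * a * x⁻¹ * (g * x * a⁻¹ * (g * x)⁻¹) by group,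
      f.A1f_sq st ha] at this
  have yQ := (mem_normalizer_iff.1 x1 e).1 eQ
  have yQ' := (mem_normalizer_iff.1 x1 e').1 eQ'
  have b0 : f.B (x * e * x⁻¹) (x * e' * x⁻¹) = 0 := by
    rw [(f.form x1 x2 eQ eQ').1, B, we, ue', we', zero_dotProduct, add_zero, single_dotProduct, one_mul,
      Pi.single_eq_of_ne st.ne']
  obtain ⟨q1, w1, u1⟩ := f.sieg (mul_mem g1 x1) (mul_mem g2 x2) st ha he we he' ue' pQ
  rw [show g * x * e * (g * x)⁻¹ = g * (x * e * x⁻¹) * g⁻¹ by group,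
    show g * x * e' * (g * x)⁻¹ = g * (x * e' * x⁻¹) * g⁻¹ by group] at w1 u1
  obtain ⟨pQ1, w2, u2⟩ := f.A1f_cj pQ q1
  obtain ⟨q2, -, u3⟩ := f.sieg x1 x2 st ha he we he' ue' pQ1
  obtain ⟨-, -, u4⟩ := f.A1f_cj pQ1 q2
  have hV : f.u (x * a * x⁻¹ * (g * x * a * (g * x)⁻¹ * p * (g * x * a * (g * x)⁻¹)⁻¹) * (x * a * x⁻¹)⁻¹) = 0 := by
    have := (mem_normalizer_iff.1 (f.nVs 0 (f.U_le k hU)) p).1 (f.mem_V.2 ⟨pQ, up⟩)
    rw [show ∀ b d : G, b * d * p * (b * d)⁻¹ = b * (d * p * d⁻¹) * b⁻¹ from fun b d => by group] at this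
    exact (f.mem_V.1 this).2
  refine h.nV_of hx hM hs ht he we he' ue' (a := f.u (x * e' * x⁻¹) t) (b := 0) (Or.inl c6) ?_
  obtain ⟨-, a1, a2⟩ := f.A1f_cj yQ (f.cmQ hg.1 yQ).1
  obtain ⟨-, a3, a4⟩ := f.A1f_cj yQ' (f.cmQ hg.1 yQ').1
  rw [(hg.cm rt yQ).1, c2 r rs, mul_zero, Pi.single_zero, zero_add] at a1
  rw [(hg.cm rt yQ).2.1, c1 t t0, mul_zero, Pi.single_zero, zero_add] at a2
  rw [(hg.cm rt yQ').1, c4 r rs, mul_zero, Pi.single_zero, zero_add] at a3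
  rw [(hg.cm rt yQ').2.1, one_mul] at a4
  have c1r := c1 r r0
  generalize x * e * x⁻¹ = y at *
  generalize x * e' * x⁻¹ = y' at *
  have B1 : f.B p (g * y * g⁻¹) = 0 := by
    rw [B, wp, up, a2, dotProduct_zero, add_zero, single_dotProduct, one_mul, c1r]
  have B2 : f.B p (g * y' * g⁻¹) = f.u y' t + f.u y' r := by
    rw [B, wp, up, a4, dotProduct_zero, add_zero, single_dotProduct, one_mul, Pi.add_apply,
      Pi.single_eq_same]
  rw [B1, B2, mul_zero, zero_smul, add_zero, one_mul] at w1 u1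
  rw [w1, a1, wp] at w2
  rw [u1, a2, up, add_zero] at u2
  generalize g * x * a * (g * x)⁻¹ * p * (g * x * a * (g * x)⁻¹)⁻¹ = p1 at *
  have B3 : f.B p1 y = 0 := by
    rw [B, w2, u2, add_dotProduct, smul_dotProduct, dotProduct_smul, single_dotProduct, c1r, mul_zero,
      add_zero, CharTwo.add_self_eq_zero]
  have B4 : f.B p1 y' = f.u y' r := by
    rw [B, w2, u2, add_dotProduct, smul_dotProduct, dotProduct_smul, single_dotProduct, one_mul,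
      add_right_comm, ← smul_add]
    rw [B] at b0
    rw [b0, smul_zero, zero_add]
  rw [u4, u3, B3, B4, u2, mul_zero, zero_smul, add_zero, one_mul, ← add_smul, add_comm (f.u y' t),
    ← add_assoc, CharTwo.add_self_eq_zero, zero_add] at hV
  rw [hV, zero_smul, add_zero]

end Fr

end H46.Sl
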