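import Cfsg.Agent.Lib.SLM.Bas2
import Cfsg.Agent.Lib.SLM.LA
import Cfsg.Agent.Lib.SLM.MB2

/-! Unitriangular Sylow 2-subgroups, package PHI: see `blueprint/SLM/README.md`. -/

set_option autoImplicit false
set_option linter.unusedSectionVars false

namespace H46.Sl
open Subgroup H69 Cfsg Matrix
open scoped commutatorElement

namespace Fr
variable {G : Type*} [Group G] [Finite G] {F : Type*} [Field F] [Fintype F] [CharP F 2] {n : ℕ}
  (f : Fr G F n) {E P M : Subgroup G}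

theorem phi_ne : f.i1 ≠ f.i0 := fun h => by simpa [i0, i1] using congrArg Fin.val h

theorem phi_u {μ : F} {p : G} (hp : p ∈ f.I μ) :
    f.u p = Pi.single f.i0 (μ * f.w p f.i1) + Pi.single f.i1 (μ * f.w p f.i0) := by
  ext i
  by_cases h0 : i = f.i0
  · subst h0; simp [hp.2.1, f.phi_ne.symm]
  by_cases h1 : i = f.i1
  · subst h1; simp [hp.2.2.1, f.phi_ne]
  have : 2 ≤ i.val := by
    have a0 : i.val ≠ 0 := fun e => h0 (Fin.ext e)
    have a1 : i.val ≠ 1 := fun e => h1 (Fin.ext e)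
    omega
  simp [hp.2.2.2 i this, h0, h1]

theorem phi_dot {μ : F} {p : G} (hp : p ∈ f.I μ) (x : Fin n → F) :
    x ⬝ᵥ f.u p = x f.i0 * (μ * f.w p f.i1) + x f.i1 * (μ * f.w p f.i0) := by
  rw [f.phi_u hp, dotProduct_add, dotProduct_single, dotProduct_single]

theorem phi_exI (μ : F) (x : Fin n → F) (c : F) : ∃ p ∈ f.I μ, f.w p = x ∧ f.c p = c := by
  obtain ⟨p, hp, e1, e2, e3⟩ := f.exQ x (Pi.single f.i0 (μ * x f.i1) + Pi.single f.i1 (μ * x f.i0)) c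
  refine ⟨p, ⟨hp, ?_, ?_, fun i hi => ?_⟩, e1, e3⟩
  · simp [e1, e2, f.phi_ne.symm]
  · simp [e1, e2, f.phi_ne]
  · have h0 : i ≠ f.i0 := fun e => by simp [e, i0] at hi
    have h1 : i ≠ f.i1 := fun e => by simp [e, i1] at hi
    simp [e2, h0, h1]

theorem phi_ext {μ : F} {p q : G} (hp : p ∈ f.I μ) (hq : q ∈ f.I μ) (h1 : f.w p = f.w q)
    (h2 : f.c p = f.c q) : p = q :=
  f.inj _ hp.1.1 _ hq.1.1 (by rw [hp.1.2, hq.1.2]) h1 (by rw [f.phi_u hp, f.phi_u hq, h1]) h2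

theorem phi_mem {μ : F} {s v : G} (hs : s ∈ f.S) (hv : v ∈ f.I μ) : ⁅s, v⁆ ∈ f.I μ :=
  mul_mem ((mem_normalizer_iff.1 (f.nI μ hs) v).1 hv) (inv_mem hv)

theorem phi_Vs {μ : F} {p : G} (hp : p ∈ f.I μ) (h0 : f.w p f.i0 = 0) (h1 : f.w p f.i1 = 0) :
    p ∈ f.Vs 2 := by
  refine ⟨hp.1, by simp [f.phi_u hp, h0, h1], fun i hi => ?_, fun h => absurd f.hn (by omega)⟩
  obtain e | e : i.val = 0 ∨ i.val = 1 := by omega
  · exact (Fin.ext e : i = f.i0) ▸ h0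
  · exact (Fin.ext e : i = f.i1) ▸ h1

theorem phi_col {s : G} (hs : s ∈ f.S) {x : Fin n → F} {j : Fin n} (hx : ∀ i < j, x i = 0) :
    (x ᵥ* f.L s + x) j = 0 := by
  rw [Pi.add_apply, vecMul, dotProduct, Finset.sum_eq_single j, f.ut _ hs _ _ le_rfl, one_apply_eq, mul_one,
    CharTwo.add_self_eq_zero]
  · intro i _ hi
    rcases lt_or_gt_of_ne hi with h | h
    · rw [hx i h, zero_mul]
    · rw [f.ut _ hs _ _ h.le, one_apply_ne hi, mul_zero]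
  · simp

theorem phi_el (i : Fin n) (d : Fin n → F) (γ : F) (hd : ∀ j ≤ i, d j = 0) : ∃ s ∈ f.S, f.w s = 0 ∧
    f.u s = Pi.single i γ ∧ f.L s = 1 + vecMulVec (Pi.single i 1) d ∧ ∀ v ∈ f.Q,
      f.w ⁅s, v⁆ = f.w v i • d ∧ f.c ⁅s, v⁆ = f.w v i * γ + f.w v i * (d ⬝ᵥ f.u v) := by
  obtain ⟨s, hs, e1, e2, e3, -⟩ := f.full (1 + vecMulVec (Pi.single i 1) d) (fun a b h => by
    by_cases e : a = i
    · subst e; simp [vecMulVec_apply, hd b h]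
    · simp [vecMulVec_apply, e]) 0 (Pi.single i γ) 0
  have hv : ∀ x : Fin n → F, x ᵥ* f.L s = x + x i • d := fun x => by
    rw [e1, vecMul_add, vecMul_one, vecMul_vecMulVec, dotProduct_single, mul_one]
  have hi : ∀ x : Fin n → F, x ᵥ* f.L s⁻¹ = x + x i • d := fun x => by
    have : x = (x + x i • d) ᵥ* f.L s := by
      rw [hv]; ext j; simp [hd i le_rfl, add_assoc, CharTwo.add_self_eq_zero]
    conv_lhs => rw [this, vecMul_vecMul, f.L_mul_inv hs, vecMul_one]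
  refine ⟨s, hs, e2, e3, e1, fun v hv => ?_⟩
  obtain ⟨-, a1, -, a3⟩ := f.cmQ hs hv
  have a4 : f.w v ᵥ* f.L s⁻¹ + f.w v = f.w v i • d := by
    rw [hi]; ext j; simp only [Pi.add_apply]; rw [add_right_comm, CharTwo.add_self_eq_zero, zero_add]
  refine ⟨a1.trans a4, ?_⟩
  rw [a3, a4, hi, e2, e3, zero_dotProduct, zero_add, dotProduct_single, smul_dotProduct]
  simp [hd i le_rfl]

/-- normal form of the centraliser of `{p ∈ I μ | w p 0 = 0}` -/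
theorem phi_cm {μ : F} {s : G} (hs : s ∈ f.S) (c : ∀ p ∈ f.I μ, f.w p f.i0 = 0 → s * p = p * s) :
    ∃ (d : Fin n → F) (γ : F), d f.i0 = 0 ∧ (d = 0 → γ = 0 → s ∈ f.I μ) ∧ ∀ v ∈ f.I μ, ⁅s, v⁆ ∈ f.I μ ∧
      f.w ⁅s, v⁆ = f.w v f.i0 • d ∧ f.c ⁅s, v⁆ = f.w v f.i0 * γ + μ * d f.i1 * f.w v f.i0 ^ 2 := by
  have c1 : ∀ x : Fin n → F, x f.i0 = 0 →
      x ᵥ* f.L s⁻¹ = x ∧ x ⬝ᵥ f.u s = f.w s f.i0 * (μ * x f.i1) := fun x hx => by
    obtain ⟨p, hp, rfl, -⟩ := f.phi_exI μ x 0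
    obtain ⟨-, a1, -, a3⟩ := f.cmQ hs hp.1
    rw [commutatorElement_eq_one_iff_mul_comm.2 (c p hp hx)] at a1 a3
    rw [f.w_one] at a1
    have a4 : f.w p ᵥ* f.L s⁻¹ = f.w p := by
      ext j
      exact CharTwo.add_eq_zero.1 (congrFun a1 j).symm
    refine ⟨a4, ?_⟩
    rw [← a1, a4, f.c_one, f.phi_dot hp, hx, zero_dotProduct] at a3
    exact (CharTwo.add_eq_zero.1 (by simpa using a3.symm)).symm
  obtain ⟨d, hd⟩ : ∃ d, d = Pi.single f.i0 (1 : F) ᵥ* f.L s⁻¹ + Pi.single f.i0 1 := ⟨_, rfl⟩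
  have d0 : d f.i0 = 0 := hd ▸ f.phi_col (inv_mem hs) fun i hi => absurd hi (by simp [i0, Fin.lt_def])
  refine ⟨d, μ * f.w s f.i1 + f.u s f.i0 + d ⬝ᵥ f.u s, d0, fun h1 h2 => ?_, fun v hv => ?_⟩
  · have hL : f.L s⁻¹ = 1 := by
      ext i j
      have : Pi.single i (1 : F) ᵥ* f.L s⁻¹ = Pi.single i 1 := by
        by_cases e : i = f.i0
        · subst e
          ext k
          exact CharTwo.add_eq_zero.1 (congrFun (hd.symm.trans h1) k)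
        · exact (c1 _ (by simp [Ne.symm e])).1
      simpa [one_apply, Pi.single_apply, eq_comm] using congrFun this j
    have hL' := f.L_inv_mul hs
    rw [hL, one_mul] at hL'
    rw [h1, zero_dotProduct, add_zero] at h2
    refine ⟨⟨hs, hL'⟩, (CharTwo.add_eq_zero.1 h2).symm, ?_, fun i hi => ?_⟩
    · simpa [mul_comm] using (c1 (Pi.single f.i1 1) (by simp [f.phi_ne.symm])).2
    · have h0 : f.i0 ≠ i := fun e => by simp [← e, i0] at hi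
      have h1 : f.i1 ≠ i := fun e => by simp [← e, i1] at hi
      simpa [h1] using (c1 (Pi.single i 1) (by simp [h0])).2
  · obtain ⟨-, a1, -, a3⟩ := f.cmQ hs hv.1
    obtain ⟨b1, b2⟩ := c1 (f.w v + f.w v f.i0 • Pi.single f.i0 1) (by simp [CharTwo.add_self_eq_zero])
    rw [add_vecMul, smul_vecMul] at b1
    have a4 : f.w v ᵥ* f.L s⁻¹ = f.w v + f.w v f.i0 • d := by
      ext j
      have := congrFun b1 j
      simp only [hd, Pi.add_apply, Pi.smul_apply, smul_eq_mul] at this ⊢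
      grind
    have a5 : f.w v ᵥ* f.L s⁻¹ + f.w v = f.w v f.i0 • d := by
      rw [a4]; ext j; simp [add_right_comm, CharTwo.add_self_eq_zero]
    refine ⟨f.phi_mem hs hv, a1.trans a5, ?_⟩
    rw [a3, a5, a4, f.phi_dot hv, f.phi_dot hv, add_dotProduct, smul_dotProduct]
    rw [add_dotProduct, smul_dotProduct, single_dotProduct] at b2
    simp only [Pi.add_apply, Pi.smul_apply, smul_eq_mul, d0, Pi.single_eq_of_ne f.phi_ne] at b2 ⊢
    grind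

theorem phi {μ : F} (hμ : μ ≠ 0) {s s' : G} (hs : s ∈ f.S) (hs' : s' ∈ f.S)
    (c : ∀ p ∈ f.I μ, f.w p f.i0 = 0 → s * p = p * s) (c' : ∀ p ∈ f.I μ, f.w p f.i0 = 0 → s' * p = p * s')
    (h : ∀ v ∈ f.I μ, ∃ v' ∈ f.I μ, ⁅s, v⁆ = ⁅s', v'⁆) (h1 : ∃ v ∈ f.I μ, ⁅s, v⁆ ∉ f.Vs 2) : s⁻¹ * s' ∈ f.I μ := by
  obtain ⟨d, γ, d0, -, e⟩ := f.phi_cm hs c
  obtain ⟨d', γ', d0', -, e'⟩ := f.phi_cm hs' c'
  have d1 : d f.i1 ≠ 0 := fun h0 => by
    obtain ⟨v, hv, k⟩ := h1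
    exact k (f.phi_Vs (e v hv).1 (by simp [(e v hv).2.1, d0]) (by simp [(e v hv).2.1, h0]))
  have k : ∀ a : F, ∃ a' : F, a • d = a' • d' ∧
      a * γ + μ * d f.i1 * a ^ 2 = a' * γ' + μ * d' f.i1 * a' ^ 2 := fun a => by
    obtain ⟨v, hv, a1, -⟩ := f.phi_exI μ (Pi.single f.i0 a) 0
    obtain ⟨v', hv', a2⟩ := h v hv
    have b := (e v hv).2
    rw [a1, Pi.single_eq_same, a2, (e' v' hv').2.1, (e' v' hv').2.2] at b
    exact ⟨_, b.1.symm, b.2.symm⟩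
  obtain ⟨l, l0, l1⟩ := f.ex_l
  obtain ⟨a, k1, k2⟩ := k 1
  obtain ⟨b, k3, k4⟩ := k l
  have k5 := congrFun k1 f.i1
  have k6 := congrFun k3 f.i1
  simp only [Pi.smul_apply, smul_eq_mul, one_mul] at k5 k6
  have a0 : a ≠ 0 := fun h0 => d1 (by rw [k5, h0, zero_mul])
  have d1' : d' f.i1 ≠ 0 := fun h0 => d1 (by rw [k5, h0, mul_zero])
  have hb : b = l * a := mul_right_cancel₀ d1' (by rw [← k6, k5, mul_assoc])
  obtain ⟨p1, p2⟩ := poly (a := γ + a * γ') (b := μ * d' f.i1 * a * (1 + a)) one_ne_zero l0 l1.symm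
    (by rw [k5] at k2; grind) (by rw [k5, hb] at k4; grind)
  have a1 : a = 1 := (CharTwo.add_eq_zero.1 ((mul_eq_zero.1 p2).resolve_left
    (mul_ne_zero (mul_ne_zero hμ d1') a0))).symm
  rw [a1, one_smul, one_smul] at k1
  rw [a1, one_mul, CharTwo.add_eq_zero] at p1
  subst k1 p1
  have cc : ∀ v ∈ f.I μ, s⁻¹ * s' * v = v * (s⁻¹ * s') := fun v hv => by
    have := f.phi_ext (e v hv).1 (e' v hv).1 (by rw [(e v hv).2.1, (e' v hv).2.1])
      (by rw [(e v hv).2.2, (e' v hv).2.2])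
    rw [commutatorElement_def, commutatorElement_def, mul_left_inj] at this
    calc _ = s⁻¹ * (s' * v * s'⁻¹) * s' := by group
      _ = _ := by rw [← this]; group
  obtain ⟨d2, γ2, -, m, e2⟩ := f.phi_cm (mul_mem (inv_mem hs) hs') fun p hp _ => cc p hp
  obtain ⟨v, hv, a1, -⟩ := f.phi_exI μ (Pi.single f.i0 1) 0
  have b := (e2 v hv).2
  rw [commutatorElement_eq_one_iff_mul_comm.2 (cc v hv), a1, f.w_one, f.c_one, Pi.single_eq_same,
    one_smul] at b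
  obtain ⟨rfl, b⟩ := b
  exact m rfl (by simpa using b.symm)

theorem phi_ex {μ : F} (d : Fin n → F) (γ : F) (hd : d f.i0 = 0) : ∃ s ∈ f.S, f.w s = 0 ∧ f.u s = Pi.single f.i0 γ ∧
    f.L s = 1 + vecMulVec (Pi.single f.i0 1) d ∧ (∀ p ∈ f.I μ, f.w p f.i0 = 0 → s * p = p * s) ∧
    ∀ v ∈ f.I μ, f.w ⁅s, v⁆ = f.w v f.i0 • d ∧ f.c ⁅s, v⁆ = f.w v f.i0 * γ + μ * d f.i1 * f.w v f.i0 ^ 2 := by
  obtain ⟨s, hs, e1, e2, e3, e4⟩ := f.phi_el f.i0 d γ fun j hj =>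
    (Fin.ext (Nat.le_zero.1 hj) : j = f.i0) ▸ hd
  have k : ∀ v ∈ f.I μ, f.w ⁅s, v⁆ = f.w v f.i0 • d ∧
      f.c ⁅s, v⁆ = f.w v f.i0 * γ + μ * d f.i1 * f.w v f.i0 ^ 2 := fun v hv =>
    ⟨(e4 v hv.1).1, by rw [(e4 v hv.1).2, f.phi_dot hv, hd]; ring⟩
  refine ⟨s, hs, e1, e2, e3, fun p hp h => commutatorElement_eq_one_iff_mul_comm.1 ?_, k⟩
  exact f.phi_ext (f.phi_mem hs hp) (one_mem _) (by simp [(k p hp).1, h, f.w_one])
    (by simp [(k p hp).2, h, f.c_one])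

/-- `[I μ, T]` for a subgroup `T ≤ S` containing the elements `1 + l E_{s, s + 1}` -/
theorem cm_I (μ : F) {T : Subgroup G} (hT : f.U n ≤ T) (hS : T ≤ f.S) (h3 : 3 ≤ n ∨ T = f.S) :
    (∀ p, p ∈ ⁅f.I μ, T⁆ ↔ p ∈ f.I μ ∧ f.w p f.i0 = 0) ∧ ⁅⁅f.I μ, T⁆, T⁆ = f.Vs 2 := by
  have hn := f.hn
  have hU : ∀ s ∈ f.S, f.u s f.iL = 0 → s ∈ T := fun s hs h =>
    hT (f.mem_U.2 ⟨hs, fun e => absurd hn (by omega), fun _ => h, fun i j _ e => absurd j.2 (by omega)⟩)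
  have k : ∀ p, p ∈ ⁅f.I μ, T⁆ ↔ p ∈ f.I μ ∧ f.w p f.i0 = 0 := fun p => by
    refine ⟨fun h => ?_, fun h => ?_⟩
    · rw [commutator_comm] at h
      refine (commutator_le (H₃ := sub (fun p => p ∈ f.I μ ∧ f.w p f.i0 = 0)
        ⟨one_mem _, by simp [f.w_one]⟩ fun a b ha hb => ⟨mul_mem ha.1 hb.1, by
          simp [(f.mulQ ha.1.1 hb.1.1).1, ha.2, hb.2]⟩)).2 (fun t ht v hv => ⟨f.phi_mem (hS ht) hv, ?_⟩) h
      rw [(f.cmQ (hS ht) hv.1).2.1]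
      exact f.phi_col (inv_mem (hS ht)) fun i hi => absurd hi (by simp [i0, Fin.lt_def])
    · obtain ⟨s, hs, -, e2, -, -, e⟩ := f.phi_ex (μ := μ) (f.w p) (f.c p + μ * f.w p f.i1) h.2
      obtain ⟨v, hv, a1, -⟩ := f.phi_exI μ (Pi.single f.i0 1) 0
      have h0 : f.iL ≠ f.i0 := fun e => by
        have : n - 1 = 0 := congrArg Fin.val e
        omega
      rw [← f.phi_ext (f.phi_mem hs hv) h.1 (by simp [(e v hv).1, a1])
        (by simp [(e v hv).2, a1, add_assoc, CharTwo.add_self_eq_zero]), commutator_comm]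
      exact commutator_mem_commutator (hU s hs (by simp [e2, h0])) hv
  refine ⟨k, ?_⟩
  rw [commutator_comm]
  refine le_antisymm (commutator_le.2 fun t ht p hp => ?_) fun v hv => ?_
  · obtain ⟨h1, h2⟩ := (k p).1 hp
    refine f.phi_Vs (f.phi_mem (hS ht) h1) ?_ ?_ <;> rw [(f.cmQ (hS ht) h1.1).2.1]
    · exact f.phi_col (inv_mem (hS ht)) fun i hi => absurd hi (by simp [i0, Fin.lt_def])
    · exact f.phi_col (inv_mem (hS ht)) fun i hi => (Fin.ext (Nat.lt_one_iff.1 hi) : i = f.i0) ▸ h2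
  · obtain ⟨s, hs, -, e2, -, e⟩ := f.phi_el f.i1 (f.w v) (f.c v) fun j hj =>
      hv.2.2.1 j (Nat.lt_succ_of_le hj)
    obtain ⟨p, hp, a1, -⟩ := f.phi_exI μ (Pi.single f.i1 1) 0
    have w0 : f.w v f.i0 = 0 := hv.2.2.1 _ (by simp [i0])
    have w1 : f.w v f.i1 = 0 := hv.2.2.1 _ (by simp [i1])
    have hvI : v ∈ f.I μ := ⟨hv.1, by simp [hv.2.1, w1], by simp [hv.2.1, w0], fun i _ => by simp [hv.2.1]⟩
    rw [← f.phi_ext (f.phi_mem hs hp) hvI (by simp [(e p hp.1).1, a1])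
      (by simp [(e p hp.1).2, a1, f.phi_dot hp, w0, w1])]
    refine commutator_mem_commutator ?_ ((k p).2 ⟨hp, by simp [a1, f.phi_ne.symm]⟩)
    rcases h3 with h3 | rfl
    · have h0 : f.iL ≠ f.i1 := fun e => by
        have : n - 1 = 1 := congrArg Fin.val e
        omega
      exact hU s hs (by simp [e2, h0])
    · exact hs

end Fr

end H46.Sl
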