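import Cfsg.Agent.Lib.SLM.A1e
import Cfsg.Agent.Lib.SLM.PHI

/-! Unitriangular Sylow 2-subgroups, package A1g: see `blueprint/SLM/README.md`. -/

set_option autoImplicit false
set_option linter.unusedSectionVars false

namespace H46.Sl
open Subgroup H69 Cfsg Matrix
open scoped commutatorElement

namespace Fr
variable {G : Type*} [Group G] [Finite G] {F : Type*} [Field F] [Fintype F] [CharP F 2] {n : ℕ}
  (f : Fr G F n) {E P M : Subgroup G}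

theorem A1g_ne : f.i0 ≠ f.i1 := fun h => by
  have := congrArg Fin.val h
  simp [i0, i1] at this

theorem A1g_cases (r : Fin n) : r = f.i0 ∨ r = f.i1 ∨ 2 ≤ r.val := by
  rcases r with ⟨r, hr⟩
  simp only [i0, i1, Fin.mk.injEq]
  omega

theorem A1g_ne0 {r : Fin n} (h : 2 ≤ r.val) : r ≠ f.i0 := by
  rintro rfl
  simp [i0] at h

theorem A1g_ne1 {r : Fin n} (h : 2 ≤ r.val) : r ≠ f.i1 := by
  rintro rfl
  simp [i1] at h

theorem A1g_dot (x : Fin n → F) {y : Fin n → F} (h : ∀ i : Fin n, 2 ≤ i.val → y i = 0) :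
    x ⬝ᵥ y = x f.i0 * y f.i0 + x f.i1 * y f.i1 := by
  unfold dotProduct
  refine Fintype.sum_eq_add _ _ f.A1g_ne fun i hi => ?_
  rcases f.A1g_cases i with e | e | e
  · exact absurd e hi.1
  · exact absurd e hi.2
  · rw [h i e, mul_zero]

theorem A1g_exI (μ : F) (x : Fin n → F) : ∃ p ∈ f.I μ, f.w p = x := by
  obtain ⟨p, hp, e1, e2, -⟩ := f.exQ x (Pi.single f.i0 (μ * x f.i1) + Pi.single f.i1 (μ * x f.i0)) 0
  refine ⟨p, ⟨hp, ?_, ?_, fun i hi => ?_⟩, e1⟩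
  · simp [e1, e2, Pi.single_eq_of_ne f.A1g_ne]
  · simp [e1, e2, Pi.single_eq_of_ne f.A1g_ne.symm]
  · simp [e2, Pi.single_eq_of_ne (f.A1g_ne0 hi), Pi.single_eq_of_ne (f.A1g_ne1 hi)]

theorem A1g_ext {μ : F} {p q : G} (hp : p ∈ f.I μ) (hq : q ∈ f.I μ) (e : f.w p = f.w q)
    (e' : f.c p = f.c q) : p = q := by
  refine f.inj _ hp.1.1 _ hq.1.1 (hp.1.2.trans hq.1.2.symm) e (funext fun i => ?_) e'
  rcases f.A1g_cases i with rfl | rfl | h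
  · rw [hp.2.1, hq.2.1, e]
  · rw [hp.2.2.1, hq.2.2.1, e]
  · rw [hp.2.2.2 i h, hq.2.2.2 i h]

theorem A1g_comm {μ : F} {p q : G} (hp : p ∈ f.I μ) (hq : q ∈ f.I μ) : p * q = q * p := by
  have h := f.I_sq (mul_mem hp hq)
  calc p * q = (p * q)⁻¹ := eq_inv_of_mul_eq_one_left h
    _ = q * p := by
      rw [_root_.mul_inv_rev, inv_eq_of_mul_eq_one_left (f.I_sq hp), inv_eq_of_mul_eq_one_left (f.I_sq hq)]

theorem A1g_cm {μ : F} {s v : G} (hs : s ∈ f.S) (hv : v ∈ f.I μ) : ⁅s, v⁆ ∈ f.I μ :=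
  mul_mem (conj_mem_of_mem_normalizer (f.nI μ hs) hv) (inv_mem hv)

/-- a group normalising `Q`, `I1` and `Ws (n - 1)` normalises `I μ` -/
theorem A1g_norm {μ : F} {J : Subgroup G} (hJ : ∀ p, p ∈ J ↔ p ∈ f.I μ ∧ f.w p f.i0 = 0)
    (hQ : P ≤ 𝐍(f.Q)) (hP : P ≤ 𝐍(J)) (hW : P ≤ 𝐍(f.Ws (n - 1))) : P ≤ 𝐍(f.I μ) := by
  have hn := f.hn
  refine le_normalizer_of_cj_le fun g hg q hq => ?_
  obtain ⟨p, hp, rfl⟩ := mem_cj'.1 hq
  by_cases h0 : f.w p f.i0 = 0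
  · exact ((hJ _).1 (conj_mem_of_mem_normalizer (hP hg) ((hJ p).2 ⟨hp, h0⟩))).1
  have qQ : g * p * g⁻¹ ∈ f.Q := conj_mem_of_mem_normalizer (hQ hg) hp.1
  have qC : g * p * g⁻¹ ∈ 𝐂(J) :=
    conj_mem_of_mem_normalizer (normalizer_le_normalizer_centralizer J (hP hg))
      fun r hr => f.A1g_comm ((hJ r).1 hr).1 hp
  have q2 : g * p * g⁻¹ * (g * p * g⁻¹) = 1 := by
    rw [show g * p * g⁻¹ * (g * p * g⁻¹) = g * (p * p) * g⁻¹ by group, f.I_sq hp]; group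
  generalize hq' : g * p * g⁻¹ = q at qQ qC q2
  have hB : ∀ r ∈ f.I μ, f.w r f.i0 = 0 → f.B r q = 0 := fun r hr h =>
    (f.commQ hr.1 qQ).1 (qC r ((hJ r).2 ⟨hr, h⟩))
  have u2 : ∀ i : Fin n, 2 ≤ i.val → f.u q i = 0 := by
    intro i hi
    obtain ⟨r, hr, e⟩ := f.A1g_exI μ (Pi.single i 1)
    have := hB r hr (by rw [e, Pi.single_eq_of_ne (f.A1g_ne0 hi).symm])
    rw [B, f.A1g_dot (f.w q) hr.2.2.2, hr.2.1, hr.2.2.1, e] at this
    simpa [Pi.single_eq_of_ne (f.A1g_ne0 hi).symm, Pi.single_eq_of_ne (f.A1g_ne1 hi).symm] using this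
  have u1 : f.u q f.i1 = μ * f.w q f.i0 := by
    obtain ⟨r, hr, e⟩ := f.A1g_exI μ (Pi.single f.i1 1)
    have := hB r hr (by rw [e, Pi.single_eq_of_ne f.A1g_ne])
    rw [B, f.A1g_dot (f.w q) hr.2.2.2, hr.2.1, hr.2.2.1, e] at this
    simp only [single_dotProduct, one_mul, Pi.single_eq_same, mul_one, Pi.single_eq_of_ne f.A1g_ne,
      mul_zero, add_zero] at this
    rw [CharTwo.add_eq_zero.1 this, mul_comm]
  have w0 : f.w q f.i0 ≠ 0 := by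
    intro w0
    obtain ⟨r, hr, e⟩ := f.A1g_exI μ (f.w q)
    have rJ : r ∈ J := (hJ r).2 ⟨hr, by rw [e, w0]⟩
    have m : r⁻¹ * q ∈ f.Ws (n - 1) := by
      obtain ⟨e1, e2, -⟩ := f.mulQ (inv_mem hr.1) qQ
      obtain ⟨e3, e4, -⟩ := f.invQ hr.1
      refine ⟨mul_mem (inv_mem hr.1) qQ, ?_, fun i hi => ?_, fun h => by omega⟩
      · rw [e1, e3, e]; funext i; exact CharTwo.add_self_eq_zero _
      · rw [e2, e4, Pi.add_apply]
        rcases f.A1g_cases i with rfl | rfl | h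
        · simp only [i0] at hi; omega
        · rw [hr.2.2.1, u1, e]; exact CharTwo.add_self_eq_zero _
        · rw [hr.2.2.2 i h, u2 i h, add_zero]
    have r1 := (hJ _).1 (conj_mem_of_mem_normalizer' (hP hg) rJ)
    have r2 := conj_mem_of_mem_normalizer' (hW hg) m
    have e5 : p = g⁻¹ * r * g * (g⁻¹ * (r⁻¹ * q) * g) := by rw [← hq']; group
    apply h0
    rw [e5, (f.mulQ r1.1.1 r2.1).1, Pi.add_apply, r1.2, r2.2.1]
    simp
  refine ⟨qQ, ?_, u1, u2⟩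
  have h1 := (f.sqQ qQ).2
  rw [q2, f.c_one, f.A1g_dot _ u2, u1] at h1
  apply mul_left_cancel₀ w0
  rw [CharTwo.add_eq_zero.1 h1.symm]; ring

theorem Mid.two {f : Fr G F n} (h : f.Mid P M 2) : P ≤ 𝐍(f.V) := by
  have kn := h.kn
  have me := h.a1.me
  obtain ⟨x, hx, hM⟩ := me.ex_x
  obtain ⟨t, ht⟩ : ∃ t : Fin n, t.val = 2 := ⟨⟨2, kn⟩, rfl⟩
  have t0 := f.A1g_ne0 ht.ge
  have t1 := f.A1g_ne1 ht.ge
  obtain ⟨e, eQ, we, ue0, -⟩ := f.exQ (Pi.single t 1) 0 0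
  obtain ⟨e', eQ', we0, ue, -⟩ := f.exQ 0 (Pi.single f.i1 1) 0
  have he : e ∈ f.V := f.mem_V.2 ⟨eQ, ue0⟩
  have he' : e' ∈ f.W := f.mem_W.2 ⟨eQ', we0⟩
  have xQ := h.a1.nQ hx
  have xZ := h.a1.cZ hx
  obtain ⟨c1, c2, c3, -⟩ := h.co le_rfl hx hM (s := f.i1) rfl ht he we he' ue
  have c2' := c2 f.i0 (by simp [i0, i1, Fin.lt_def])
  have yQ : x * e * x⁻¹ ∈ f.Q := conj_mem_of_mem_normalizer xQ eQ
  obtain ⟨μ, hμ⟩ : ∃ μ, f.u (x * e * x⁻¹) f.i0 = μ * f.w (x * e * x⁻¹) f.i1 :=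
    ⟨_, (div_mul_cancel₀ _ c3).symm⟩
  by_cases h0 : μ = 0
  · refine h.nV_of hx hM (s := f.i1) rfl ht he we he' ue (a := 1) (b := 0) (Or.inl one_ne_zero) ?_
    rw [one_smul, zero_smul, add_zero]
    funext r
    by_cases hr : r = f.i0
    · rw [hr, hμ, h0, zero_mul]; rfl
    · exact c1 r hr
  exfalso
  have yI : x * e * x⁻¹ ∈ f.I μ :=
    ⟨yQ, hμ, by rw [c1 _ f.A1g_ne.symm, c2', mul_zero], fun i hi => c1 i (f.A1g_ne0 hi)⟩
  have hJ := (f.cm_I μ (f.U_le n) le_rfl (Or.inr rfl)).1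
  have hSJ : f.S ≤ 𝐍(⁅f.I μ, f.S⁆) := le_normalizer_commutator (f.nI μ) le_normalizer
  generalize ⁅f.I μ, f.S⁆ = J at hJ hSJ
  have st : f.i1 < t := by simp [i1, Fin.lt_def, ht]
  obtain ⟨a, ha⟩ := f.exEl st 1
  have aE : a ∉ f.U 2 := fun m => by
    have := (f.mem_U.1 m).2.2.2 f.i1 t rfl ht
    rw [ha.2.1] at this
    simp [t1.symm] at this
  have PJ : P ≤ 𝐍(J) := by
    refine me.gen (g := 1) (one_mem _) hx (by simpa using hM) ⟨ha.1, f.nU 2 ha.1⟩ aE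
      (by rw [cj_one]; exact inf_le_left.trans hSJ) (mem_normalizer_of_cj_le fun q hq => ?_)
    obtain ⟨p, hp, rfl⟩ := mem_cj'.1 hq
    obtain ⟨p1, p2⟩ := (hJ p).1 hp
    obtain ⟨s1, s2, s3⟩ := f.sieg xQ xZ st ha he we he' ue p1.1
    rw [(f.commQ p1.1 yQ).1 (f.A1g_comm p1 yI), mul_zero, zero_smul, add_zero] at s2 s3
    have m : ⁅x * a * x⁻¹, p⁆ ∈ J := by
      refine (hJ _).2 ⟨⟨s1, ?_, ?_, fun i hi => ?_⟩, ?_⟩
      · rw [s2, s3, Pi.smul_apply, Pi.smul_apply, yI.2.1, smul_eq_mul, smul_eq_mul]; ring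
      · rw [s2, s3, Pi.smul_apply, Pi.smul_apply, yI.2.2.1, smul_eq_mul, smul_eq_mul]; ring
      · rw [s3, Pi.smul_apply, yI.2.2.2 i hi, smul_zero]
      · rw [s2, Pi.smul_apply, c2', smul_zero]
    have := mul_mem m hp
    rwa [commutatorElement_def, inv_mul_cancel_right] at this
  have PI : P ≤ 𝐍(f.I μ) :=
    f.A1g_norm hJ h.a1.nQ PJ (by have := h.a1.dd.PW; rwa [show n - 2 + 1 = n - 1 by omega] at this)
  obtain ⟨l, l0, l1⟩ := f.ex_l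
  have key : ∀ κ : F, ∃ b ∈ f.S, f.L b f.i0 t = κ ∧ x * b * x⁻¹ ∈ f.S ∧
      (∀ p ∈ f.I μ, f.w p f.i0 = 0 → x * b * x⁻¹ * p = p * (x * b * x⁻¹)) ∧
      ∀ v ∈ f.I μ, f.w ⁅b, v⁆ = Pi.single t (f.w v f.i0 * κ) ∧ f.c ⁅b, v⁆ = 0 := by
    intro κ
    obtain ⟨b, hb, -, -, b3, b4, b5⟩ := f.phi_ex (μ := μ) (Pi.single t κ) 0 (Pi.single_eq_of_ne t0.symm _)
    refine ⟨b, hb, ?_, ?_, fun p hp h0 => ?_, fun v hv => ⟨?_, ?_⟩⟩
    · rw [b3]; simp [t0.symm, vecMulVec_apply]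
    · refine f.U_le 2 (conj_mem_of_mem_normalizer (me.nE hx) (f.mem_U.2
        ⟨hb, fun h => by omega, fun h => by omega, fun i j hi hj => ?_⟩))
      obtain rfl : i = f.i1 := Fin.ext (by simp only [i1]; omega)
      obtain rfl : j = t := Fin.ext (by omega)
      rw [b3]; simp [t1.symm, vecMulVec_apply, Pi.single_eq_of_ne f.A1g_ne.symm]
    · obtain ⟨p1, p2⟩ := (hJ _).1 (conj_mem_of_mem_normalizer' (PJ hx) ((hJ p).2 ⟨hp, h0⟩))
      calc x * b * x⁻¹ * p = x * (b * (x⁻¹ * p * x)) * x⁻¹ := by group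
        _ = _ := by rw [b4 _ p1 p2]; group
    · rw [(b5 v hv).1, ← Pi.single_smul, smul_eq_mul]
    · rw [(b5 v hv).2, Pi.single_eq_of_ne t1.symm]; ring
  obtain ⟨b, hb, b1, b2, b3, b4⟩ := key 1
  obtain ⟨b', hb', b1', b2', b3', b4'⟩ := key l
  have fin := f.phi h0 b2 b2' b3 b3' (fun v hv => ?_) ?_
  · have m := (conj_mem_of_mem_normalizer' (PI hx) fin).1.2
    rw [show x⁻¹ * ((x * b * x⁻¹)⁻¹ * (x * b' * x⁻¹)) * x = b⁻¹ * b' by group] at m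
    have e1 := f.L_mul _ hb _ (mul_mem (inv_mem hb) hb')
    rw [mul_inv_cancel_left, m, mul_one] at e1
    exact l1 (by rw [← b1', e1, b1])
  · have v0 := conj_mem_of_mem_normalizer' (PI hx) hv
    obtain ⟨v', hv', e1⟩ := f.A1g_exI μ (Pi.single f.i0 (f.w (x⁻¹ * v * x) f.i0 * l⁻¹))
    refine ⟨x * v' * x⁻¹, conj_mem_of_mem_normalizer (PI hx) hv', ?_⟩
    have e2 : ⁅b, x⁻¹ * v * x⁆ = ⁅b', v'⁆ := by
      refine f.A1g_ext (f.A1g_cm hb v0) (f.A1g_cm hb' hv') ?_ (by rw [(b4 _ v0).2, (b4' _ hv').2])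
      rw [(b4 _ v0).1, (b4' _ hv').1, e1, Pi.single_eq_same, mul_one, inv_mul_cancel_right₀ l0]
    rw [← conjugate_commutatorElement, ← e2, conjugate_commutatorElement]
    congr 1; group
  · obtain ⟨v, hv, e1⟩ := f.A1g_exI μ (Pi.single f.i0 1)
    refine ⟨x * v * x⁻¹, conj_mem_of_mem_normalizer (PI hx) hv, fun m => c3 ?_⟩
    rw [← conjugate_commutatorElement] at m
    have m1 := f.A1g_cm hb hv
    have e2 : f.w ⁅b, v⁆ = Pi.single t 1 := by rw [(b4 _ hv).1, e1, Pi.single_eq_same, mul_one]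
    have e3 : f.u ⁅b, v⁆ = 0 := by
      funext i
      rcases f.A1g_cases i with rfl | rfl | hi
      · rw [m1.2.1, e2, Pi.single_eq_of_ne t1.symm, mul_zero]; rfl
      · rw [m1.2.2.1, e2, Pi.single_eq_of_ne t0.symm, mul_zero]; rfl
      · exact m1.2.2.2 i hi
    have e4 := (f.lin xQ xZ eQ eQ m1.1 (a := 1) (b := 0) (by rw [e2, we]; simp)
      (by rw [e3, ue0]; simp)).1
    rw [one_smul, zero_smul, add_zero] at e4
    rw [← e4]
    exact m.2.2.1 f.i1 (by simp [i1])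

end Fr

end H46.Sl
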