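import Cfsg.Agent.Lib.SLM.Bas2
import Cfsg.Agent.Lib.SLM.LA
import Cfsg.Agent.Lib.SLM.MB2

/-! Unitriangular Sylow 2-subgroups, package GC: see `blueprint/SLM/README.md`. -/

set_option autoImplicit false
set_option linter.unusedSectionVars false
set_option linter.unusedVariables false

namespace H46.Sl
open Subgroup H69 Cfsg Matrix
open scoped commutatorElement

namespace Fr
variable {G : Type*} [Group G] [Finite G] {F : Type*} [Field F] [Fintype F] [CharP F 2] {n : ℕ}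
  (f : Fr G F n) {E P M : Subgroup G}

theorem gc_add {x y : Fin n → F} : x + y = 0 ↔ x = y := by
  rw [add_eq_zero_iff_eq_neg]
  exact ⟨fun h => h.trans (funext fun i => CharTwo.neg_eq _), fun h => h.trans (funext fun i => (CharTwo.neg_eq _).symm)⟩

theorem gc_ker {y q : G} : f.Ker y q ↔ f.w q ᵥ* (f.L y - 1) = 0 ∧ (f.L y - 1) *ᵥ f.u q = 0 := by
  rw [Ker, vecMul_sub, sub_mulVec, vecMul_one, one_mulVec, sub_eq_zero, sub_eq_zero]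

theorem gc (hE : E ≤ f.S) (hZ : f.Z ≤ E) (hV : ¬ f.V ≤ E) (hW : ¬ f.W ≤ E) (γ : G → G)
    (h1 : ∀ b ∈ f.A E, γ b ∈ f.S) (h2 : ∀ b ∈ f.A E, ∀ b' ∈ f.A E, f.L (γ (b * b')) = f.L (γ b) * f.L (γ b'))
    (h3 : ∀ b ∈ f.A E, ∀ e ∈ E, f.L (γ b) * f.L e = f.L e * f.L (γ b))
    (h4 : ∀ b ∈ f.A E, b ∉ E → ∀ q ∈ f.Q, q ∈ E ↔ f.Ker (γ b) q) : False := by
  classical
  obtain ⟨a, ha, haE⟩ := SetLike.not_le_iff_exists.1 fun h =>
    hV (grow' f.pS hE (hE.trans (f.nVs 0)) ((f.Vs_le 0).trans f.Q_le) h)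
  obtain ⟨d, hd, hdE⟩ := SetLike.not_le_iff_exists.1 fun h =>
    hW (grow' f.pS hE (hE.trans (f.nWs 0)) ((f.Ws_le 0).trans f.Q_le) h)
  have VA : f.V ⊓ 𝐍(E) ≤ f.A E := inf_le_inf_right _ (f.Vs_le 0)
  have dA : d ∈ f.A E := ⟨f.Ws_le 0 hd.1, hd.2⟩
  set N : G → Matrix (Fin n) (Fin n) F := fun b => f.L (γ b) - 1 with hN
  have k4 : ∀ b ∈ f.A E, b ∉ E → ∀ q ∈ f.Q, q ∈ E ↔ f.w q ᵥ* N b = 0 ∧ N b *ᵥ f.u q = 0 :=
    fun b hb hb' q hq => (h4 b hb hb' q hq).trans f.gc_ker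
  have kV : ∀ b ∈ f.A E, b ∉ E → ∀ v ∈ f.V, v ∈ E ↔ f.w v ᵥ* N b = 0 := fun b hb hb' v hv => by
    rw [k4 b hb hb' v (f.mem_V.1 hv).1, (f.mem_V.1 hv).2, mulVec_zero, and_iff_left rfl]
  have k3 : ∀ b ∈ f.A E, ∀ e ∈ E, ∀ x, (x ᵥ* f.L e) ᵥ* N b = (x ᵥ* N b) ᵥ* f.L e := fun b hb e he x => by
    simp only [vecMul_vecMul, hN, mul_sub, sub_mul, mul_one, one_mul, h3 b hb e he]
  have kc : ∀ b ∈ f.A E, b ∉ E → ∀ v ∈ f.V, ∀ e ∈ E,
      (⁅e, v⁆ ∈ E ↔ (f.w v ᵥ* N b) ᵥ* f.L e⁻¹ = f.w v ᵥ* N b) := fun b hb hb' v hv e he => by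
    rw [kV b hb hb' _ (f.Vs_anti (Nat.zero_le _) (f.cmVs (hE he) hv)), (f.cmQ (hE he) (f.Vs_le 0 hv)).2.1,
      add_vecMul, gc_add, k3 b hb _ (inv_mem he)]
  have inj : ∀ b ∈ f.A E, ∀ b' ∈ f.A E, f.w a ᵥ* N b = f.w a ᵥ* N b' → b * b'⁻¹ ∈ E := fun b hb b' hb' e => by
    by_contra hn
    have hc := mul_mem hb (inv_mem hb')
    have e1 := h2 _ hc _ hb'
    rw [inv_mul_cancel_right] at e1
    simp only [hN, vecMul_sub, sub_left_inj] at e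
    refine haE ((kV _ hc hn a ha.1).2 ?_)
    have := congrArg (· ᵥ* f.L (γ b')⁻¹) e
    simp only [e1, vecMul_vecMul, mul_assoc, f.L_mul_inv (h1 _ hb'), mul_one, vecMul_one] at this
    simp only [hN, vecMul_sub, vecMul_one, this, sub_self]
  let X : Set (Fin n → F) := {x | ∃ v ∈ f.V ⊓ 𝐍(E), f.w v ᵥ* N a = x}
  have key : ∀ b ∈ f.A E, b ∉ E → f.w a ᵥ* N b ∈ X := fun b hb hb' => by
    obtain ⟨x, hx⟩ := row_of_perp (N := N a) (s := f.w a ᵥ* N b) fun β hβ => by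
      obtain ⟨q, hq, e1, e2, -⟩ := f.exQ 0 β 0
      have := (k4 b hb hb' q hq).1 ((k4 a (VA ha) haE q hq).2 ⟨by rw [e1, zero_vecMul], by rw [e2, hβ]⟩)
      rw [← dotProduct_mulVec, ← e2, this.2, dotProduct_zero]
    obtain ⟨v, hq, e1, e2, -⟩ := f.exQ x 0 0
    have hv : v ∈ f.V := f.mem_V.2 ⟨hq, e2⟩
    refine ⟨v, ⟨hv, mem_normalizer_of_cj_le fun g hg => ?_⟩, by rw [e1, hx]⟩
    obtain ⟨e, he, rfl⟩ := mem_cj'.1 hg
    have : ⁅e, v⁆ ∈ E := by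
      rw [kc a (VA ha) haE v hv e he, e1, ← hx, ← kc b hb hb' a ha.1 e he, commutatorElement_def, mul_assoc, mul_assoc,
        ← mul_assoc a]
      exact mul_mem he (conj_mem_of_mem_normalizer ha.2 (inv_mem he))
    convert mul_mem (inv_mem this) he using 1
    rw [commutatorElement_def]; group
  have st : ∀ x : X, ∃ v ∈ f.V ⊓ 𝐍(E), f.w v ᵥ* N a = x ∧ f.w a ᵥ* N v ∈ X := fun ⟨x, v, hv, e⟩ => by
    by_cases h : v ∈ E
    · have e1 := h2 1 (one_mem _) 1 (one_mem _)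
      have e2 := congrArg (· * f.L (γ 1)⁻¹) e1
      simp only [mul_one, mul_assoc, f.L_mul_inv (h1 1 (one_mem _))] at e2
      refine ⟨1, one_mem _, ?_, 1, one_mem _, ?_⟩
      · rw [f.w_one, zero_vecMul]; exact ((kV a (VA ha) haE v hv.1).1 h).symm.trans e
      · simp only [f.w_one, zero_vecMul, hN, ← e2, sub_self, vecMul_zero]
    · exact ⟨v, hv, e, key v (VA hv) h⟩
  choose r r1 r2 r3 using st
  have hi : Function.Injective fun x : X => (⟨_, r3 x⟩ : X) := fun x y e => by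
    have e1 := (kV a (VA ha) haE _ (mul_mem (r1 x).1 (inv_mem (r1 y).1))).1
      (inj _ (VA (r1 x)) _ (VA (r1 y)) (congrArg Subtype.val e))
    rw [(f.mulQ (VA (r1 x)).1 (inv_mem (VA (r1 y)).1)).1, (f.invQ (VA (r1 y)).1).1, add_vecMul, gc_add, r2, r2] at e1
    exact Subtype.ext e1
  obtain ⟨x, hx⟩ := Finite.injective_iff_surjective.1 hi ⟨_, key d dA hdE⟩
  have hq := (VA (r1 x)).1
  have e1 := ((k4 a (VA ha) haE _ (mul_mem hq (inv_mem dA.1))).1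
    (inj _ (VA (r1 x)) _ dA (congrArg Subtype.val hx))).2
  rw [(f.mulQ hq (inv_mem dA.1)).2.1, (f.invQ dA.1).2.1, (f.mem_V.1 (r1 x).1).2, zero_add] at e1
  exact hdE ((k4 a (VA ha) haE d dA.1).2 ⟨by rw [(f.mem_W.1 hd.1).2, zero_vecMul], e1⟩)

end Fr

end H46.Sl
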