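import Cfsg.Agent.Lib.SLM.DD
import Cfsg.Agent.Lib.SLM.GC

/-! Unitriangular Sylow 2-subgroups, package A2: see `blueprint/SLM/README.md`. -/

set_option autoImplicit false
set_option linter.unusedSectionVars false

namespace H46.Sl
open Subgroup H69 Cfsg Matrix
open scoped commutatorElement

namespace Fr
variable {G : Type*} [Group G] [Finite G] {F : Type*} [Field F] [Fintype F] [CharP F 2] {n : ℕ}
  (f : Fr G F n) {E P M : Subgroup G}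

theorem a2_add {a b : Fin n → F} : a + b = 0 ↔ a = b := by
  constructor
  · intro h
    funext i
    have := congrFun h i
    rw [Pi.add_apply, Pi.zero_apply, CharTwo.add_eq_zero] at this
    exact this
  · rintro rfl
    funext i
    exact CharTwo.add_self_eq_zero _

theorem a2_cm {X : Subgroup G} (h : ME f.S E P M) {p x e : G} (hp : ∀ s ∈ f.S, ⁅s, p⁆ ∈ X)
    (hX : P ≤ 𝐍(X)) (hx : x ∈ P) (he : e ∈ E) : ⁅x * p * x⁻¹, e⁆ ∈ X := by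
  have k := conj_mem_of_mem_normalizer (hX hx)
    (inv_mem (hp _ (h.le (conj_mem_of_mem_normalizer' (h.nE hx) he))))
  convert k using 1
  simp only [commutatorElement_def]
  group

theorem a2_sq {p x : G} (h : p * p = 1) : x * p * x⁻¹ * (x * p * x⁻¹) = 1 := by
  calc _ = x * (p * p) * x⁻¹ := by group
    _ = 1 := by rw [h, mul_one, mul_inv_cancel]

theorem a2_back {j i : ℕ} (h : ME f.S E P M) (d : f.DD E P j i) {p : G} (hp : p ∈ f.D (j - 1) (i - 1))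
    (h2 : p * p = 1) (hg : ∃ g ∈ P, ⁅p, g⁆ ∉ f.D j i) {x : G} (hx : x ∈ P) (hM : x ∉ M) {q : G}
    (hq : q ∈ f.Q) (k : f.Ker (x * p * x⁻¹) q) : q ∈ E := by
  have yS : x * p * x⁻¹ ∈ f.S := h.le (conj_mem_of_mem_normalizer (h.nE hx) (d.DE hp))
  obtain ⟨c1, c2, c3, -⟩ := f.cmQ yS hq
  rw [(f.inv_co yS (a2_sq h2)).1, a2_add.2 k.1] at c2
  rw [a2_add.2 k.2] at c3
  refine h.reg_mod (f.nD j i) d.PD (d.DE hp) (fun s hs => d.cmD hp hs) hg hx hM (f.Q_le hq) ?_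
  exact (f.mem_D d.jn d.in').2 ⟨c1, fun t _ => by rw [c2]; rfl, fun t _ => by rw [c3]; rfl⟩

theorem a2_ker {j i : ℕ} (h : ME f.S E P M) (d : f.DD E P j i) {v : G} (hv : v ∈ f.Vs (j - 1))
    (hg : ∃ g ∈ P, ⁅v, g⁆ ∉ f.D j i) {x : G} (hx : x ∈ P) (hM : x ∉ M) {q : G} (hq : q ∈ f.Q) :
    q ∈ E ↔ f.Ker (x * v * x⁻¹) q := by
  have v2 : v * v = 1 := f.V_sq (f.Vs_anti (Nat.zero_le _) hv)
  have back := fun {q : G} (hq : q ∈ f.Q) => f.a2_back h d (mem_sup_left hv) v2 hg hx hM hq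
  refine ⟨fun hE => ?_, back hq⟩
  obtain ⟨v', hv', g', hg', hn'⟩ := DD.exV (f := f.dual) h d.dual
  rw [f.dual_Vs] at hv'
  have eD : f.dual.D i j = f.D j i := by
    rw [D, D, f.dual_Vs, f.dual_Ws, sup_comm]
  rw [eD] at hn'
  have w2 : v' * v' = 1 := f.W_sq (f.Ws_anti (Nat.zero_le _) hv')
  have back' := fun {q : G} (hq : q ∈ f.Q) =>
    f.a2_back h d (mem_sup_right hv') w2 ⟨g', hg', hn'⟩ hx hM hq
  have yS : x * v * x⁻¹ ∈ f.S := h.le (conj_mem_of_mem_normalizer (h.nE hx) (d.VE hv))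
  have yS' : x * v' * x⁻¹ ∈ f.S := h.le (conj_mem_of_mem_normalizer (h.nE hx) (d.WE hv'))
  have fw : ∀ {q : G}, q ∈ f.Q → q ∈ E → f.L (x * v * x⁻¹) *ᵥ f.u q = f.u q := fun hq hE => by
    have k := f.a2_cm h (fun s hs => by
      simpa only [Nat.sub_add_cancel d.j1] using f.cmVs hs hv) d.PV hx hE
    exact a2_add.1 ((f.cmQ yS hq).2.2.1.symm.trans (f.mem_Vs.1 k).2.1)
  have fw' : ∀ {q : G}, q ∈ f.Q → q ∈ E → f.w q ᵥ* f.L (x * v' * x⁻¹) = f.w q := fun hq hE => by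
    have k := f.a2_cm h (fun s hs => by
      simpa only [Nat.sub_add_cancel d.i1] using f.cmWs hs hv') d.PW hx hE
    rw [← (f.inv_co yS' (a2_sq w2)).1]
    exact a2_add.1 ((f.cmQ yS' hq).2.1.symm.trans (f.mem_Ws.1 k).2.1)
  have key := (ker_eq (N := f.L (x * v * x⁻¹) + 1) (N' := f.L (x * v' * x⁻¹) + 1) (fun a ha => ?_)
    fun b hb => ?_).1 (f.w q) (by rw [vecMul_add, vecMul_one, a2_add, fw' hq hE])
  · rw [vecMul_add, vecMul_one, a2_add] at key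
    exact ⟨key, fw hq hE⟩
  · obtain ⟨p, hp, e1, e2, -⟩ := f.exQ a 0 0
    rw [vecMul_add, vecMul_one, a2_add] at ha ⊢
    rw [← e1] at ha ⊢
    exact fw' hp (back hp ⟨ha, by rw [e2, mulVec_zero]⟩)
  · obtain ⟨p, hp, e1, e2, -⟩ := f.exQ 0 b 0
    rw [add_mulVec, one_mulVec, a2_add] at hb ⊢
    rw [← e2] at hb ⊢
    exact fw hp (back' hp ⟨by rw [e1, zero_vecMul], hb⟩)

theorem a2 (h : ME f.S E P M) (hZ : Oc P f.Z) : f.Q ≤ E := by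
  by_contra hQ
  obtain ⟨j, i, d⟩ := f.ex_DD h hZ
  obtain ⟨v, hv, hg⟩ := d.exV h
  obtain ⟨x, hx, hM⟩ := h.ex_x
  have v2 : v * v = 1 := f.V_sq (f.Vs_anti (Nat.zero_le _) hv)
  have vQ : v ∈ f.Q := f.Vs_le _ hv
  have vE : v ∈ E := d.VE hv
  have all : f.L (x * v * x⁻¹) ≠ 1 := fun e => hQ fun q hq =>
    (f.a2_ker h d hv hg hx hM hq).2 ⟨by rw [e, vecMul_one], by rw [e, one_mulVec]⟩
  have cP : ∀ b ∈ f.A E, x * b * x⁻¹ ∈ P := fun b hb =>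
    mul_mem (mul_mem hx (h.MP (h.RM ⟨f.Q_le hb.1, hb.2⟩))) (inv_mem hx)
  have cS : ∀ b ∈ f.A E, x * b * x⁻¹ * v * (x * b * x⁻¹)⁻¹ ∈ f.S := fun b hb =>
    h.le (conj_mem_of_mem_normalizer (h.nE (cP b hb)) vE)
  have eγ : ∀ c : G, ⁅v, c⁆ = v * (c * v * c⁻¹) := fun c => by
    rw [commutatorElement_def, inv_eq_of_mul_eq_one_right v2]; group
  have Lγ : ∀ b ∈ f.A E, f.L ⁅v, x * b * x⁻¹⁆ = f.L (x * b * x⁻¹ * v * (x * b * x⁻¹)⁻¹) := fun b hb => by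
    rw [eγ, f.L_mul _ vQ.1 _ (cS b hb), vQ.2, one_mul]
  have γS : ∀ b ∈ f.A E, ⁅v, x * b * x⁻¹⁆ ∈ f.S := fun b hb => eγ _ ▸ mul_mem vQ.1 (cS b hb)
  refine f.gc h.le (fun z hz => (f.ZE h hz).1) (fun hV => all ?_) (fun hW => all ?_)
    (fun b => ⁅v, x * b * x⁻¹⁆) γS (fun b hb b' hb' => ?_) (fun b hb e he => ?_) fun b hb hE q hq => ?_
  · refine ext_of_single_vecMul fun t => ?_
    obtain ⟨p, hp, e1, e2, -⟩ := f.exQ (Pi.single t 1) 0 0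
    rw [vecMul_one, ← e1]
    exact ((f.a2_ker h d hv hg hx hM hp).1 (hV (f.mem_V.2 ⟨hp, e2⟩))).1
  · refine ext_of_mulVec_single fun t => ?_
    obtain ⟨p, hp, e1, e2, -⟩ := f.exQ 0 (Pi.single t 1) 0
    rw [one_mulVec, ← e2]
    exact ((f.a2_ker h d hv hg hx hM hp).1 (hW (f.mem_W.2 ⟨hp, e1⟩))).2
  · have k1 := (f.cmQ (h.le (conj_mem_of_mem_normalizer' (h.nE hx) vE)) hb'.1).1
    have k2 := (f.cmQQ hb.1 k1).1
    have k3 := conj_eq_of_mem_centralizer (f.cZ_of h hZ hx) k2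
    have zQ := f.Vs_le _ k2
    have e : ⁅v, x * (b * b') * x⁻¹⁆ = ⁅v, x * b * x⁻¹⁆ * (⁅b, ⁅x⁻¹ * v * x, b'⁆⁆ * ⁅v, x * b' * x⁻¹⁆) := by
      rw [← k3]
      simp only [commutatorElement_def]
      group
    show f.L ⁅v, x * (b * b') * x⁻¹⁆ = f.L ⁅v, x * b * x⁻¹⁆ * f.L ⁅v, x * b' * x⁻¹⁆
    rw [e, f.L_mul _ (γS b hb) _ (mul_mem zQ.1 (γS b' hb')), f.L_mul _ zQ.1 _ (γS b' hb'), zQ.2, one_mul]
  · have k := f.Vs_le _ (f.a2_cm h (fun s hs => by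
      simpa only [Nat.sub_add_cancel d.j1] using f.cmVs hs hv) d.PV (cP b hb) he)
    show f.L ⁅v, x * b * x⁻¹⁆ * _ = _ * f.L ⁅v, x * b * x⁻¹⁆
    rw [Lγ b hb, ← f.L_mul _ (cS b hb) _ (h.le he), ← f.L_mul _ (h.le he) _ (cS b hb)]
    have m := mul_mem (h.le he) (cS b hb)
    generalize x * b * x⁻¹ * v * (x * b * x⁻¹)⁻¹ = y at k m ⊢
    rw [show y * e = ⁅y, e⁆ * (e * y) by rw [commutatorElement_def]; group, f.L_mul _ k.1 _ m, k.2, one_mul]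
  · have k := h.out hx hM ⟨f.Q_le hb.1, hb.2⟩ hE
    rw [f.a2_ker h d hv hg k.1 k.2 hq]
    show _ ↔ f.Ker ⁅v, x * b * x⁻¹⁆ q
    rw [Ker, Ker, Lγ b hb]

end Fr

end H46.Sl
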