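import Cfsg.Agent.Lib.SLM.MB1
import Cfsg.Agent.Lib.Transfer.Alperin

/-! Unitriangular Sylow 2-subgroups, package AL: see `blueprint/SLM/README.md`. -/

set_option autoImplicit false
set_option linter.unusedSectionVars false

namespace H46.Sl
open Subgroup H69 Cfsg Matrix
open scoped commutatorElement

variable {G : Type*} [Group G] [Finite G] {S E P M : Subgroup G}

theorem al_zp {a : G} (h : ∃ k : ℕ, a ^ 2 ^ k = 1) : IsPGroup 2 (zpowers a) := by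
  obtain ⟨k, hk⟩ := h
  rintro ⟨_, m, rfl⟩
  exact ⟨k, Subtype.ext (by
    show (a ^ m) ^ 2 ^ k = 1
    rw [← _root_.zpow_natCast, ← _root_.zpow_mul, mul_comm, _root_.zpow_mul, _root_.zpow_natCast, hk,
      _root_.one_zpow])⟩

theorem al (hS : IsSylowIn 2 S ⊤) {r : G → G → Prop} (hr : Equivalence r)
    (top : ∀ g ∈ 𝐍(S), ∀ y ∈ S, r y (g * y * g⁻¹))
    (loc : ∀ E P M, ME S E P M → ∀ g ∈ P, ∀ y ∈ E, r y (g * y * g⁻¹)) {y g : G} (hy : y ∈ S)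
    (hg : g * y * g⁻¹ ∈ S) : r y (g * y * g⁻¹) := by
  have := Fact.mk Nat.prime_two
  obtain ⟨T, rfl⟩ := hS.exists_sylow_top
  have hΦ : H4.FusionClosed (T : Subgroup G) fun A g => ∀ y ∈ A, r y (g * y * g⁻¹) := by
    refine ⟨fun h _ _ k y hy => k y (h hy), fun {A g h} _ _ _ k k' y hy => hr.trans (k y hy) ?_,
      fun {A g} _ _ k y hy => ?_⟩
    · rw [show h * g * y * (h * g)⁻¹ = h * (g * y * g⁻¹) * h⁻¹ by group]
      exact k' _ (H1.conj_mem_conj_smul hy)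
    · obtain ⟨a, ha, rfl⟩ := hy
      have e : g⁻¹ * (g * a * g⁻¹) * g⁻¹⁻¹ = a := by group
      show r (g * a * g⁻¹) (g⁻¹ * (g * a * g⁻¹) * g⁻¹⁻¹)
      rw [e]
      exact hr.symm (k a ha)
  refine H4.alperin_catches T hΦ (fun _ => True) (H4.exists_fullyNorm_conj_true T) top
    (fun D hD hFN _ H hH hH' => ?_) (A := zpowers y) (zpowers_le.2 hy) ?_ y (mem_zpowers y)
  · by_contra hne
    obtain ⟨K, ⟨k1, k2, k3⟩, hm⟩ := exists_minimal_of_wellFoundedLT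
      (fun K : Subgroup G => (T : Subgroup G) ⊓ 𝐍(D) ≤ K ∧ K ≤ 𝐍(D) ∧ ¬ K ≤ H) ⟨_, inf_le_right, le_rfl, hne⟩
    have RH := hH.inf_normalizer_le hD
    have DH : D ≤ H := (le_inf hD.le le_normalizer).trans RH
    have me : ME (T : Subgroup G) D K (K ⊓ H) :=
      { pS := T.2
        le := hD.le
        ne := hD.not_ge
        nE := k2
        RM := le_inf k1 RH
        MP := inf_le_left
        nM := fun k => k3 (k.trans inf_le_right)
        syl := (isSylowIn_of_not_dvd_relIndex T.2.to_inf_left inf_le_right hFN).mono k1 k2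
        cM := fun x hx => ⟨hx.1, (hH' x).2 ⟨k2 hx.1, fun y hy => by
          rw [conj_eq_of_mem_centralizer hx.2 hy]; exact hr.refl y⟩⟩
        se := fun x hx a ha h2 hE hxa => ⟨hx, hH.mem_of_conj_le T.2 hD hFN (E := D ⊔ zpowers a)
          (isPGroup_sup_of_le_normalizer_left (T.2.to_le hD.le) (al_zp h2) (zpowers_le.2 (k2 ha.1)))
          (left_lt_sup.2 fun k => hE (k (mem_zpowers a))) (sup_le DH (zpowers_le.2 ha.2)) (k2 hx) (by
            rw [smul_eq_cj, cj_sup, cj_zpowers, cj_eq_of_mem_normalizer (k2 hx)]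
            exact sup_le DH (zpowers_le.2 hxa.2))⟩
        min := fun L l1 l2 => by
          by_cases k : L ≤ H
          · exact Or.inl (le_inf l2 k)
          · exact Or.inr (hm ⟨l1, l2.trans k2, k⟩ l2) }
    exact k3 fun x hx => (hH' x).2 ⟨k2 hx, loc _ _ _ me x hx⟩
  · rw [smul_eq_cj, cj_zpowers]
    exact zpowers_le.2 hg

theorem al_sc (hS : IsSylowIn 2 S ⊤) {A : Subgroup G} (top : 𝐍(S) ≤ 𝐍(A))
    (loc : ∀ E P M, ME S E P M → P ≤ 𝐍(A)) : ∀ g, ∀ a ∈ A, a ∈ S → g * a * g⁻¹ ∈ S → g * a * g⁻¹ ∈ A :=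
  fun _ _ ha h1 h2 => (al hS (r := fun y y' => y ∈ A ↔ y' ∈ A) ⟨fun _ => Iff.rfl, Iff.symm, Iff.trans⟩
    (fun _ hg y _ => mem_normalizer_iff.1 (top hg) y)
    (fun E P M h _ hg y _ => mem_normalizer_iff.1 (loc E P M h hg) y) h1 h2).1 ha

theorem al_ctl (hS : IsSylowIn 2 S ⊤) {H : Subgroup G} (top : 𝐍(S) ≤ H)
    (loc : ∀ E P M, ME S E P M → P ≤ H) {y g : G} (hy : y ∈ S) (hg : g * y * g⁻¹ ∈ H) :
    ∃ m ∈ H, m * y * m⁻¹ = g * y * g⁻¹ := by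
  have := Fact.mk Nat.prime_two
  obtain ⟨k, hk⟩ := MB1.two hS.isP hy
  obtain ⟨h, hh, e⟩ := (hS.mono (le_normalizer.trans top) le_top).exists_cj_le
    (al_zp (a := g * y * g⁻¹) ⟨k, by rw [conj_pow, hk, mul_one, mul_inv_cancel]⟩) (zpowers_le.2 hg)
  have e' : h * g * y * (h * g)⁻¹ ∈ S := by
    rw [show h * g * y * (h * g)⁻¹ = h * (g * y * g⁻¹) * h⁻¹ by group]
    exact e (cj_mem h (mem_zpowers _))
  obtain ⟨m, hm, e2⟩ := al hS (r := fun y y' => ∃ m ∈ H, m * y * m⁻¹ = y')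
    ⟨fun y => ⟨1, one_mem _, by group⟩, fun ⟨m, hm, e⟩ => ⟨m⁻¹, inv_mem hm, by rw [← e]; group⟩,
      fun ⟨m, hm, e⟩ ⟨m', hm', e'⟩ => ⟨m' * m, mul_mem hm' hm, by rw [← e', ← e]; group⟩⟩
    (fun g hg y _ => ⟨g, top hg, rfl⟩) (fun E P M h g hg y _ => ⟨g, loc E P M h hg, rfl⟩) hy e'
  refine ⟨h⁻¹ * m, mul_mem (inv_mem hh) hm, ?_⟩
  rw [show h⁻¹ * m * y * (h⁻¹ * m)⁻¹ = h⁻¹ * (m * y * m⁻¹) * h by group, e2]
  group

end H46.Sl
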