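import Cfsg.Agent.Lib.SLM.DD

/-! Unitriangular Sylow 2-subgroups, package BI1: see `blueprint/SLM/README.md`. -/

set_option autoImplicit false
set_option linter.unusedSectionVars false

namespace H46.Sl
open Subgroup H69 Cfsg Matrix
open scoped commutatorElement

namespace Fr
variable {G : Type*} [Group G] [Finite G] {F : Type*} [Field F] [Fintype F] [CharP F 2] {n : ℕ}
  (f : Fr G F n) {E P M : Subgroup G}

private theorem bi1_ne {y : G} (hy : y ∈ f.Q) (h : y ∉ f.Z) : f.w y ≠ 0 ∨ f.u y ≠ 0 := by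
  by_contra hc
  push Not at hc
  exact h (f.mem_Z.2 ⟨hy, hc⟩)

private theorem bi1_dot {x : Fin n → F} (hx : x ≠ 0) (d : F) : ∃ b : Fin n → F, x ⬝ᵥ b = d := by
  obtain ⟨i, hi⟩ := Function.ne_iff.1 hx
  exact ⟨Pi.single i (d / x i), by rw [dotProduct_single]; field_simp [show x i ≠ 0 from hi]⟩

private theorem bi1_cenU {y s : G} (hy : y ∈ f.Q) (h : y ∉ f.Z) (hs : s ∈ f.S)
    (hc : ∀ q ∈ f.Q, y * q = q * y → s * q = q * s) :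
    s ∈ f.Q ∧ ∃ l : F, f.w s = l • f.w y ∧ f.u s = l • f.u y := by
  have key : ∀ a b : Fin n → F, f.w y ⬝ᵥ b + a ⬝ᵥ f.u y = 0 →
      a ᵥ* f.L s = a ∧ f.L s *ᵥ b = b ∧ f.w s ⬝ᵥ b = a ⬝ᵥ f.u s := fun a b e => by
    obtain ⟨q, hq, rfl, rfl, -⟩ := f.exQ a b 0
    obtain ⟨-, e1, e2, e3⟩ := (f.comm_iff hs hq.1).1 (hc q hq ((f.commQ hy hq).2 e))
    rw [hq.2] at e1 e2
    rw [vecMul_one, add_comm] at e1
    rw [one_mulVec, add_comm] at e2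
    exact ⟨(add_right_cancel e1).symm, add_right_cancel e2, e3⟩
  have hL : f.L s = 1 := by
    rcases f.bi1_ne hy h with h0 | h0
    · ext i j
      obtain ⟨b, hb⟩ := bi1_dot h0 (Pi.single i 1 ⬝ᵥ f.u y)
      have := congrFun (key (Pi.single i 1) b (by rw [hb, CharTwo.add_self_eq_zero])).1 j
      simpa [one_apply, Pi.single_apply, eq_comm] using this
    · ext i j
      obtain ⟨a, ha⟩ := bi1_dot h0 (f.w y ⬝ᵥ Pi.single j 1)
      have := congrFun (key a (Pi.single j 1) (by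
        rw [dotProduct_comm a, ha, CharTwo.add_self_eq_zero])).2.1 i
      simpa [one_apply, Pi.single_apply] using this
  refine ⟨⟨hs, hL⟩, ?_⟩
  let Φ : (Fin n → F) → (Fin n → F) → ((Fin n → F) × (Fin n → F)) →ₗ[F] F := fun c d =>
    { toFun := fun v => c ⬝ᵥ v.2 + v.1 ⬝ᵥ d
      map_add' := fun v v' => by simp [dotProduct_add, add_dotProduct]; ring
      map_smul' := fun r v => by simp [dotProduct_smul, smul_dotProduct]; ring }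
  obtain ⟨k, hk⟩ := prop_of_ker (⊤ : Submodule F _) (Φ (f.w s) (f.u s)) (Φ (f.w y) (f.u y)) fun v _ e => by
    show f.w s ⬝ᵥ v.2 + v.1 ⬝ᵥ f.u s = 0
    rw [(key v.1 v.2 e).2.2, CharTwo.add_self_eq_zero]
  refine ⟨k, ?_, ?_⟩
  · ext i
    simpa [Φ] using hk (0, Pi.single i 1) trivial
  · ext i
    simpa [Φ] using hk (Pi.single i 1, 0) trivial

private theorem bi1_cj (h : ME f.S E P M) {y : G} (hy : y ∈ f.Q) (h1 : y ∉ f.Z)
    (he : ∀ s, s ∈ E ↔ s ∈ f.S ∧ s * y = y * s) {g z : G} (hg : g ∈ 𝐍(E)) (hz : z ∈ f.Z) :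
    g * z * g⁻¹ ∈ E ∧ g * z * g⁻¹ ∈ f.Q ∧
      ∃ l : F, f.w (g * z * g⁻¹) = l • f.w y ∧ f.u (g * z * g⁻¹) = l • f.u y := by
  have p := conj_mem_of_mem_normalizer (norm_Yp E hg) (f.ZE h hz)
  exact ⟨p.1, f.bi1_cenU hy h1 (h.le p.1) fun q hq e => (p.2.1 q ((he q).2 ⟨hq.1, e.symm⟩)).symm⟩

theorem ex_B1 (h : ME f.S E P M) {x z : G} (hx : x ∈ P) (hM : x ∉ M) (hz : z ∈ f.Z) (hP : z ∉ 𝐂(P))
    (hQ : x * z * x⁻¹ ∈ f.Q) : f.B1 E x (x * z * x⁻¹) := by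
  have ZS : f.Z ≤ f.S ⊓ 𝐂(f.S) := le_inf ((f.Vs_le _).trans f.Q_le) f.Z_cen
  have Z2 : ∀ t ∈ f.Z, t * t = 1 := fun t ht => f.V_sq (f.Vs_anti (Nat.zero_le _) ht)
  have nZ : ∀ t ∈ f.Z, t ∉ 𝐂(P) → x * t * x⁻¹ ∉ f.Z := fun t ht hc hm =>
    h.ne fun s hs => (h.reg (ZS ht) (Z2 t ht) hc hx hM).2
      ⟨hs, mem_centralizer_singleton_iff.2 (f.Z_cen hm s hs)⟩
  obtain ⟨r1, r2⟩ := h.reg (ZS hz) (Z2 z hz) hP hx hM
  set y := x * z * x⁻¹ with hy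
  have y1 : y ∉ f.Z := nZ z hz hP
  have he : ∀ s, s ∈ E ↔ s ∈ f.S ∧ s * y = y * s := fun s =>
    ⟨fun hs => ⟨h.le hs, r1.2.1 s hs⟩, fun hs => r2 ⟨hs.1, mem_centralizer_singleton_iff.2 hs.2⟩⟩
  have hxE := h.nE hx
  have QN : f.Q ≤ 𝐍(E) := fun q hq => nrm_of h.le r1.2.1 r2 hq.1 (by
    have : q * y * q⁻¹ = ⁅q, y⁆ * y := by simp [commutatorElement_def]
    rw [this]
    exact mul_mem (centralizer_le (SetLike.coe_subset_coe.2 h.le) (f.Z_cen (f.cmQQ hq hQ).1)) r1.2.1)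
  have z0 : f.Z ⊓ 𝐂(P) = ⊥ := h.z0 ZS (fun hc => hP (hc hz)) hz hx hM fun t ht => by
    have : ∃ a ∈ f.Q, f.B y a = f.c t := by
      rcases f.bi1_ne hQ y1 with h0 | h0
      · obtain ⟨b, hb⟩ := bi1_dot h0 (f.c t)
        obtain ⟨a, ha, e1, e2, -⟩ := f.exQ 0 b 0
        exact ⟨a, ha, by simp [B, e1, e2, hb]⟩
      · obtain ⟨b, hb⟩ := bi1_dot h0 (f.c t)
        obtain ⟨a, ha, e1, e2, -⟩ := f.exQ b 0 0
        exact ⟨a, ha, by simp [B, e1, e2, dotProduct_comm b, hb]⟩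
    obtain ⟨a, ha, e⟩ := this
    have e' : ⁅y, a⁆ = t := f.Z_ext (f.cmQQ hQ ha).1 ht (by rw [(f.cmQQ hQ ha).2, e])
    exact ⟨a, ⟨ha.1, QN ha⟩, e', fun h1 hE => h1 (by
      rw [← e', commutatorElement_eq_one_iff_mul_comm, ((he a).1 hE).2])⟩
  have zz' : ∀ t ∈ f.Z, x * t * x⁻¹ ∈ f.Z → t = 1 := fun t ht hm => by
    by_contra h1
    exact nZ t ht (fun hc => h1 (mem_bot.1 (z0 ▸ (⟨ht, hc⟩ : t ∈ f.Z ⊓ 𝐂(P))))) hm
  have zz : ∀ p ∈ f.Z, p ∈ f.Z ^ᶜ x → p = 1 := fun p hp hp' => by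
    obtain ⟨t, ht, rfl⟩ := mem_cj'.1 hp'
    rw [zz' t ht hp]; simp
  have cj := fun {g t : G} (hg : g ∈ 𝐍(E)) (ht : t ∈ f.Z) => f.bi1_cj h hQ y1 he hg ht
  refine ⟨hxE, cj_mem x hz, hQ, y1, he, eq_bot_iff.2 fun p hp => mem_bot.2 (zz p hp.1 hp.2), fun p hp => ?_,
    fun t ht => ⟨⟨(f.ZE h ht).1, f.Vs_le _ ht⟩, mem_cj.2 ?_⟩, ?_, fun p hp => ?_, fun p hp hc => ?_⟩
  · obtain ⟨t, ht, rfl⟩ := mem_cj'.1 hp
    exact (cj hxE ht).2
  · have := cj (inv_mem hxE) ht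
    rw [inv_inv] at this
    exact ⟨this.1, this.2.1⟩
  · rw [← f.card_cen hQ y1]
    congr 2
    ext s
    exact ⟨fun hs => ⟨hs.2, mem_centralizer_singleton_iff.2 ((he s).1 hs.1).2⟩,
      fun hs => ⟨(he s).2 ⟨hs.1.1, mem_centralizer_singleton_iff.1 hs.2⟩, hs.1⟩⟩
  · refine zz _ (f.sqQ hp.1.2).1 ?_
    obtain ⟨p', hp', rfl⟩ := mem_cj'.1 hp.2
    have := cj_mem x (f.sqQ hp'.2).1
    convert this using 1
    group
  · obtain ⟨hp1, hp2⟩ := hp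
    obtain ⟨p', hp', rfl⟩ := mem_cj'.1 hp2
    obtain ⟨-, l, l1, l2⟩ := f.bi1_cenU hQ y1 hp'.2.1 (s := p') fun q hq e => by
      have hqE : q ∈ E ⊓ f.Q := ⟨(he q).2 ⟨hq.1, e.symm⟩, hq⟩
      have e1 : ⁅x * q * x⁻¹, x * p' * x⁻¹⁆ = x * ⁅q, p'⁆ * x⁻¹ := by
        simp only [commutatorElement_def]; group
      have := zz' _ (f.cmQQ hq hp'.2).1 (e1 ▸ hc _ (cj_mem x hqE))
      exact (commutatorElement_eq_one_iff_mul_comm.1 this).symm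
    choose zd hzd using fun d : F => f.exQ 0 0 d
    have hZ : ∀ d, zd d ∈ f.Z := fun d => f.mem_Z.2 ⟨(hzd d).1, (hzd d).2.1, (hzd d).2.2.1⟩
    choose φ hφ using fun d : F => (cj (inv_mem hxE) (hZ d)).2.2
    have hq : ∀ d, x⁻¹ * zd d * x⁻¹⁻¹ ∈ f.Q := fun d => (cj (inv_mem hxE) (hZ d)).2.1
    have dif : ∀ {a b : G}, a ∈ f.Q → b ∈ f.Q → f.w a = f.w b → f.u a = f.u b → a * b⁻¹ ∈ f.Z :=
      fun {a b} ha hb e1 e2 => by
        obtain ⟨m1, m2, -⟩ := f.mulQ ha (inv_mem hb)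
        obtain ⟨i1, i2, -⟩ := f.invQ hb
        refine f.mem_Z.2 ⟨mul_mem ha (inv_mem hb), ?_, ?_⟩
        · rw [m1, i1, e1]; ext i; simp [CharTwo.add_self_eq_zero]
        · rw [m2, i2, e2]; ext i; simp [CharTwo.add_self_eq_zero]
    have inj : Function.Injective φ := fun d d' e => by
      have := dif (hq d) (hq d') (by rw [(hφ d).1, (hφ d').1, e]) (by rw [(hφ d).2, (hφ d').2, e])
      have e2 := zz' _ this (by
        convert mul_mem (hZ d) (inv_mem (hZ d')) using 1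
        group)
      have e3 : zd d = zd d' := by
        have := mul_inv_eq_one.1 e2
        simpa using this
      rw [← (hzd d).2.2.2, e3, (hzd d').2.2.2]
    obtain ⟨d, rfl⟩ := Finite.injective_iff_surjective.1 inj l
    have ht := dif hp'.2 (hq d) (by rw [l1, (hφ d).1]) (by rw [l2, (hφ d).2])
    obtain ⟨-, t1, k, k1, k2⟩ := cj hxE ht
    have e : x * p' * x⁻¹ = x * (p' * (x⁻¹ * zd d * x⁻¹⁻¹)⁻¹) * x⁻¹ * zd d := by group
    obtain ⟨m1, m2, -⟩ := f.mulQ t1 (hzd d).1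
    exact ⟨k, by rw [e, m1, k1, (hzd d).2.1, add_zero], by rw [e, m2, k2, (hzd d).2.2.1, add_zero]⟩

theorem B1.all {f : Fr G F n} (h : ME f.S E P M) {x y : G} (b : f.B1 E x y) {g z : G} (hg : g ∈ P) (hz : z ∈ f.Z) :
    g * z * g⁻¹ ∈ f.Q :=
  (f.bi1_cj h b.yQ b.y1 b.eq (h.nE hg) hz).2.1

end Fr

end H46.Sl
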