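import Cfsg.Agent.Lib.SLM.Bas2
import Cfsg.Agent.Lib.SLM.LA
import Cfsg.Agent.Lib.SLM.MB2

/-! Unitriangular Sylow 2-subgroups, package LAG: see `blueprint/SLM/README.md`. -/

set_option autoImplicit false
set_option linter.unusedSectionVars false

namespace H46.Sl
open Subgroup H69 Cfsg Matrix
open scoped commutatorElement

namespace Fr
variable {G : Type*} [Group G] [Finite G] {F : Type*} [Field F] [Fintype F] [CharP F 2] {n : ℕ}
  (f : Fr G F n) {E P M : Subgroup G}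

theorem LAG_B {T : Subgroup G} (hT : T ≤ f.Q) (sq : ∀ p ∈ T, p * p = 1) {p q : G} (hp : p ∈ T) (hq : q ∈ T) :
    f.w p ⬝ᵥ f.u q = f.w q ⬝ᵥ f.u p := by
  refine CharTwo.add_eq_zero.1 ((f.commQ (hT hp) (hT hq)).1 ?_)
  rw [← inv_eq_of_mul_eq_one_right (sq _ (mul_mem hp hq)), _root_.mul_inv_rev,
    inv_eq_of_mul_eq_one_right (sq _ hp), inv_eq_of_mul_eq_one_right (sq _ hq)]

theorem LAG_cm {T : Subgroup G} {a p : G} (ha : a ∈ 𝐍(T)) (hp : p ∈ T) : ⁅a, p⁆ ∈ T :=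
  mul_mem (conj_mem_of_mem_normalizer ha hp) (inv_mem hp)

theorem graph {T : Subgroup G} (hT : T ≤ f.Q) (hZ : f.Z ≤ T) (sq : ∀ p ∈ T, p * p = 1) (hW : T ⊓ f.W ≤ f.Z)
    (hc : Fintype.card F ^ (n + 1) ≤ Nat.card T) (hn : ∀ s ∈ f.S, f.w s = 0 → f.u s = 0 → s ∈ 𝐍(T)) :
    ∃ μ, T = f.I μ := by
  classical
  have _ := hZ
  have two : ∀ x y : Fin n → F, x + y = 0 ↔ x = y := fun x y =>
    ⟨fun h => funext fun i => CharTwo.add_eq_zero.1 (congrFun h i),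
      fun h => funext fun i => CharTwo.add_eq_zero.2 (congrFun h i)⟩
  have wu : ∀ p ∈ T, ∀ q ∈ T, f.w p = f.w q → f.u p = f.u q := fun p hp q hq e => by
    obtain ⟨m1, m2, -⟩ := f.mulQ (hT hp) (hT hq)
    have := (f.mem_Z.1 (hW ⟨mul_mem hp hq, f.mem_W.2 ⟨hT (mul_mem hp hq), m1.trans ((two _ _).2 e)⟩⟩)).2.2
    exact (two _ _).1 (m2.symm.trans this)
  have bij : Function.Bijective fun p : T => (f.w p, f.c p) := by
    refine Function.Injective.bijective_of_nat_card_le (fun p q e => Subtype.ext ?_) ?_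
    · obtain ⟨e1, e2⟩ := Prod.mk.inj e
      exact f.inj _ (hT p.2).1 _ (hT q.2).1 ((hT p.2).2.trans (hT q.2).2.symm) e1 (wu _ p.2 _ q.2 e1) e2
    · rwa [Nat.card_prod, Nat.card_fun, Nat.card_eq_fintype_card, Nat.card_eq_fintype_card,
        Fintype.card_fin, ← pow_succ]
  have ex : ∀ t : Fin n, ∃ p ∈ T, f.w p = Pi.single t 1 := fun t =>
    let ⟨p, hp⟩ := bij.2 (Pi.single t 1, 0); ⟨p, p.2, (Prod.mk.inj hp).1⟩
  choose e eT ew using ex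
  have k1 : ∀ p ∈ T, ∀ t, f.u p t = f.w p ⬝ᵥ f.u (e t) := fun p hp t => by
    rw [f.LAG_B hT sq hp (eT t), ew, single_one_dotProduct]
  have k2 : ∀ s t, s < t → f.u (e t) = Pi.single s (f.u (e s) t) := fun s t h => by
    obtain ⟨a, ha⟩ := f.exEl h 1
    obtain ⟨c1, c2, -⟩ := ha.cm h (hT (eT s))
    rw [← wu _ (LAG_cm (hn a ha.1 ha.2.2.1 ha.2.2.2) (eT s)) _ (eT t) (by rw [c1, ew, ew]; simp), c2, one_mul]
  have h01 : f.i0 < f.i1 := Nat.zero_lt_one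
  have k3 : ∀ p ∈ T, ∀ t : Fin n, 2 ≤ t.val → f.u p t = 0 := fun p hp t h => by
    have a0 := k2 f.i0 t (Nat.lt_of_lt_of_le Nat.two_pos h)
    have a1 := congrFun (k2 f.i1 t h) f.i0
    rw [Pi.single_eq_of_ne h01.ne, a0, Pi.single_eq_same] at a1
    rw [k1 p hp, a0, a1, Pi.single_zero, dotProduct_zero]
  have k4 : f.u (e f.i0) = Pi.single f.i1 (f.u (e f.i0) f.i1) := funext fun r => by
    by_cases h1 : r = f.i1
    · rw [h1, Pi.single_eq_same]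
    rw [Pi.single_eq_of_ne h1]
    by_cases h0 : r = f.i0
    · rw [h0, k1 _ (eT _), ← (f.sqQ (hT (eT _))).2, sq _ (eT _), f.c_one]
    · refine k3 _ (eT _) r ?_
      have a0 : r.val ≠ 0 := fun h => h0 (Fin.ext h)
      have a1 : r.val ≠ 1 := fun h => h1 (Fin.ext h)
      omega
  refine ⟨f.u (e f.i0) f.i1, eq_of_le_of_card_ge (fun p hp => ⟨hT hp, ?_, ?_, k3 p hp⟩) (f.card_I _ ▸ hc)⟩
  · rw [k1 p hp, k4, dotProduct_single, mul_comm, Pi.single_eq_same]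
  · rw [k1 p hp, k2 _ _ h01, dotProduct_single, mul_comm]

theorem lag {T : Subgroup G} (hT : T ≤ f.Q) (hn : f.S ≤ 𝐍(T)) (hc : f.S ⊓ 𝐂(T) ≤ T) (sq : ∀ p ∈ T, p * p = 1) :
    T ⊓ f.W ≤ f.Z ∨ T ⊓ f.V ≤ f.Z := by
  classical
  by_contra h
  obtain ⟨h1, h2⟩ := not_or.1 h
  obtain ⟨y, ⟨yT, yW⟩, yZ⟩ := SetLike.not_le_iff_exists.1 h1
  obtain ⟨v, ⟨vT, vV⟩, vZ⟩ := SetLike.not_le_iff_exists.1 h2
  have y0 := (f.mem_W.1 yW).2
  have v0 := (f.mem_V.1 vV).2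
  obtain ⟨t, ht⟩ := Function.ne_iff.1 fun e : f.u y = 0 => yZ (f.mem_Z.2 ⟨hT yT, y0, e⟩)
  obtain ⟨s, hs⟩ := Function.ne_iff.1 fun e : f.w v = 0 => vZ (f.mem_Z.2 ⟨hT vT, e, v0⟩)
  have k1 : ∃ v ∈ T, ∃ ν ≠ 0, f.w v = Pi.single f.iL ν ∧ f.u v = 0 := by
    by_cases h : ∃ s < f.iL, f.w v s ≠ 0
    · obtain ⟨s, h, hs⟩ := h
      obtain ⟨a, ha⟩ := f.exEl h 1
      obtain ⟨c1, c2, -⟩ := ha.cm h (hT vT)
      exact ⟨_, LAG_cm (hn ha.1) vT, _, hs, by rw [c1, one_mul], by rw [c2, v0]; simp⟩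
    · push Not at h
      have l : ∀ r, r ≠ f.iL → f.w v r = 0 := fun r hr => h r (lt_of_le_of_ne (Nat.le_sub_one_of_lt r.2) hr)
      refine ⟨v, vT, f.w v f.iL, fun e => hs ?_, funext fun r => ?_, v0⟩
      · by_cases hr : s = f.iL
        exacts [hr ▸ e, l s hr]
      · by_cases hr : r = f.iL
        · rw [hr, Pi.single_eq_same]
        · rw [Pi.single_eq_of_ne hr, l r hr]
  have k2 : ∃ y ∈ T, ∃ ν ≠ 0, f.u y = Pi.single f.i0 ν ∧ f.w y = 0 := by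
    by_cases h : ∃ t, f.i0 < t ∧ f.u y t ≠ 0
    · obtain ⟨t, h, ht⟩ := h
      obtain ⟨a, ha⟩ := f.exEl h 1
      obtain ⟨c1, c2, -⟩ := ha.cm h (hT yT)
      exact ⟨_, LAG_cm (hn ha.1) yT, _, ht, by rw [c2, one_mul], by rw [c1, y0]; simp⟩
    · push Not at h
      have l : ∀ r, r ≠ f.i0 → f.u y r = 0 := fun r hr => h r (lt_of_le_of_ne (Nat.zero_le r.val) hr.symm)
      refine ⟨y, yT, f.u y f.i0, fun e => ht ?_, funext fun r => ?_, y0⟩
      · by_cases hr : t = f.i0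
        exacts [hr ▸ e, l t hr]
      · by_cases hr : r = f.i0
        · rw [hr, Pi.single_eq_same]
        · rw [Pi.single_eq_of_ne hr, l r hr]
  obtain ⟨v, vT, ν, hν, v1, v0⟩ := k1
  obtain ⟨y, yT, κ, hκ, y1, y0⟩ := k2
  have lt : f.i0 < f.iL := by
    have := f.hn
    show 0 < n - 1
    omega
  obtain ⟨a, ha⟩ := f.exEl lt 1
  have : a ∈ T := hc ⟨ha.1, fun p hp => by
    have a1 := f.LAG_B hT sq vT hp
    have a2 := f.LAG_B hT sq hp yT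
    rw [v1, v0, single_dotProduct, dotProduct_zero, mul_eq_zero] at a1
    rw [y1, y0, dotProduct_single, zero_dotProduct, mul_eq_zero] at a2
    obtain ⟨c1, c2, c3⟩ := ha.cm lt (hT hp)
    rw [a1.resolve_left hν] at c2 c3
    rw [a2.resolve_right hκ] at c1
    have q := (f.cmQ ha.1 (hT hp)).1
    exact (commutatorElement_eq_one_iff_mul_comm.1 (f.inj _ q.1 _ (one_mem _) (q.2.trans f.L_one.symm)
      (by rw [c1, f.w_one]; simp) (by rw [c2, f.u_one]; simp) (by rw [c3, f.c_one, mul_zero]))).symm⟩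
  have e := congrFun (congrFun ((hT this).2.symm.trans ha.2.1) f.i0) f.iL
  simp at e

end Fr

end H46.Sl
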