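import Cfsg.Agent.Lib.SLM.PHI
import Cfsg.Agent.Lib.SLM.LAG

/-! Unitriangular Sylow 2-subgroups, package BI2: see `blueprint/SLM/README.md`. -/

set_option autoImplicit false
set_option linter.unusedSectionVars false

namespace H46.Sl
open Subgroup H69 Cfsg Matrix
open scoped commutatorElement

theorem BI2_card {G : Type*} [Group G] [Finite G] {α : Type*} [Finite α] (H K : Subgroup G) (φ : H → α)
    (h : ∀ a b : H, φ a = φ b → (a : G)⁻¹ * b ∈ K) : Nat.card H ≤ Nat.card α * Nat.card K := by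
  rw [← Nat.card_prod]
  refine Nat.card_le_card_of_injective (fun a => (φ a, ⟨_, h _ a (Function.invFun_eq ⟨a, rfl⟩)⟩)) fun a b e => ?_
  have e1 : φ a = φ b := congrArg Prod.fst e
  have e2 : ((Function.invFun φ (φ a) : H) : G)⁻¹ * a = ((Function.invFun φ (φ b) : H) : G)⁻¹ * b :=
    congrArg (fun t => (t.2 : G)) e
  rw [e1] at e2
  exact Subtype.ext (mul_left_cancel e2)

namespace Fr
variable {G : Type*} [Group G] [Finite G] {F : Type*} [Field F] [Fintype F] [CharP F 2] {n : ℕ}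
  (f : Fr G F n) {E P M : Subgroup G}

section
variable {f} {x y : G} (b : f.B1 E x y)
include b

theorem B1.BI2_ES : E ≤ f.S := fun s hs => ((b.eq s).1 hs).1

theorem B1.BI2_UE : (E ⊓ f.Q) ^ᶜ x ≤ E := cj_le_of_mem_normalizer inf_le_left b.nE

theorem B1.BI2_nU : E ≤ 𝐍(E ⊓ f.Q) := le_normalizer_inf le_normalizer (b.BI2_ES.trans f.nQ)

theorem B1.BI2_nU' : E ≤ 𝐍((E ⊓ f.Q) ^ᶜ x) := by
  rw [← cj_normalizer]
  exact (cj_eq_of_mem_normalizer b.nE).ge.trans (cj_mono x b.BI2_nU)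

theorem B1.BI2_cm {e q : G} (he : e ∈ (E ⊓ f.Q) ^ᶜ x) (hq : q ∈ E ⊓ f.Q) :
    ⁅e, q⁆ ∈ (E ⊓ f.Q) ⊓ (E ⊓ f.Q) ^ᶜ x := by
  refine mem_inf.2 ⟨mul_mem (conj_mem_of_mem_normalizer (b.BI2_nU (b.BI2_UE he)) hq) (inv_mem hq), ?_⟩
  have := mul_mem he (conj_mem_of_mem_normalizer (b.BI2_nU' hq.1) (inv_mem he))
  simpa only [commutatorElement_def, mul_assoc] using this

theorem B1.BI2_cm' {e p : G} (he : e ∈ (E ⊓ f.Q) ^ᶜ x) (hp : p ∈ (E ⊓ f.Q) ^ᶜ x) : ⁅e, p⁆ ∈ f.Z ^ᶜ x := by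
  rw [mem_cj] at he hp ⊢
  have := (f.cmQQ he.2 hp.2).1
  convert this using 1
  simp only [commutatorElement_def]
  group

theorem B1.BI2_Z {p : G} (hp : p ∈ f.Z ^ᶜ x) (h : (f.w y ≠ 0 ∧ f.w p = 0) ∨ (f.u y ≠ 0 ∧ f.u p = 0)) :
    p ∈ f.Z := by
  obtain ⟨h1, l, h2, h3⟩ := b.line p hp
  have hl : l = 0 := by
    rcases h with h | h
    · exact (smul_eq_zero.1 (h2 ▸ h.2)).resolve_right h.1
    · exact (smul_eq_zero.1 (h3 ▸ h.2)).resolve_right h.1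
  exact f.mem_Z.2 ⟨h1, by simp [h2, hl], by simp [h3, hl]⟩

theorem B1.BI2_V (hu : f.u y ≠ 0) {p : G} (hp : p ∈ (E ⊓ f.Q) ⊓ (E ⊓ f.Q) ^ᶜ x) (hV : p ∈ f.V) : p ∈ f.Z := by
  obtain ⟨l, h2, h3⟩ := b.fix p hp fun e he => b.BI2_Z (b.BI2_cm' he hp.2)
    (.inr ⟨hu, (f.cmVs (b.BI2_ES (b.BI2_UE he)) hV).2.1⟩)
  have hl : l = 0 := (smul_eq_zero.1 (h3 ▸ hV.2.1)).resolve_right hu
  exact f.mem_Z.2 ⟨hp.1.2, by simp [h2, hl], hV.2.1⟩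

theorem B1.BI2_W (hw : f.w y ≠ 0) {p : G} (hp : p ∈ (E ⊓ f.Q) ⊓ (E ⊓ f.Q) ^ᶜ x) (hW : p ∈ f.W) : p ∈ f.Z := by
  obtain ⟨l, h2, h3⟩ := b.fix p hp fun e he => b.BI2_Z (b.BI2_cm' he hp.2)
    (.inl ⟨hw, (f.cmWs (b.BI2_ES (b.BI2_UE he)) hW).2.1⟩)
  have hl : l = 0 := (smul_eq_zero.1 (h2 ▸ hW.2.1)).resolve_right hw
  exact f.mem_Z.2 ⟨hp.1.2, hW.2.1, by simp [h3, hl]⟩

theorem B1.BI2_rank (hw : f.w y ≠ 0) (hu : f.u y ≠ 0) {e : G} (he : e ∈ (E ⊓ f.Q) ^ᶜ x) :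
    ∃ k : F, f.L e - 1 = k • vecMulVec (f.u y) (f.w y) := by
  have eS := b.BI2_ES (b.BI2_UE he)
  refine rank_one hw hu (fun a ha => ?_) fun a ha => ?_
  · obtain ⟨q, hq, e1, e2, -⟩ := f.exQ a 0 0
    have qE : q ∈ E := (b.eq q).2 ⟨hq.1, (f.commQ hq b.yQ).2 (by simp [B, e1, e2, ha])⟩
    have h1 := b.BI2_V hu (b.BI2_cm (inv_mem he) ⟨qE, hq⟩)
      (f.Vs_anti (Nat.zero_le 1) (f.cmVs (inv_mem eS) (f.mem_V.2 ⟨hq, e2⟩)))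
    have h2 := (f.mem_Z.1 h1).2.1
    rw [(f.cmQ (inv_mem eS) hq).2.1, inv_inv, e1] at h2
    rw [vecMul_sub, vecMul_one]
    ext i
    have := congrFun h2 i
    simp only [Pi.add_apply, Pi.sub_apply, Pi.zero_apply] at this ⊢
    rwa [CharTwo.sub_eq_add]
  · obtain ⟨q, hq, e1, e2, -⟩ := f.exQ 0 a 0
    have qE : q ∈ E := (b.eq q).2 ⟨hq.1, (f.commQ hq b.yQ).2 (by simp [B, e1, e2, ha])⟩
    have h1 := b.BI2_W hw (b.BI2_cm he ⟨qE, hq⟩)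
      (f.Ws_anti (Nat.zero_le 1) (f.cmWs eS (f.mem_W.2 ⟨hq, e1⟩)))
    have h2 := (f.mem_Z.1 h1).2.2
    rw [(f.cmQ eS hq).2.2.1, e2] at h2
    rw [sub_mulVec, one_mulVec]
    ext i
    have := congrFun h2 i
    simp only [Pi.add_apply, Pi.sub_apply, Pi.zero_apply] at this ⊢
    rwa [CharTwo.sub_eq_add]

theorem B1.BI2_I {e : G} (he : e ∈ (E ⊓ f.Q) ^ᶜ x) (h : f.L e = 1) : e ∈ (E ⊓ f.Q) ⊓ (E ⊓ f.Q) ^ᶜ x :=
  ⟨⟨b.BI2_UE he, b.BI2_ES (b.BI2_UE he), h⟩, he⟩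

theorem B1.BI2_ge (hw : f.w y ≠ 0) (hu : f.u y ≠ 0) : Fintype.card F ^ (2 * n) ≤
    Fintype.card F * Nat.card ((E ⊓ f.Q) ⊓ (E ⊓ f.Q) ^ᶜ x : Subgroup G) := by
  choose κ hκ using fun e : ((E ⊓ f.Q) ^ᶜ x : Subgroup G) => b.BI2_rank hw hu e.2
  rw [← b.cU, ← card_cj _ x, ← Nat.card_eq_fintype_card]
  refine BI2_card _ _ κ fun s t e => b.BI2_I (mul_mem (inv_mem s.2) t.2) ?_
  have h1 : f.L t = f.L s := sub_left_injective (by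
    show f.L t - 1 = f.L s - 1
    rw [hκ, hκ, e])
  have sS := b.BI2_ES (b.BI2_UE s.2)
  rw [f.L_mul _ (inv_mem sS) _ (b.BI2_ES (b.BI2_UE t.2)), h1, f.L_inv_mul sS]

end

theorem BI2_v (μ a : F) : ∃ v ∈ f.I μ, f.w v f.i0 = a := by
  obtain ⟨v, hv, e1, e2, -⟩ := f.exQ (Pi.single f.i0 a) (Pi.single f.i1 (μ * a)) 0
  have ne : f.i0 ≠ f.i1 := fun e => by simpa [i0, i1] using congrArg Fin.val e
  refine ⟨v, ⟨hv, by simp [e1, e2, ne, ne.symm], by simp [e1, e2], fun i hi => ?_⟩, by simp [e1]⟩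
  rw [e2, Pi.single_eq_of_ne]
  rintro rfl
  simp [i1] at hi

theorem B1.BI2_two {f : Fr G F 2} {x y : G} (b : f.B1 E x y) (hw : f.w y ≠ 0) (hu : f.u y ≠ 0) : False := by
  have hW : (E ⊓ f.Q) ⊓ (E ⊓ f.Q) ^ᶜ x ⊓ f.W ≤ f.Z := fun p hp => b.BI2_W hw hp.1 hp.2
  have hQ : (E ⊓ f.Q) ⊓ (E ⊓ f.Q) ^ᶜ x ≤ f.Q := fun p hp => hp.1.2
  have h1 := f.card_le_of_W hQ hW
  have h2 := b.BI2_ge hw hu
  have hq := f.hq
  have z0 : f.i0 = 0 := rfl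
  have z1 : f.i1 = 1 := rfl
  obtain ⟨e, he, e', he', n1, n2, n3⟩ : ∃ e ∈ (E ⊓ f.Q) ^ᶜ x, ∃ e' ∈ (E ⊓ f.Q) ^ᶜ x,
      e ∉ (E ⊓ f.Q) ⊓ (E ⊓ f.Q) ^ᶜ x ∧ e' ∉ (E ⊓ f.Q) ⊓ (E ⊓ f.Q) ^ᶜ x ∧
      e⁻¹ * e' ∉ (E ⊓ f.Q) ⊓ (E ⊓ f.Q) ^ᶜ x := by
    by_contra hn
    push Not at hn
    have h3 := BI2_card ((E ⊓ f.Q) ^ᶜ x) ((E ⊓ f.Q) ⊓ (E ⊓ f.Q) ^ᶜ x)
      (fun e => (e : G) ∈ (E ⊓ f.Q) ⊓ (E ⊓ f.Q) ^ᶜ x) fun s t e => by
        by_cases hs : (s : G) ∈ (E ⊓ f.Q) ⊓ (E ⊓ f.Q) ^ᶜ x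
        · exact mul_mem (inv_mem hs) (e ▸ hs)
        · exact hn _ s.2 _ t.2 hs (e ▸ hs)
    rw [card_cj, b.cU, Nat.card_eq_fintype_card (α := Prop), Fintype.card_prop] at h3
    have h4 : Fintype.card F ^ (2 * 2) = Fintype.card F * Fintype.card F ^ (2 + 1) := by ring
    have h5 : 4 * Fintype.card F ^ (2 + 1) ≤ Fintype.card F * Fintype.card F ^ (2 + 1) :=
      Nat.mul_le_mul_right _ hq
    have h6 : 0 < Fintype.card F ^ (2 + 1) := by positivity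
    omega
  obtain ⟨k, hk⟩ := b.BI2_rank hw hu he
  have k0 : k ≠ 0 := fun e0 => n1 (b.BI2_I he (by rwa [e0, zero_smul, sub_eq_zero] at hk))
  have tri : ∀ i j : Fin 2, j ≤ i → f.u y i * f.w y j = 0 := fun i j h => by
    have := congrFun (congrFun hk i) j
    rw [Matrix.sub_apply, f.ut _ (b.BI2_ES (b.BI2_UE he)) i j h, sub_self, Matrix.smul_apply,
      vecMulVec_apply, smul_eq_mul] at this
    exact (mul_eq_zero.1 this.symm).resolve_left k0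
  have w0 : f.w y 0 = 0 := by
    by_contra h
    exact hu (funext (Fin.forall_fin_two.2 ⟨(mul_eq_zero.1 (tri 0 0 le_rfl)).resolve_right h,
      (mul_eq_zero.1 (tri 1 0 (by decide))).resolve_right h⟩))
  have w1 : f.w y 1 ≠ 0 := fun h => hw (funext (Fin.forall_fin_two.2 ⟨w0, h⟩))
  have u1 : f.u y 1 = 0 := (mul_eq_zero.1 (tri 1 1 le_rfl)).resolve_right w1
  have u0 : f.u y 0 ≠ 0 := fun h => hu (funext (Fin.forall_fin_two.2 ⟨h, u1⟩))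
  have cm : ∀ s ∈ f.S, ∀ p ∈ f.Q, f.w p 0 = 0 → f.u p 1 = 0 →
      (s * p = p * s ↔ f.w s 0 * f.u p 0 = f.w p 1 * f.u s 1) := fun s hs p hp a1 a2 => by
    have l1 := f.ut s hs 0 0 le_rfl
    have l2 := f.ut s hs 1 0 (by decide)
    have l3 := f.ut s hs 1 1 le_rfl
    simp only [one_apply_eq, ne_eq, one_ne_zero, not_false_eq_true, one_apply_ne] at l1 l2 l3
    rw [f.comm_iff hs hp.1, hp.2]
    simp [funext_iff, Fin.forall_fin_two, vecMul, mulVec, dotProduct, Fin.sum_univ_two, a1, a2, l1, l2, l3, add_comm]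
    exact fun _ => ⟨rfl, rfl⟩
  obtain ⟨μ, hμ⟩ := f.graph hQ b.ZI b.sq hW (by
      refine Nat.le_of_mul_le_mul_left (c := Fintype.card F) (le_trans (le_of_eq (by ring)) h2) (by omega))
    fun s hs a1 a2 => le_normalizer_inf b.BI2_nU b.BI2_nU'
      ((b.eq s).2 ⟨hs, (cm s hs y b.yQ w0 u1).2 (by simp [a1, a2])⟩)
  have yI : y ∈ f.I μ := by
    have : y ∈ (E ⊓ f.Q) ^ᶜ x := cj_mono x (b.ZI.trans inf_le_left) b.yZ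
    exact hμ ▸ ⟨⟨b.BI2_UE this, b.yQ⟩, this⟩
  have yμ : f.u y 0 = μ * f.w y 1 := yI.2.1
  have μ0 : μ ≠ 0 := fun h => u0 (by rw [yμ, h, zero_mul])
  have cen : ∀ s ∈ E, ∀ p ∈ f.I μ, f.w p f.i0 = 0 → s * p = p * s := fun s hs p hp a1 => by
    have a2 : f.u p 1 = μ * f.w p 0 := hp.2.2.1
    have a3 : f.u p 0 = μ * f.w p 1 := hp.2.1
    rw [z0] at a1
    have a4 := (cm s (b.BI2_ES hs) y b.yQ w0 u1).1 ((b.eq s).1 hs).2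
    rw [cm s (b.BI2_ES hs) p hp.1 a1 (by rw [a2, a1, mul_zero]), a3]
    refine mul_left_cancel₀ w1 ?_
    rw [yμ] at a4
    linear_combination f.w p 1 * a4
  have one : ∀ p ∈ f.Z ^ᶜ x, f.w p = 0 → p = 1 := fun p hp h =>
    mem_bot.1 (b.zz ▸ (⟨b.BI2_Z hp (.inl ⟨hw, h⟩), hp⟩ : p ∈ f.Z ⊓ f.Z ^ᶜ x))
  have cz : ∀ s ∈ (E ⊓ f.Q) ^ᶜ x, ∀ v ∈ f.I μ, ⁅s, v⁆ ∈ f.Z ^ᶜ x := fun s hs v hv =>
    b.BI2_cm' hs (hμ.ge hv).2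
  have nf : ∀ s ∈ (E ⊓ f.Q) ^ᶜ x, s ∉ (E ⊓ f.Q) ⊓ (E ⊓ f.Q) ^ᶜ x → ∃ d : Fin 2 → F, d 0 = 0 ∧ d 1 ≠ 0 ∧
      ∀ v ∈ f.I μ, f.w ⁅s, v⁆ = f.w v 0 • d := fun s hs hn => by
    obtain ⟨d, γ, d0, d1, d2⟩ := f.phi_cm (b.BI2_ES (b.BI2_UE hs)) (cen s (b.BI2_UE hs))
    refine ⟨d, d0, fun h => hn (hμ.ge ?_), fun v hv => (d2 v hv).2.1⟩
    have hd : d = 0 := funext (Fin.forall_fin_two.2 ⟨d0, h⟩)
    obtain ⟨v, hv, a⟩ := f.BI2_v μ 1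
    have a1 := (d2 v hv).2.2
    rw [one _ (cz s hs v hv) (by rw [(d2 v hv).2.1, hd, smul_zero]), f.c_one, a, hd] at a1
    exact d1 hd (by simpa using a1.symm)
  obtain ⟨d, d0, d1, d2⟩ := nf e he n1
  obtain ⟨d', d0', d1', d2'⟩ := nf e' he' n2
  refine n3 (hμ.ge (f.phi μ0 (b.BI2_ES (b.BI2_UE he)) (b.BI2_ES (b.BI2_UE he')) (cen e (b.BI2_UE he))
    (cen e' (b.BI2_UE he')) (fun v hv => ?_) ?_))
  · obtain ⟨v', hv', a⟩ := f.BI2_v μ (f.w v 0 * d 1 / d' 1)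
    rw [z0] at a
    refine ⟨v', hv', inv_mul_eq_one.1 (one _ (mul_mem (inv_mem (cz e he v hv)) (cz e' he' v' hv')) ?_)⟩
    have q1 := (b.line _ (cz e he v hv)).1
    rw [(f.mulQ (inv_mem q1) (b.line _ (cz e' he' v' hv')).1).1, (f.invQ q1).1, d2 v hv, d2' v' hv', a]
    refine funext (Fin.forall_fin_two.2 ⟨by simp [d0, d0'], ?_⟩)
    simp [div_mul_cancel₀ _ d1', CharTwo.add_self_eq_zero]
  · obtain ⟨v, hv, a⟩ := f.BI2_v μ 1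
    refine ⟨v, hv, fun h => d1 ?_⟩
    have := h.2.2.1 1 (by decide)
    rw [z0] at a
    simpa [d2 v hv, a] using this

theorem B1.or {f : Fr G F n} {x y : G} (b : f.B1 E x y) : f.w y = 0 ∨ f.u y = 0 := by
  by_contra hn
  obtain ⟨hw, hu⟩ := not_or.1 hn
  have h1 := f.card_le_of_W (T := (E ⊓ f.Q) ⊓ (E ⊓ f.Q) ^ᶜ x) (fun p hp => hp.1.2)
    fun p hp => b.BI2_W hw hp.1 hp.2
  have h2 := (b.BI2_ge hw hu).trans (Nat.mul_le_mul_left _ h1)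
  rw [← pow_succ', Nat.pow_le_pow_iff_right (by have := f.hq; omega)] at h2
  obtain rfl : n = 2 := by have := f.hn; omega
  exact b.BI2_two hw hu

end Fr

end H46.Sl
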