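import Cfsg.Agent.Lib.SLM.BI2

/-! Unitriangular Sylow 2-subgroups, package BI3: see `blueprint/SLM/README.md`. -/

set_option autoImplicit false
set_option linter.unusedSectionVars false

namespace H46.Sl
open Subgroup H69 Cfsg Matrix
open scoped commutatorElement

namespace Fr
variable {G : Type*} [Group G] [Finite G] {F : Type*} [Field F] [Fintype F] [CharP F 2] {n : ℕ}
  (f : Fr G F n) {E P M : Subgroup G}

section
variable {f} {x y : G} (b : f.B1 E x y)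
include b

theorem B1.BI3_rank (hw : f.w y ≠ 0) {e : G} (he : e ∈ (E ⊓ f.Q) ^ᶜ x) :
    ∃ k, f.L e - 1 = vecMulVec k (f.w y) := by
  have eS := b.BI2_ES (b.BI2_UE he)
  refine rank_one' hw fun a ha => ?_
  obtain ⟨q, hq, e1, e2, -⟩ := f.exQ 0 a 0
  have qE : q ∈ E := (b.eq q).2 ⟨hq.1, (f.commQ hq b.yQ).2 (by simp [B, e1, e2, ha])⟩
  have h1 := b.BI2_W hw (b.BI2_cm he ⟨qE, hq⟩)
    (f.Ws_anti (Nat.zero_le 1) (f.cmWs eS (f.mem_W.2 ⟨hq, e1⟩)))
  have h2 := (f.mem_Z.1 h1).2.2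
  rw [(f.cmQ eS hq).2.2.1, e2] at h2
  rw [sub_mulVec, one_mulVec]
  ext i
  have := congrFun h2 i
  simp only [Pi.add_apply, Pi.sub_apply, Pi.zero_apply] at this ⊢
  rwa [CharTwo.sub_eq_add]

theorem B1.BI3_ge {j : Fin n} (hj : f.w y j ≠ 0) : Fintype.card F ^ (2 * n) ≤
    Fintype.card F ^ j.val * Nat.card ((E ⊓ f.Q) ⊓ (E ⊓ f.Q) ^ᶜ x : Subgroup G) := by
  choose κ hκ using fun e : ((E ⊓ f.Q) ^ᶜ x : Subgroup G) =>
    b.BI3_rank (fun h => hj (congrFun h j)) e.2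
  have z : ∀ e i, j ≤ i → κ e i = 0 := fun e i h => by
    have := congrFun (congrFun (hκ e) i) j
    rw [Matrix.sub_apply, f.ut _ (b.BI2_ES (b.BI2_UE e.2)) i j h, sub_self, vecMulVec_apply] at this
    exact (mul_eq_zero.1 this.symm).resolve_right hj
  have c : Nat.card (Fin j.val → F) = Fintype.card F ^ j.val := by simp
  rw [← b.cU, ← card_cj _ x, ← c]
  refine BI2_card _ _ (fun e (i : Fin j.val) => κ e ⟨i, i.2.trans j.2⟩) fun s t e =>
    b.BI2_I (mul_mem (inv_mem s.2) t.2) ?_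
  have e' : κ s = κ t := funext fun i => by
    rcases lt_or_ge i j with h | h
    · exact congrFun e ⟨i, h⟩
    · rw [z s i h, z t i h]
  have h1 : f.L t = f.L s := sub_left_injective (by
    show f.L t - 1 = f.L s - 1
    rw [hκ, hκ, e'])
  have sS := b.BI2_ES (b.BI2_UE s.2)
  rw [f.L_mul _ (inv_mem sS) _ (b.BI2_ES (b.BI2_UE t.2)), h1, f.L_inv_mul sS]

end

theorem B1.last {f : Fr G F n} {x y : G} (b : f.B1 E x y) (h : f.u y = 0) : E = f.U n ∧ f.Z ^ᶜ x ≤ f.Vs (n - 1) ∧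
    ∃ μ, (E ⊓ f.Q) ⊓ (E ⊓ f.Q) ^ᶜ x = f.I μ ∧ (n = 2 → μ = 0) := by
  have hn := f.hn
  have hq := f.hq
  have hw : f.w y ≠ 0 := fun e => b.y1 (f.mem_Z.2 ⟨b.yQ, e, h⟩)
  have hW : (E ⊓ f.Q) ⊓ (E ⊓ f.Q) ^ᶜ x ⊓ f.W ≤ f.Z := fun p hp => b.BI2_W hw hp.1 hp.2
  have hQ : (E ⊓ f.Q) ⊓ (E ⊓ f.Q) ^ᶜ x ≤ f.Q := fun p hp => hp.1.2
  have w0 : ∀ i : Fin n, i.val < n - 1 → f.w y i = 0 := fun i hi => by
    by_contra k
    have h2 := (b.BI3_ge k).trans (Nat.mul_le_mul_left _ (f.card_le_of_W hQ hW))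
    rw [← pow_add, Nat.pow_le_pow_iff_right (by omega)] at h2
    omega
  have w1 : f.w y = Pi.single f.iL (f.w y f.iL) := funext fun i => by
    by_cases e : i = f.iL
    · rw [e, Pi.single_eq_same]
    · rw [Pi.single_eq_of_ne e]
      exact w0 i (lt_of_le_of_ne (by have := i.2; omega) fun k => e (Fin.ext k))
  have w2 : f.w y f.iL ≠ 0 := fun e => hw (by rw [w1, e, Pi.single_zero])
  have cm : ∀ s ∈ f.S, s * y = y * s ↔ f.u s f.iL = 0 := fun s hs => by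
    have k : f.w y ᵥ* f.L s = f.w y := by
      rw [w1, single_vecMul]
      ext i
      rw [Pi.smul_apply, row_apply, f.ut s hs f.iL i (Fin.le_def.2 (by have := i.2; show _ ≤ n - 1; omega)),
        one_apply, Pi.single_apply, smul_eq_mul]
      simp [eq_comm]
    rw [f.comm_iff hs b.yQ.1, b.yQ.2, h, k, w1, single_dotProduct]
    simp [w2, add_comm]
  have eU : E = f.U n := by
    ext s
    rw [b.eq, f.mem_U]
    exact ⟨fun k => ⟨k.1, fun e => by omega, fun _ => (cm s k.1).1 k.2, fun i j _ e => absurd e j.2.ne⟩,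
      fun k => ⟨k.1, (cm s k.1).2 (k.2.2.1 rfl)⟩⟩
  refine ⟨eU, fun p hp => ?_, ?_⟩
  · obtain ⟨h1, l, h2, h3⟩ := b.line p hp
    exact ⟨h1, by rw [h3, h, smul_zero], fun i hi => by rw [h2, Pi.smul_apply, w0 i hi, smul_zero],
      fun k => by omega⟩
  obtain ⟨μ, hμ⟩ := f.graph hQ b.ZI b.sq hW (by
      refine Nat.le_of_mul_le_mul_left (c := Fintype.card F ^ (n - 1)) (le_trans (le_of_eq ?_) (b.BI3_ge w2))
        (by positivity)
      rw [← pow_add]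
      congr 1
      omega)
    fun s hs _ a2 => le_normalizer_inf b.BI2_nU b.BI2_nU' ((b.eq s).2 ⟨hs, (cm s hs).2 (by rw [a2]; rfl)⟩)
  refine ⟨μ, hμ, fun e => ?_⟩
  obtain ⟨v, hv, a⟩ := f.BI2_v μ 1
  have h1 := (b.eq v).1 (hμ.ge hv).1.1
  have h2 := (cm v h1.1).1 h1.2
  rw [show f.iL = f.i1 from Fin.ext (by show n - 1 = 1; omega), hv.2.2.1, a, mul_one] at h2
  exact h2

end Fr

end H46.Sl
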