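import Cfsg.Agent.Lib.SLM.PHI

/-! Unitriangular Sylow 2-subgroups, package PHI2: see `blueprint/SLM/README.md`. -/

set_option autoImplicit false
set_option linter.unusedSectionVars false

namespace H46.Sl
open Subgroup H69 Cfsg Matrix
open scoped commutatorElement

namespace Fr
variable {G : Type*} [Group G] [Finite G] {F : Type*} [Field F] [Fintype F] [CharP F 2] {n : ℕ}
  (f : Fr G F n) {E P M : Subgroup G}

theorem phi2_ne : f.i0 ≠ f.i1 := fun h => by simpa [i0, i1] using congrArg Fin.val h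

theorem phi2_cs (i : Fin n) : i = f.i0 ∨ i = f.i1 ∨ 2 ≤ i.val := by
  simp only [i0, i1, Fin.ext_iff]; omega

theorem phi2_ex (μ a : F) : ∃ v ∈ f.I μ, f.w v f.i0 = a := by
  obtain ⟨v, hv, e1, e2, -⟩ := f.exQ (Pi.single f.i0 a) (Pi.single f.i1 (μ * a)) 0
  refine ⟨v, f.mem_I.2 ⟨hv, ?_, ?_, fun i hi => ?_⟩, by simp [e1]⟩
  · simp [e1, e2, f.phi2_ne, f.phi2_ne.symm]
  · simp [e1, e2]
  · rw [e2, Pi.single_eq_of_ne]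
    rintro rfl
    simp [i1] at hi

theorem phi2_ext {μ : F} {p q : G} (hp : p ∈ f.I μ) (hq : q ∈ f.I μ) (h1 : f.w p = f.w q) (h2 : f.c p = f.c q) :
    p = q := by
  refine f.inj _ hp.1.1 _ hq.1.1 (hp.1.2.trans hq.1.2.symm) h1 (funext fun i => ?_) h2
  obtain rfl | rfl | h := f.phi2_cs i
  · rw [hp.2.1, hq.2.1, h1]
  · rw [hp.2.2.1, hq.2.2.1, h1]
  · rw [hp.2.2.2 i h, hq.2.2.2 i h]

theorem phi2_u {μ : F} {p : G} (hp : p ∈ f.I μ) (h0 : f.w p f.i0 = 0) (h1 : f.w p f.i1 = 0) : f.u p = 0 := by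
  funext i
  obtain rfl | rfl | h := f.phi2_cs i
  · simp [hp.2.1, h1]
  · simp [hp.2.2.1, h0]
  · exact hp.2.2.2 i h

theorem phi2_V2 {μ : F} {p : G} (hp : p ∈ f.I μ) (h0 : f.w p f.i0 = 0) : p ∈ f.Vs 2 ↔ f.w p f.i1 = 0 := by
  refine ⟨fun h => h.2.2.1 _ (by simp [i1]), fun h => f.mem_Vs.2 ⟨hp.1, f.phi2_u hp h0 h, fun i hi => ?_,
    fun h => by have := f.hn; omega⟩⟩
  obtain rfl | rfl | h' := f.phi2_cs i
  · exact h0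
  · exact h
  · omega

theorem phi2_Z {μ : F} {p : G} (hp : p ∈ f.I μ) (h : f.w p = 0) : p ∈ f.Z :=
  f.mem_Z.2 ⟨hp.1, h, f.phi2_u hp (by simp [h]) (by simp [h])⟩

theorem phi2_mul {μ : F} {p q : G} (hp : p ∈ f.I μ) (hq : q ∈ f.I μ) (h0 : f.w p f.i0 = 0) (h1 : f.w q f.i0 = 0) :
    f.w (p * q) = f.w p + f.w q ∧ f.c (p * q) = f.c p + f.c q := by
  obtain ⟨e1, -, e2⟩ := f.mulQ hp.1 hq.1
  refine ⟨e1, ?_⟩
  rw [e2, add_eq_left]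
  refine Finset.sum_eq_zero fun i _ => ?_
  obtain rfl | rfl | h := f.phi2_cs i
  · simp [h0]
  · simp [hq.2.2.1, h1]
  · simp [hq.2.2.2 i h]

theorem phi2_cm {μ : F} {s v : G} (hs : s ∈ f.S) (hv : v ∈ f.I μ) : ⁅s, v⁆ ∈ f.I μ :=
  mul_mem ((mem_normalizer_iff.1 (f.nI μ hs) v).1 hv) (inv_mem hv)

theorem phi2_U {s : G} {γ : F} (hs : s ∈ f.S) (h : f.u s = Pi.single f.i0 γ) : s ∈ f.U n := by
  have := f.hn
  refine f.mem_U.2 ⟨hs, fun h => by omega, fun _ => ?_, fun i j _ h => by omega⟩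
  rw [h, Pi.single_eq_of_ne]
  simp only [ne_eq, i0, iL, Fin.ext_iff]
  omega

theorem phi2_cj (g s v : G) : ⁅g * s * g⁻¹, g * v * g⁻¹⁆ = g * ⁅s, v⁆ * g⁻¹ := by
  simp only [commutatorElement_def]; group

/-- transport along `g` -/
theorem phi2_tr (f' : Fr G F n) {μ μ' : F} {T : Subgroup G} (hT : f.U n ≤ T) (hS : T ≤ f.S) (h3 : 3 ≤ n ∨ T = f.S)
    (hT' : f'.U n ≤ T) (hS' : T ≤ f'.S) (h3' : 3 ≤ n ∨ T = f'.S) {g : G} (hg : g ∈ 𝐍(T))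
    (h : f'.I μ' ^ᶜ g = f.I μ) : f'.Vs 2 ^ᶜ g = f.Vs 2 ∧ ∀ s ∈ f'.U n,
      (∀ p ∈ f'.I μ', f'.w p f'.i0 = 0 → s * p = p * s) →
      g * s * g⁻¹ ∈ f.S ∧ ∀ p ∈ f.I μ, f.w p f.i0 = 0 → g * s * g⁻¹ * p = p * (g * s * g⁻¹) := by
  obtain ⟨a1, a2⟩ := f.cm_I μ hT hS h3
  obtain ⟨b1, b2⟩ := f'.cm_I μ' hT' hS' h3'
  have e : ⁅f'.I μ', T⁆ ^ᶜ g = ⁅f.I μ, T⁆ := by rw [cj_commutator, h, cj_eq_of_mem_normalizer hg]
  refine ⟨by rw [← b2, ← a2, cj_commutator, e, cj_eq_of_mem_normalizer hg], fun s hs c =>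
    ⟨hS ((mem_normalizer_iff.1 hg s).1 (hT' hs)), fun p hp h0 => ?_⟩⟩
  have := (a1 p).2 ⟨hp, h0⟩
  rw [← e] at this
  obtain ⟨q, hq, rfl⟩ := mem_cj'.1 this
  have := c q ((b1 q).1 hq).1 ((b1 q).1 hq).2
  calc _ = g * (s * q) * g⁻¹ := by group
    _ = _ := by rw [this]; group

theorem phi2_gen (f' : Fr G F n) {μ : F} {T : Subgroup G} (hT : f.U n ≤ T) (hS : T ≤ f.S) (h3 : 3 ≤ n ∨ T = f.S)
    (hT' : f'.U n ≤ T) (hS' : T ≤ f'.S) (h3' : 3 ≤ n ∨ T = f'.S) {g : G} (hg : g ∈ 𝐍(T))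
    (h : f'.I 0 ^ᶜ g = f.I μ) : μ = 0 := by
  by_contra hμ
  obtain ⟨t1, t2⟩ := f.phi2_tr f' hT hS h3 hT' hS' h3' hg h
  obtain ⟨l, l0, l1⟩ := f.ex_l
  obtain ⟨s, hs, -, su, sL, sc, sw⟩ := f'.phi_ex (μ := 0) (Pi.single f'.i1 1) 0 (by simp [f'.phi2_ne])
  obtain ⟨s', hs', -, su', sL', sc', sw'⟩ := f'.phi_ex (μ := 0) (Pi.single f'.i1 l) 0 (by simp [f'.phi2_ne])
  obtain ⟨a1, a2⟩ := t2 s (f'.phi2_U hs su) sc
  obtain ⟨b1, b2⟩ := t2 s' (f'.phi2_U hs' su') sc'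
  have k := f.phi hμ a1 b1 a2 b2 (fun v0 hv0 => ?_) ?_
  · rw [← h, show (g * s * g⁻¹)⁻¹ * (g * s' * g⁻¹) = g * (s⁻¹ * s') * g⁻¹ by group, cj_mem_iff] at k
    have := f'.L_mul _ hs _ k.1.1
    rw [mul_inv_cancel_left, k.1.2, mul_one, sL, sL'] at this
    simpa [vecMulVec_apply, l1] using congrFun (congrFun this f'.i0) f'.i1
  · rw [← h] at hv0 ⊢
    obtain ⟨v, hv, rfl⟩ := mem_cj'.1 hv0
    obtain ⟨v', hv', e⟩ := f'.phi2_ex 0 (l⁻¹ * f'.w v f'.i0)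
    refine ⟨_, cj_mem g hv', ?_⟩
    rw [phi2_cj, phi2_cj, f'.phi2_ext (f'.phi2_cm hs hv) (f'.phi2_cm hs' hv')]
    · rw [(sw v hv).1, (sw' v' hv').1, e, ← Pi.single_smul, ← Pi.single_smul]
      congr 1
      simp only [smul_eq_mul]
      field_simp
    · simp [(sw v hv).2, (sw' v' hv').2]
  · obtain ⟨v, hv, e⟩ := f'.phi2_ex 0 1
    refine ⟨_, h ▸ cj_mem g hv, ?_⟩
    rw [phi2_cj, ← t1, cj_mem_iff, f'.phi2_V2 (f'.phi2_cm hs hv) (by simp [(sw v hv).1, f'.phi2_ne]), (sw v hv).1]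
    simp [e]

/-- `V` is not conjugate to `I μ` -/
theorem phi_V {μ : F} {T : Subgroup G} (hT : f.U n ≤ T) (hS : T ≤ f.S) (h3 : 3 ≤ n ∨ T = f.S) {g : G}
    (hg : g ∈ 𝐍(T)) (h : f.V ^ᶜ g = f.I μ) : μ = 0 :=
  f.phi2_gen f hT hS h3 hT hS h3 hg (by rw [I_zero, h])

/-- `W` is not conjugate to `I μ` -/
theorem phi_W {μ : F} {g : G} (hg : g ∈ 𝐍(f.S)) (h : f.W ^ᶜ g = f.I μ) : μ = 0 :=
  f.phi2_gen f.dual (f.U_le n) le_rfl (.inr rfl) (f.dual.U_le n) le_rfl (.inr rfl) hg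
    (by rw [I_zero, ← h, V, dual_Vs])

theorem phi2 (h3 : 3 ≤ n) {μ μ' : F} {x : G} (hx : x ∈ 𝐍(f.U n)) (h : f.I μ' ^ᶜ x = f.I μ)
    (h1 : f.Z ^ᶜ x ≤ f.Vs (n - 1)) (h2 : f.Z ⊓ f.Z ^ᶜ x = ⊥) : μ = 0 := by
  by_cases hμ' : μ' = 0
  · exact f.phi_V le_rfl (f.U_le n) (.inl h3) hx (by rw [← h, hμ', I_zero])
  by_contra hμ
  have two : (2 : F) = 0 := CharTwo.two_eq_zero
  have ne := f.phi2_ne
  obtain ⟨t1, t2⟩ := f.phi2_tr f le_rfl (f.U_le n) (.inl h3) le_rfl (f.U_le n) (.inl h3) hx h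
  obtain ⟨l, l0, l1⟩ := f.ex_l
  have cI : ∀ {v}, v ∈ f.I μ' → x * v * x⁻¹ ∈ f.I μ := fun hv => h ▸ cj_mem x hv
  obtain ⟨s, hs, -, su, -, sc, sw⟩ := f.phi_ex (μ := μ') 0 1 rfl
  obtain ⟨t, ht, -, tu, -, tc, tw⟩ := f.phi_ex (μ := μ') (Pi.single f.i1 1) 0 (by simp [ne])
  obtain ⟨t', ht', -, tu', -, tc', tw'⟩ := f.phi_ex (μ := μ') (Pi.single f.i1 l) 0 (by simp [ne])
  obtain ⟨d, γ, d0, -, hd⟩ := f.phi_cm (t2 s (f.phi2_U hs su) sc).1 (t2 s (f.phi2_U hs su) sc).2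
  obtain ⟨D, δ, D0, -, hD⟩ := f.phi_cm (t2 t (f.phi2_U ht tu) tc).1 (t2 t (f.phi2_U ht tu) tc).2
  obtain ⟨D', δ', D0', -, hD'⟩ := f.phi_cm (t2 t' (f.phi2_U ht' tu') tc').1 (t2 t' (f.phi2_U ht' tu') tc').2
  have sZ : ∀ v ∈ f.I μ', ⁅s, v⁆ ∈ f.Z := fun v hv => f.phi2_Z (f.phi2_cm hs hv) (by simp [(sw v hv).1])
  obtain ⟨v1, hv1, e1⟩ := f.phi2_ex μ' 1
  have d1 : d f.i1 = 0 := by
    obtain ⟨v0, hv0, e⟩ := f.phi2_ex μ 1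
    have := (hd v0 hv0).2.1
    rw [← h] at hv0
    obtain ⟨v, hv, rfl⟩ := mem_cj'.1 hv0
    have k := (h1 (cj_mem x (sZ v hv))).2.2.1 f.i1 (by simp only [i1]; omega)
    rw [← phi2_cj, this, e] at k
    simpa using k
  obtain ⟨j, hj⟩ : ∃ j, d j ≠ 0 := by
    by_contra! hc
    have k : x * ⁅s, v1⁆ * x⁻¹ ∈ f.Z ⊓ f.Z ^ᶜ x := ⟨by
      rw [← phi2_cj]
      exact f.phi2_Z (hd _ (cI hv1)).1 (by rw [(hd _ (cI hv1)).2.1]; funext i; simp [hc]), cj_mem x (sZ _ hv1)⟩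
    rw [h2, mem_bot, conj_eq_one_iff] at k
    have := (sw v1 hv1).2
    rw [k, f.c_one, e1] at this
    simp at this
  have V2 : ∀ {p}, p ∈ f.I μ' → f.w p f.i0 = 0 → f.w (x * p * x⁻¹) f.i0 = 0 → f.w (x * p * x⁻¹) f.i1 = 0 →
      f.w p f.i1 = 0 := fun hp a b c => by
    rwa [← f.phi2_V2 (cI hp) b, ← t1, cj_mem_iff, f.phi2_V2 hp a] at c
  have w0 : ∀ v ∈ f.I μ', f.w ⁅t, v⁆ f.i0 = 0 := fun v hv => by simp [(tw v hv).1, ne]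
  have w0' : ∀ v ∈ f.I μ', f.w ⁅t', v⁆ f.i0 = 0 := fun v hv => by simp [(tw' v hv).1, ne]
  have W0 : ∀ v ∈ f.I μ, f.w ⁅x * t * x⁻¹, v⁆ f.i0 = 0 := fun v hv => by simp [(hD v hv).2.1, D0]
  have W0' : ∀ v ∈ f.I μ, f.w ⁅x * t' * x⁻¹, v⁆ f.i0 = 0 := fun v hv => by simp [(hD' v hv).2.1, D0']
  have D1 : D f.i1 ≠ 0 := fun e => by
    have := V2 (f.phi2_cm ht hv1) (w0 _ hv1) (phi2_cj x t v1 ▸ W0 _ (cI hv1))
      (by rw [← phi2_cj, (hD _ (cI hv1)).2.1]; simp [e])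
    simp [(tw _ hv1).1, e1] at this
  have D1' : D' f.i1 ≠ 0 := fun e => by
    have := V2 (f.phi2_cm ht' hv1) (w0' _ hv1) (phi2_cj x t' v1 ▸ W0' _ (cI hv1))
      (by rw [← phi2_cj, (hD' _ (cI hv1)).2.1]; simp [e])
    simp [(tw' _ hv1).1, e1, l0] at this
  have pr : ∀ v ∈ f.I μ', ∀ v' ∈ f.I μ', _ := fun v hv v' hv' =>
    f.phi2_mul (f.phi2_cm ht hv) (f.phi2_cm ht' hv') (w0 _ hv) (w0' _ hv')
  have Pr : ∀ v ∈ f.I μ', ∀ v' ∈ f.I μ', f.w (x * (⁅t, v⁆ * ⁅t', v'⁆) * x⁻¹) =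
      f.w (x * v * x⁻¹) f.i0 • D + f.w (x * v' * x⁻¹) f.i0 • D' ∧ f.c (x * (⁅t, v⁆ * ⁅t', v'⁆) * x⁻¹) =
      f.w (x * v * x⁻¹) f.i0 * δ + μ * D f.i1 * f.w (x * v * x⁻¹) f.i0 ^ 2 +
      (f.w (x * v' * x⁻¹) f.i0 * δ' + μ * D' f.i1 * f.w (x * v' * x⁻¹) f.i0 ^ 2) := fun v hv v' hv' => by
    obtain ⟨a, b⟩ := f.phi2_mul (hD _ (cI hv)).1 (hD' _ (cI hv')).1 (W0 _ (cI hv)) (W0' _ (cI hv'))
    rw [← conj_mul, ← phi2_cj, ← phi2_cj, a, b, (hD _ (cI hv)).2.1, (hD _ (cI hv)).2.2, (hD' _ (cI hv')).2.1,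
      (hD' _ (cI hv')).2.2]
    exact ⟨rfl, rfl⟩
  have DD : D f.i1 + D' f.i1 ≠ 0 := fun e => by
    have := V2 (mul_mem (f.phi2_cm ht hv1) (f.phi2_cm ht' hv1)) (by simp [(pr _ hv1 _ hv1).1, w0 _ hv1, w0' _ hv1])
      (by simp [(Pr _ hv1 _ hv1).1, D0, D0']) (by simp [(Pr _ hv1 _ hv1).1, ← mul_add, e])
    rw [(pr _ hv1 _ hv1).1, (tw _ hv1).1, (tw' _ hv1).1, e1] at this
    simp only [Pi.add_apply, one_smul, Pi.single_eq_same] at this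
    exact l1 (by linear_combination this - two)
  have ll : l ^ 2 + l ≠ 0 := fun e => mul_ne_zero l0 (sub_ne_zero.2 l1) (by linear_combination e - l * two)
  have key : ∀ b : F, ∃ A A' : F, A • D + A' • D' = b • d ∧
      A * δ + μ * D f.i1 * A ^ 2 + (A' * δ' + μ * D' f.i1 * A' ^ 2) = b * γ := fun b => by
    obtain ⟨v0, hv0, e⟩ := f.phi2_ex μ b
    have k := hd v0 hv0
    rw [← h] at hv0
    obtain ⟨v, hv, rfl⟩ := mem_cj'.1 hv0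
    obtain ⟨a, ha⟩ := FiniteField.isSquare_of_char_two (ringChar.eq F 2) (f.c ⁅s, v⁆ / (μ' * (l ^ 2 + l)))
    obtain ⟨p, hp, ep⟩ := f.phi2_ex μ' (l * a)
    obtain ⟨p', hp', ep'⟩ := f.phi2_ex μ' a
    have z : ⁅t, p⁆ * ⁅t', p'⁆ = ⁅s, v⁆ := by
      refine f.phi2_ext (mul_mem (f.phi2_cm ht hp) (f.phi2_cm ht' hp')) (f.phi2_cm hs hv) ?_ ?_
      · rw [(pr _ hp _ hp').1, (tw _ hp).1, (tw' _ hp').1, (sw _ hv).1, ep, ep', ← Pi.single_smul, ← Pi.single_smul,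
          ← Pi.single_add, smul_zero, smul_eq_mul, smul_eq_mul, mul_one, mul_comm, CharTwo.add_self_eq_zero,
          Pi.single_zero]
      · rw [(pr _ hp _ hp').2, (tw _ hp).2, (tw' _ hp').2, ep, ep', (div_eq_iff (mul_ne_zero hμ' ll)).1 ha]
        simp only [Pi.single_eq_same]
        ring
    obtain ⟨a1, a2⟩ := Pr _ hp _ hp'
    rw [z, ← phi2_cj] at a1 a2
    exact ⟨_, _, by rw [← a1, k.2.1, e], by rw [← a2, k.2.2, e, d1]; ring⟩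
  obtain ⟨A, A', a1, a2⟩ := key 1
  obtain ⟨B, B', b1, b2⟩ := key l
  have a3 := congrFun a1 f.i1
  have a4 := congrFun a1 j
  have b3 := congrFun b1 f.i1
  have b4 := congrFun b1 j
  simp only [Pi.add_apply, Pi.smul_apply, smul_eq_mul, d1, mul_zero, one_mul] at a3 a4 b3 b4
  obtain ⟨κ, hκ⟩ : ∃ κ, D f.i1 = κ * D' f.i1 := ⟨D f.i1 / D' f.i1, by field_simp⟩
  obtain rfl : A' = -κ * A := mul_right_cancel₀ D1' (by linear_combination a3 - A * hκ)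
  obtain rfl : B' = -κ * B := mul_right_cancel₀ D1' (by linear_combination b3 - B * hκ)
  have hE : A * (D j - κ * D' j) ≠ 0 := fun e => hj (by linear_combination e - a4)
  obtain rfl : B = l * A := mul_right_cancel₀ (right_ne_zero_of_mul hE) (by linear_combination b4 - l * a4)
  rw [hκ] at a2 b2 DD D1
  refine mul_ne_zero (mul_ne_zero (mul_ne_zero (mul_ne_zero hμ (pow_ne_zero 2 (left_ne_zero_of_mul hE)))
    (left_ne_zero_of_mul D1)) DD) (mul_ne_zero l0 (sub_ne_zero.2 l1)) ?_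
  linear_combination b2 - l * a2

end Fr

end H46.Sl
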