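import Cfsg.Agent.Lib.SLM.BI1
import Cfsg.Agent.Lib.SLM.BI2
import Cfsg.Agent.Lib.SLM.BI3
import Cfsg.Agent.Lib.SLM.PHI2

/-! Unitriangular Sylow 2-subgroups, package BI4: see `blueprint/SLM/README.md`. -/

set_option autoImplicit false
set_option linter.unusedSectionVars false

namespace H46.Sl
open Subgroup H69 Cfsg Matrix
open scoped commutatorElement

namespace Fr
variable {G : Type*} [Group G] [Finite G] {F : Type*} [Field F] [Fintype F] [CharP F 2] {n : ℕ}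
  (f : Fr G F n) {E P M : Subgroup G}

theorem bi4_VU : f.V ≤ f.U n := fun v hv => by
  have hn := f.hn
  obtain ⟨hQ, hu⟩ := f.mem_V.1 hv
  refine f.mem_U.2 ⟨hQ.1, fun e => by omega, fun _ => by simp [hu], fun i j hi hj => ?_⟩
  have := j.2
  omega

theorem bi4_u {x y : G} (b : f.B1 E x y) (hE : E = f.U n) : f.u y = 0 := by
  funext t
  obtain ⟨v, hv, h1, h2, -⟩ := f.exQ (Pi.single t 1) 0 0
  have hvE : v ∈ E := hE ▸ f.bi4_VU (f.mem_V.2 ⟨hv, h2⟩)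
  have := (f.commQ hv b.yQ).1 ((b.eq v).1 hvE).2
  simpa [B, h1, h2] using this

theorem bi_V (h : ME f.S E P M) {x y : G} (hx : x ∈ P) (b : f.B1 E x y) (hu : f.u y = 0) : E = f.U n ∧ P ≤ 𝐍(f.V) := by
  obtain ⟨hE, -, -⟩ := b.last hu
  obtain ⟨z, hz, rfl⟩ := mem_cj'.1 b.yZ
  have hP : z ∉ 𝐂(P) := fun hc => b.y1 (by
    rw [hc x hx, mul_inv_cancel_right]; exact hz)
  have k1 : ∀ g ∈ P, g ∉ M → f.B1 E g (g * z * g⁻¹) := fun g hg hM =>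
    f.ex_B1 h hg hM hz hP (b.all h hg hz)
  have k0 : ∀ g ∈ P, g ∉ M → ((E ⊓ f.Q) ⊓ (E ⊓ f.Q) ^ᶜ g⁻¹) ^ᶜ g = (E ⊓ f.Q) ⊓ (E ⊓ f.Q) ^ᶜ g := fun g _ _ => by
    rw [cj_inf, cj_inv_cj, inf_comm]
  have k2 : ∀ g ∈ P, g ∉ M → (E ⊓ f.Q) ⊓ (E ⊓ f.Q) ^ᶜ g = f.V := fun g hg hM => by
    have b1 := k1 g hg hM
    have b2 := k1 g⁻¹ (inv_mem hg) fun e => hM (inv_mem_iff.1 e)
    obtain ⟨-, a1, μ, a2, a3⟩ := b1.last (f.bi4_u b1 hE)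
    obtain ⟨-, -, μ', a4, -⟩ := b2.last (f.bi4_u b2 hE)
    have : μ = 0 := by
      rcases Nat.lt_or_ge 2 n with h3 | h3
      · refine f.phi2 h3 (μ' := μ') (hE ▸ h.nE hg) ?_ a1 b1.zz
        rw [← a4, ← a2, k0 g hg hM]
      · exact a3 (le_antisymm h3 f.hn)
    rw [a2, this, f.I_zero]
  refine ⟨hE, h.gen_out fun g hg hM => cj_eq_self_iff.1 ?_⟩
  conv_lhs => rw [← k2 g⁻¹ (inv_mem hg) fun e => hM (inv_mem_iff.1 e)]
  rw [k0 g hg hM, k2 g hg hM]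

theorem bi (h : ME f.S E P M) {x z : G} (hx : x ∈ P) (hM : x ∉ M) (hz : z ∈ f.Z) (hP : z ∉ 𝐂(P))
    (hQ : x * z * x⁻¹ ∈ f.Q) : (E = f.U n ∧ P ≤ 𝐍(f.V)) ∨ (E = f.U 0 ∧ P ≤ 𝐍(f.W)) := by
  have b := f.ex_B1 h hx hM hz hP hQ
  rcases b.or with e | e
  · have hd : f.dual.u (x * z * x⁻¹) = 0 := by
      funext i
      change f.w (x * z * x⁻¹)⁻¹ i.rev = 0
      rw [(f.invQ hQ).1, e]; rfl
    obtain ⟨a1, a2⟩ := f.dual.bi_V (E := E) (P := P) (M := M) h hx b.dual hd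
    refine Or.inr ⟨?_, ?_⟩
    · rw [a1, ← f.dual_U (Nat.zero_le n), Nat.sub_zero]
    · rwa [show f.dual.V = f.W from f.dual_Vs 0] at a2
  · exact Or.inl (f.bi_V h hx b e)

end Fr

end H46.Sl
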