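import Cfsg.Agent.Lib.SLM.Defs

/-! Unitriangular Sylow 2-subgroups, package Bas1: see `blueprint/SLM/README.md`. -/

set_option autoImplicit false
set_option linter.unusedSectionVars false

namespace H46.Sl
open Subgroup H69 Cfsg Matrix
open scoped commutatorElement

namespace Fr
variable {G : Type*} [Group G] [Finite G] {F : Type*} [Field F] [Fintype F] [CharP F 2] {n : ℕ}
  (f : Fr G F n) {E P M : Subgroup G}

theorem Bas1.aa (x : Fin n → F) : x + x = 0 := by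
  ext i; exact CharTwo.add_self_eq_zero _

theorem Bas1.eq_of_add {x y : Fin n → F} (h : x + y = 0) : x = y := by
  ext i; exact CharTwo.add_eq_zero.1 (congrFun h i)

theorem Bas1.vecMul_single (x : Fin n → F) (s t : Fin n) (l : F) :
    x ᵥ* single s t l = Pi.single t (l * x s) := by
  ext i
  by_cases h : t = i
  · subst h
    simp [vecMul, dotProduct, single_apply, mul_comm]
  · simp [vecMul, dotProduct, h, Ne.symm h]

theorem Bas1.single_mulVec (x : Fin n → F) (s t : Fin n) (l : F) :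
    single s t l *ᵥ x = Pi.single s (l * x t) := by
  ext i
  by_cases h : s = i
  · subst h
    simp [mulVec, dotProduct, single_apply]
  · simp [mulVec, dotProduct, h, Ne.symm h]

theorem Bas1.exQ (x y : Fin n → F) (d : F) : ∃ a ∈ f.Q, f.w a = x ∧ f.u a = y ∧ f.c a = d := by
  obtain ⟨a, ha, e1, e2, e3, e4⟩ := f.full 1 (fun _ _ _ => rfl) x y d
  exact ⟨a, ⟨ha, e1⟩, e2, e3, e4⟩

theorem Bas1.extQ {p q : G} (hp : p ∈ f.Q) (hq : q ∈ f.Q) (h1 : f.w p = f.w q) (h2 : f.u p = f.u q)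
    (h3 : f.c p = f.c q) : p = q :=
  f.inj _ hp.1 _ hq.1 (hp.2.trans hq.2.symm) h1 h2 h3

theorem Bas1.c_inv {a : G} (ha : a ∈ f.S) : f.c a + f.c a⁻¹ + f.w a ⬝ᵥ f.u a⁻¹ = 0 := by
  rw [← f.c_mul _ ha _ (inv_mem ha), mul_inv_cancel, f.c_one]

theorem pS : IsPGroup 2 f.S := by
  exact f.syl.isP

theorem L_inv_mul {a : G} (ha : a ∈ f.S) : f.L a⁻¹ * f.L a = 1 := by
  rw [← f.L_mul _ (inv_mem ha) _ ha, inv_mul_cancel, f.L_one]

theorem L_mul_inv {a : G} (ha : a ∈ f.S) : f.L a * f.L a⁻¹ = 1 := by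
  rw [← f.L_mul _ ha _ (inv_mem ha), mul_inv_cancel, f.L_one]

theorem w_inv {a : G} (ha : a ∈ f.S) : f.w a⁻¹ = f.w a ᵥ* f.L a⁻¹ := by
  refine (Bas1.eq_of_add ?_).symm
  rw [← f.w_mul _ ha _ (inv_mem ha), mul_inv_cancel, f.w_one]

theorem u_inv {a : G} (ha : a ∈ f.S) : f.u a⁻¹ = f.L a⁻¹ *ᵥ f.u a := by
  refine Bas1.eq_of_add ?_
  rw [← f.u_mul _ (inv_mem ha) _ ha, inv_mul_cancel, f.u_one]

theorem comm_iff {a b : G} (ha : a ∈ f.S) (hb : b ∈ f.S) : a * b = b * a ↔ f.L a * f.L b = f.L b * f.L a ∧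
    f.w a ᵥ* f.L b + f.w b = f.w b ᵥ* f.L a + f.w a ∧ f.u a + f.L a *ᵥ f.u b = f.u b + f.L b *ᵥ f.u a ∧
    f.w a ⬝ᵥ f.u b = f.w b ⬝ᵥ f.u a := by
  constructor
  · intro h
    refine ⟨?_, ?_, ?_, ?_⟩
    · rw [← f.L_mul _ ha _ hb, h, f.L_mul _ hb _ ha]
    · rw [← f.w_mul _ ha _ hb, h, f.w_mul _ hb _ ha]
    · rw [← f.u_mul _ ha _ hb, h, f.u_mul _ hb _ ha]
    · have e := f.c_mul _ ha _ hb
      rw [h, f.c_mul _ hb _ ha] at e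
      linear_combination -e
  · rintro ⟨h1, h2, h3, h4⟩
    refine f.inj _ (mul_mem ha hb) _ (mul_mem hb ha) ?_ ?_ ?_ ?_
    · rw [f.L_mul _ ha _ hb, h1, f.L_mul _ hb _ ha]
    · rw [f.w_mul _ ha _ hb, h2, f.w_mul _ hb _ ha]
    · rw [f.u_mul _ ha _ hb, h3, f.u_mul _ hb _ ha]
    · rw [f.c_mul _ ha _ hb, h4, f.c_mul _ hb _ ha, add_comm (f.c a)]

theorem mulQ {p q : G} (hp : p ∈ f.Q) (hq : q ∈ f.Q) : f.w (p * q) = f.w p + f.w q ∧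
    f.u (p * q) = f.u p + f.u q ∧ f.c (p * q) = f.c p + f.c q + f.w p ⬝ᵥ f.u q := by
  refine ⟨?_, ?_, f.c_mul _ hp.1 _ hq.1⟩
  · rw [f.w_mul _ hp.1 _ hq.1, hq.2, vecMul_one]
  · rw [f.u_mul _ hp.1 _ hq.1, hp.2, one_mulVec]

theorem invQ {p : G} (hp : p ∈ f.Q) : f.w p⁻¹ = f.w p ∧ f.u p⁻¹ = f.u p ∧ f.c p⁻¹ = f.c p + f.w p ⬝ᵥ f.u p := by
  have hi : f.L p⁻¹ = 1 := (inv_mem hp : p⁻¹ ∈ f.Q).2
  have e2 : f.u p⁻¹ = f.u p := by rw [f.u_inv hp.1, hi, one_mulVec]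
  refine ⟨by rw [f.w_inv hp.1, hi, vecMul_one], e2, ?_⟩
  have h := Bas1.c_inv f hp.1
  rw [e2] at h
  have two : (2 : F) = 0 := CharTwo.two_eq_zero
  linear_combination h - (f.c p + f.w p ⬝ᵥ f.u p) * two

theorem cjQ {s q : G} (hs : s ∈ f.S) (hq : q ∈ f.Q) : s * q * s⁻¹ ∈ f.Q ∧
    f.w (s * q * s⁻¹) = f.w q ᵥ* f.L s⁻¹ ∧ f.u (s * q * s⁻¹) = f.L s *ᵥ f.u q ∧
    f.c (s * q * s⁻¹) = f.c q + f.w s ⬝ᵥ f.u q + (f.w q ᵥ* f.L s⁻¹) ⬝ᵥ f.u s := by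
  have hsq := mul_mem hs hq.1
  have hi := inv_mem hs
  have eL : f.L (s * q) = f.L s := by rw [f.L_mul _ hs _ hq.1, hq.2, mul_one]
  have ew : f.w (s * q) = f.w s + f.w q := by rw [f.w_mul _ hs _ hq.1, hq.2, vecMul_one]
  refine ⟨⟨mul_mem hsq hi, ?_⟩, ?_, ?_, ?_⟩
  · rw [f.L_mul _ hsq _ hi, eL, f.L_mul_inv hs]
  · rw [f.w_mul _ hsq _ hi, ew, f.w_inv hs, add_vecMul, add_right_comm, Bas1.aa, zero_add]
  · rw [f.u_mul _ hsq _ hi, eL, f.u_mul _ hs _ hq.1, f.u_inv hs, mulVec_mulVec, f.L_mul_inv hs, one_mulVec,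
      add_right_comm, Bas1.aa, zero_add]
  · have h := Bas1.c_inv f hs
    have e : (f.w q ᵥ* f.L s⁻¹) ⬝ᵥ f.u s = f.w q ⬝ᵥ f.u s⁻¹ := by rw [f.u_inv hs, dotProduct_mulVec]
    rw [f.c_mul _ hsq _ hi, ew, f.c_mul _ hs _ hq.1, add_dotProduct, e]
    linear_combination h

theorem cmQ {s q : G} (hs : s ∈ f.S) (hq : q ∈ f.Q) : ⁅s, q⁆ ∈ f.Q ∧
    f.w ⁅s, q⁆ = f.w q ᵥ* f.L s⁻¹ + f.w q ∧ f.u ⁅s, q⁆ = f.L s *ᵥ f.u q + f.u q ∧
    f.c ⁅s, q⁆ = f.w s ⬝ᵥ f.u q + (f.w q ᵥ* f.L s⁻¹) ⬝ᵥ f.u s + (f.w q ᵥ* f.L s⁻¹ + f.w q) ⬝ᵥ f.u q := by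
  obtain ⟨h0, h1, h2, h3⟩ := f.cjQ hs hq
  obtain ⟨i1, i2, i3⟩ := f.invQ hq
  obtain ⟨m1, m2, m3⟩ := f.mulQ h0 (inv_mem hq)
  rw [commutatorElement_def]
  refine ⟨mul_mem h0 (inv_mem hq), by rw [m1, h1, i1], by rw [m2, h2, i2], ?_⟩
  rw [m3, h3, i3, h1, i2, add_dotProduct]
  have two : (2 : F) = 0 := CharTwo.two_eq_zero
  linear_combination (f.c q) * two

/-- an involution -/
theorem inv_co {y : G} (hy : y ∈ f.S) (h : y * y = 1) : f.L y⁻¹ = f.L y ∧ f.L y * f.L y = 1 ∧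
    f.w y ᵥ* f.L y = f.w y ∧ f.L y *ᵥ f.u y = f.u y ∧ f.w y ⬝ᵥ f.u y = 0 := by
  refine ⟨by rw [inv_eq_of_mul_eq_one_right h], by rw [← f.L_mul _ hy _ hy, h, f.L_one], Bas1.eq_of_add ?_,
    (Bas1.eq_of_add ?_).symm, ?_⟩
  · rw [← f.w_mul _ hy _ hy, h, f.w_one]
  · rw [← f.u_mul _ hy _ hy, h, f.u_one]
  · have e := f.c_mul _ hy _ hy
    rw [h, f.c_one, CharTwo.add_self_eq_zero, zero_add] at e
    exact e.symm

theorem mem_V {a : G} : a ∈ f.V ↔ a ∈ f.Q ∧ f.u a = 0 := by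
  exact ⟨fun h => ⟨h.1, h.2.1⟩,
    fun h => ⟨h.1, h.2, fun i hi => absurd hi (Nat.not_lt_zero _), fun h => absurd h (Nat.not_lt_zero _)⟩⟩

theorem mem_W {a : G} : a ∈ f.W ↔ a ∈ f.Q ∧ f.w a = 0 := by
  exact ⟨fun h => ⟨h.1, h.2.1⟩,
    fun h => ⟨h.1, h.2, fun i hi => absurd hi (by have := i.2; omega), fun h => absurd h (Nat.not_lt_zero _)⟩⟩

theorem mem_Z {a : G} : a ∈ f.Z ↔ a ∈ f.Q ∧ f.w a = 0 ∧ f.u a = 0 := by
  exact ⟨fun h => ⟨h.1, funext fun i => h.2.2.1 i i.2, h.2.1⟩,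
    fun h => ⟨h.1, h.2.2, fun i _ => congrFun h.2.1 i, fun h => absurd h (lt_irrefl _)⟩⟩

theorem Ws_n : f.Ws n = f.Z := by
  ext a
  rw [f.mem_Z]
  exact ⟨fun h => ⟨h.1, h.2.1, funext fun i => h.2.2.1 i (Nat.le_add_left _ _)⟩,
    fun h => ⟨h.1, h.2.1, fun i _ => congrFun h.2.2 i, fun h => absurd h (lt_irrefl _)⟩⟩

theorem Vs_top {j : ℕ} (h : n < j) : f.Vs j = ⊥ := by
  refine eq_bot_iff.2 fun a ha => mem_bot.2 (Bas1.extQ f ha.1 (one_mem _) ?_ ?_ ?_)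
  · rw [f.w_one]; exact funext fun i => ha.2.2.1 i (i.2.trans h)
  · rw [f.u_one]; exact ha.2.1
  · rw [f.c_one]; exact ha.2.2.2 h

theorem Ws_top {j : ℕ} (h : n < j) : f.Ws j = ⊥ := by
  refine eq_bot_iff.2 fun a ha => mem_bot.2 (Bas1.extQ f ha.1 (one_mem _) ?_ ?_ ?_)
  · rw [f.w_one]; exact ha.2.1
  · rw [f.u_one]; exact funext fun i => ha.2.2.1 i (by omega)
  · rw [f.c_one]; exact ha.2.2.2 h

theorem Vs_anti {i j : ℕ} (h : i ≤ j) : f.Vs j ≤ f.Vs i := by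
  exact fun a ha => ⟨ha.1, ha.2.1, fun t ht => ha.2.2.1 t (ht.trans_le h), fun hn => ha.2.2.2 (hn.trans_le h)⟩

theorem Ws_anti {i j : ℕ} (h : i ≤ j) : f.Ws j ≤ f.Ws i := by
  exact fun a ha => ⟨ha.1, ha.2.1, fun t ht => ha.2.2.1 t (by omega), fun hn => ha.2.2.2 (hn.trans_le h)⟩

theorem Q_le : f.Q ≤ f.S := by
  exact fun a ha => ha.1

theorem Vs_le (j : ℕ) : f.Vs j ≤ f.Q := by
  exact fun a ha => ha.1

theorem Ws_le (j : ℕ) : f.Ws j ≤ f.Q := by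
  exact fun a ha => ha.1

theorem V_inf_W : f.V ⊓ f.W = f.Z := by
  ext a
  rw [mem_inf, f.mem_V, f.mem_W, f.mem_Z]
  exact ⟨fun h => ⟨h.1.1, h.2.2, h.1.2⟩, fun h => ⟨⟨h.1, h.2.2⟩, h.1, h.2.1⟩⟩

theorem I_zero : f.I 0 = f.V := by
  ext a
  rw [f.mem_V, f.mem_I]
  refine and_congr_right fun _ => ⟨fun h => funext fun i => ?_, fun h => by simp [h]⟩
  obtain ⟨h0, h1, h2⟩ := h
  rw [zero_mul] at h0 h1
  by_cases e0 : i.val = 0
  · rw [show i = f.i0 from Fin.ext e0]; exact h0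
  by_cases e1 : i.val = 1
  · rw [show i = f.i1 from Fin.ext e1]; exact h1
  exact h2 i (by omega)

theorem mem_D {j i : ℕ} (hj : j ≤ n) (hi : i ≤ n) {a : G} : a ∈ f.D j i ↔
    a ∈ f.Q ∧ (∀ t : Fin n, t.val < j → f.w a t = 0) ∧ ∀ t : Fin n, n ≤ t.val + i → f.u a t = 0 := by
  constructor
  · intro h
    let K : Subgroup G := sub (fun a => a ∈ f.Q ∧ (∀ t : Fin n, t.val < j → f.w a t = 0) ∧
        ∀ t : Fin n, n ≤ t.val + i → f.u a t = 0)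
      ⟨one_mem _, fun t _ => by simp [f.w_one], fun t _ => by simp [f.u_one]⟩
      fun a b ha hb => ⟨mul_mem ha.1 hb.1,
        fun t ht => by simp [(f.mulQ ha.1 hb.1).1, ha.2.1 t ht, hb.2.1 t ht],
        fun t ht => by simp [(f.mulQ ha.1 hb.1).2.1, ha.2.2 t ht, hb.2.2 t ht]⟩
    have hK : f.D j i ≤ K := sup_le (fun a ha => ⟨ha.1, ha.2.2.1, fun t _ => congrFun ha.2.1 t⟩)
      fun a ha => ⟨ha.1, fun t _ => congrFun ha.2.1 t, ha.2.2.1⟩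
    exact hK h
  · rintro ⟨hq, h1, h2⟩
    obtain ⟨v, hv, a1, a2, a3⟩ := Bas1.exQ f (f.w a) 0 (f.c a + f.w a ⬝ᵥ f.u a)
    obtain ⟨v', hv', b1, b2, b3⟩ := Bas1.exQ f 0 (f.u a) 0
    obtain ⟨m1, m2, m3⟩ := f.mulQ hv hv'
    have e : a = v * v' := Bas1.extQ f hq (mul_mem hv hv') (by rw [m1, a1, b1, add_zero])
      (by rw [m2, a2, b2, zero_add])
      (by rw [m3, a3, b3, a1, b2, add_zero, add_assoc, CharTwo.add_self_eq_zero, add_zero])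
    rw [e]
    exact mul_mem (mem_sup_left ⟨hv, a2, a1 ▸ h1, fun h => absurd h (not_lt.2 hj)⟩)
      (mem_sup_right ⟨hv', b1, b2 ▸ h2, fun h => absurd h (not_lt.2 hi)⟩)

theorem cmQQ {p q : G} (hp : p ∈ f.Q) (hq : q ∈ f.Q) : ⁅p, q⁆ ∈ f.Z ∧ f.c ⁅p, q⁆ = f.B p q := by
  obtain ⟨h0, h1, h2, h3⟩ := f.cmQ hp.1 hq
  have hi : f.L p⁻¹ = 1 := (inv_mem hp : p⁻¹ ∈ f.Q).2
  rw [hi, vecMul_one, Bas1.aa] at h1 h3
  rw [hp.2, one_mulVec, Bas1.aa] at h2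
  exact ⟨f.mem_Z.2 ⟨h0, h1, h2⟩, by rw [h3, zero_dotProduct, add_zero]; rfl⟩

theorem commQ {p q : G} (hp : p ∈ f.Q) (hq : q ∈ f.Q) : p * q = q * p ↔ f.B p q = 0 := by
  rw [f.comm_iff hp.1 hq.1, hp.2, hq.2, B, CharTwo.add_eq_zero]
  simp only [vecMul_one, one_mulVec, add_comm (f.w p), add_comm (f.u p), true_and]

theorem sqQ {p : G} (hp : p ∈ f.Q) : p * p ∈ f.Z ∧ f.c (p * p) = f.w p ⬝ᵥ f.u p := by
  obtain ⟨m1, m2, m3⟩ := f.mulQ hp hp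
  rw [Bas1.aa] at m1 m2
  exact ⟨f.mem_Z.2 ⟨mul_mem hp hp, m1, m2⟩, by rw [m3, CharTwo.add_self_eq_zero, zero_add]⟩

theorem Bas1.sq {v : G} (hv : v ∈ f.Q) (h : f.w v ⬝ᵥ f.u v = 0) : v * v = 1 := by
  obtain ⟨h1, h2⟩ := f.sqQ hv
  rw [f.mem_Z] at h1
  exact Bas1.extQ f h1.1 (one_mem _) (h1.2.1.trans f.w_one.symm) (h1.2.2.trans f.u_one.symm)
    (by rw [h2, h, f.c_one])

theorem V_sq {v : G} (hv : v ∈ f.V) : v * v = 1 := by
  exact Bas1.sq f hv.1 (by rw [hv.2.1, dotProduct_zero])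

theorem W_sq {v : G} (hv : v ∈ f.W) : v * v = 1 := by
  exact Bas1.sq f hv.1 (by rw [hv.2.1, zero_dotProduct])

theorem I_sq {μ : F} {v : G} (hv : v ∈ f.I μ) : v * v = 1 := by
  refine Bas1.sq f hv.1 ?_
  obtain ⟨-, h0, h1, h2⟩ := hv
  have ne : f.i0 ≠ f.i1 := fun h => absurd (congrArg Fin.val h) Nat.zero_ne_one
  rw [dotProduct, Fintype.sum_eq_add f.i0 f.i1 ne, h0, h1]
  · have two : (2 : F) = 0 := CharTwo.two_eq_zero
    linear_combination (μ * f.w v f.i0 * f.w v f.i1) * two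
  · intro x hx
    have e0 : x.val ≠ 0 := fun e => hx.1 (Fin.ext e)
    have e1 : x.val ≠ 1 := fun e => hx.2 (Fin.ext e)
    rw [h2 x (by omega), mul_zero]

theorem Z_ext {z z' : G} (hz : z ∈ f.Z) (hz' : z' ∈ f.Z) (h : f.c z = f.c z') : z = z' := by
  rw [f.mem_Z] at hz hz'
  exact Bas1.extQ f hz.1 hz'.1 (hz.2.1.trans hz'.2.1.symm) (hz.2.2.trans hz'.2.2.symm) h

theorem Z_cen : f.Z ≤ 𝐂(f.S) := by
  intro z hz
  rw [f.mem_Z] at hz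
  refine mem_centralizer_iff_commute.2 fun s hs => (f.comm_iff hs hz.1.1).2 ?_
  simp [hz.1.2, hz.2.1, hz.2.2]

theorem exQ (x y : Fin n → F) (d : F) : ∃ a ∈ f.Q, f.w a = x ∧ f.u a = y ∧ f.c a = d := by
  exact Bas1.exQ f x y d

theorem exEl {s t : Fin n} (h : s < t) (l : F) : ∃ a, f.El s t l a := by
  obtain ⟨a, ha, e1, e2, e3, -⟩ := f.full (1 + single s t l) (fun i j hij => by
    rw [Matrix.add_apply, single_apply_of_ne, add_zero]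
    rintro ⟨rfl, rfl⟩
    exact absurd h (not_lt.2 hij)) 0 0 0
  exact ⟨a, ha, e1, e2, e3⟩

theorem El.inv {f : Fr G F n} {s t : Fin n} {l : F} {a : G} (h : s < t) (ha : f.El s t l a) :
    f.L a⁻¹ = 1 + single s t l := by
  have e : (1 + single s t l : Matrix (Fin n) (Fin n) F) * (1 + single s t l) = 1 := by
    have z : (single s t l : Matrix (Fin n) (Fin n) F) + single s t l = 0 := by
      ext i j; exact CharTwo.add_self_eq_zero _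
    rw [add_mul, mul_add, mul_add, one_mul, one_mul, mul_one, single_mul_single_of_ne _ _ _ _ h.ne', add_zero,
      add_assoc, z, add_zero]
  have e2 := f.L_inv_mul ha.1
  rw [ha.2.1] at e2
  calc f.L a⁻¹ = f.L a⁻¹ * ((1 + single s t l) * (1 + single s t l)) := by rw [e, mul_one]
    _ = 1 + single s t l := by rw [← mul_assoc, e2, one_mul]

theorem El.cm {f : Fr G F n} {s t : Fin n} {l : F} {a p : G} (h : s < t) (ha : f.El s t l a) (hp : p ∈ f.Q) :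
    f.w ⁅a, p⁆ = Pi.single t (l * f.w p s) ∧ f.u ⁅a, p⁆ = Pi.single s (l * f.u p t) ∧
    f.c ⁅a, p⁆ = l * f.w p s * f.u p t := by
  obtain ⟨-, h1, h2, h3⟩ := f.cmQ ha.1 hp
  have e : f.w p ᵥ* f.L a⁻¹ + f.w p = Pi.single t (l * f.w p s) := by
    rw [ha.inv h, vecMul_add, vecMul_one, add_right_comm, Bas1.aa, zero_add, Bas1.vecMul_single]
  refine ⟨h1.trans e, ?_, ?_⟩
  · rw [h2, ha.2.1, add_mulVec, one_mulVec, add_right_comm, Bas1.aa, zero_add, Bas1.single_mulVec]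
  · rw [h3, e, ha.2.2.1, ha.2.2.2, zero_dotProduct, dotProduct_zero, zero_add, zero_add, single_dotProduct]

theorem decQ {q : G} (hq : q ∈ f.Q) : ∃ v ∈ f.V, ∃ v' ∈ f.W, q = v * v' ∧ f.w v = f.w q ∧ f.u v' = f.u q := by
  obtain ⟨v, hv, a1, a2, a3⟩ := Bas1.exQ f (f.w q) 0 (f.c q + f.w q ⬝ᵥ f.u q)
  obtain ⟨v', hv', b1, b2, b3⟩ := Bas1.exQ f 0 (f.u q) 0
  obtain ⟨m1, m2, m3⟩ := f.mulQ hv hv'
  exact ⟨v, f.mem_V.2 ⟨hv, a2⟩, v', f.mem_W.2 ⟨hv', b1⟩, Bas1.extQ f hq (mul_mem hv hv')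
    (by rw [m1, a1, b1, add_zero]) (by rw [m2, a2, b2, zero_add])
    (by rw [m3, a3, b3, a1, b2, add_zero, add_assoc, CharTwo.add_self_eq_zero, add_zero]), a1, b2⟩

theorem ex_l (f : Fr G F n) : ∃ l : F, l ≠ 0 ∧ l ≠ 1 := by
  classical
  by_contra h
  push Not at h
  have s : (Finset.univ : Finset F) ⊆ {0, 1} := fun l _ => by
    by_cases e : l = 0
    · simp [e]
    · simp [h l e]
  have c := (Finset.card_le_card s).trans Finset.card_le_two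
  have := f.hq
  rw [Finset.card_univ] at c
  omega

/-- `a x = b x²` for all `x` in a set with at least two non-zero elements -/
theorem poly {a b x y : F} (hx : x ≠ 0) (hy : y ≠ 0) (h : x ≠ y) (e1 : a * x = b * x ^ 2)
    (e2 : a * y = b * y ^ 2) : a = 0 ∧ b = 0 := by
  have a1 : a = b * x := mul_right_cancel₀ hx (by rw [e1]; ring)
  have a2 : a = b * y := mul_right_cancel₀ hy (by rw [e2]; ring)
  have b0 : b = 0 := by
    by_contra hb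
    exact h (mul_left_cancel₀ hb (a1.symm.trans a2))
  exact ⟨by rw [a1, b0, zero_mul], b0⟩

end Fr

end H46.Sl
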