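import Cfsg.Agent.Lib.SLM.Bas1

/-! Unitriangular Sylow 2-subgroups, package Bas2: see `blueprint/SLM/README.md`. -/

set_option autoImplicit false
set_option linter.unusedSectionVars false

namespace H46.Sl
open Subgroup H69 Cfsg Matrix
open scoped commutatorElement

namespace Fr
variable {G : Type*} [Group G] [Finite G] {F : Type*} [Field F] [Fintype F] [CharP F 2] {n : ℕ}
  (f : Fr G F n) {E P M : Subgroup G}

theorem Bas2.auto_lemmas : True := by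
  have := @i0.eq_1.{0, 0}; have := @i1.eq_1.{0, 0}; have := @iL.eq_1.{0, 0}
  have := @dual.eq_1.{0, 0}; have := @Q.eq_1.{0, 0}; have := @Vs.eq_1.{0, 0}
  have := @Ws.eq_1.{0, 0}; have := @I.eq_1.{0, 0}; have := @UP.eq_1.{0, 0}
  have := @U.eq_1.{0, 0}; have := @RP.eq_1.{0, 0}; have := @R.eq_1.{0, 0}
  have := @B.eq_1.{0, 0}; have := @El.eq_1.{0, 0}; have := @Ker.eq_1.{0, 0}
  have := @Reg.eq_1.{0, 0}; have := @H1.eq_1.{0, 0}; have := @H2.eq_1.{0, 0}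
  have := @cu.eq_1.{0, 0}; have := @Full.eq_1.{0, 0}; have := @Rg.eq_1.{0, 0}
  have := @V.eq_1.{0, 0}; have := @W.eq_1.{0, 0}; have := @Z.eq_1.{0, 0}
  have := @D.eq_1.{0, 0}; have := @A.eq_1.{0, 0}; have := @Oc.eq_1.{0}
  trivial

theorem Bas2.dg {a : G} (ha : a ∈ f.S) (i : Fin n) : f.L a i i = 1 := by
  rw [f.ut a ha i i le_rfl, one_apply_eq]

theorem Bas2.lo {a : G} (ha : a ∈ f.S) {i j : Fin n} (h : j < i) : f.L a i j = 0 := by
  rw [f.ut a ha i j h.le, one_apply_ne h.ne']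

theorem Bas2.vm {s : G} (hs : s ∈ f.S) (x : Fin n → F) (i : Fin n) (h : ∀ t, t < i → x t = 0) :
    (x ᵥ* f.L s) i = x i := by
  show ∑ t, x t * f.L s t i = x i
  rw [Finset.sum_eq_single i, Bas2.dg f hs, mul_one]
  · intro t _ ht
    rcases lt_or_gt_of_ne ht with e | e
    · rw [h t e, zero_mul]
    · rw [Bas2.lo f hs e, mul_zero]
  · exact fun h => absurd (Finset.mem_univ _) h

theorem Bas2.mv {s : G} (hs : s ∈ f.S) (x : Fin n → F) (i : Fin n) (h : ∀ t, i < t → x t = 0) :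
    (f.L s *ᵥ x) i = x i := by
  show ∑ t, f.L s i t * x t = x i
  rw [Finset.sum_eq_single i, Bas2.dg f hs, one_mul]
  · intro t _ ht
    rcases lt_or_gt_of_ne ht with e | e
    · rw [Bas2.lo f hs e, zero_mul]
    · rw [h t e, mul_zero]
  · exact fun h => absurd (Finset.mem_univ _) h

theorem Bas2.w0 (a : G) (ha : a ∈ f.S) (b : G) (hb : b ∈ f.S) :
    f.w (a * b) f.i0 = f.w a f.i0 + f.w b f.i0 := by
  rw [f.w_mul _ ha _ hb, Pi.add_apply, Bas2.vm f hb _ _ fun t ht => absurd ht (Nat.not_lt_zero _)]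

theorem Bas2.uL (a : G) (ha : a ∈ f.S) (b : G) (hb : b ∈ f.S) :
    f.u (a * b) f.iL = f.u a f.iL + f.u b f.iL := by
  rw [f.u_mul _ ha _ hb, Pi.add_apply, Bas2.mv f ha _ _ fun t ht => absurd ht (by
    have := t.2
    show ¬ n - 1 < t.val
    omega)]

theorem Bas2.Ls {i j : Fin n} (h : i.val + 1 = j.val) (a : G) (ha : a ∈ f.S) (b : G) (hb : b ∈ f.S) :
    f.L (a * b) i j = f.L a i j + f.L b i j := by
  have ne : j ≠ i := fun e => by rw [e] at h; omega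
  rw [f.L_mul _ ha _ hb, mul_apply, Fintype.sum_eq_add j i ne, Bas2.dg f ha, Bas2.dg f hb, mul_one, one_mul]
  intro t ht
  have e1 : t.val ≠ j.val := fun e => ht.1 (Fin.ext e)
  have e2 : t.val ≠ i.val := fun e => ht.2 (Fin.ext e)
  by_cases e : t < i
  · rw [Bas2.lo f ha e, zero_mul]
  · rw [Bas2.lo f hb (show j < t by rw [Fin.lt_def] at e ⊢; omega), mul_zero]

theorem Bas2.cjhom (φ : G → F) (h : ∀ a ∈ f.S, ∀ b ∈ f.S, φ (a * b) = φ a + φ b) {s a : G}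
    (hs : s ∈ f.S) (ha : a ∈ f.S) : φ (s * a * s⁻¹) = φ a := by
  have e := h _ (mul_mem (mul_mem hs ha) (inv_mem hs)) _ hs
  rw [inv_mul_cancel_right, h _ hs _ ha, add_comm] at e
  exact (add_right_cancel e).symm

theorem Bas2.L_eq_one {a : G} (ha : a ∈ f.S) (h : ∀ s t, s < t → f.L a s t = 0) : f.L a = 1 := by
  ext s t
  rcases lt_or_ge s t with e | e
  · rw [h s t e, one_apply_ne e.ne]
  · exact f.ut a ha s t e

theorem Bas2.norm {A : Subgroup G} (h : ∀ s ∈ f.S, ∀ a ∈ A, s * a * s⁻¹ ∈ A) : f.S ≤ 𝐍(A) :=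
  le_normalizer_of_cj_le fun g hg x hx => by
    obtain ⟨a, ha, rfl⟩ := mem_cj'.1 hx
    exact h g hg a ha

theorem Bas2.RL {j : ℕ} {a : G} (ha : f.RP j a) {s t : Fin n} (h : j ≤ s.val ∨ t.val < j) :
    f.L a s t = (1 : Matrix (Fin n) (Fin n) F) s t := by
  rcases lt_or_ge s t with e | e
  · rw [ha.2.2.2 s t e h, one_apply_ne e.ne]
  · exact f.ut a ha.1 s t e

theorem Bas2.Rvm {j : ℕ} {a : G} (ha : f.RP j a) (x : Fin n → F) {t : Fin n} (h : t.val < j) :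
    (x ᵥ* f.L a) t = x t := by
  rw [show x t = (x ᵥ* (1 : Matrix (Fin n) (Fin n) F)) t by rw [vecMul_one]]
  show ∑ s, x s * f.L a s t = ∑ s, x s * (1 : Matrix (Fin n) (Fin n) F) s t
  exact Finset.sum_congr rfl fun s _ => by rw [Bas2.RL f ha (Or.inr h)]

theorem Bas2.Rmv {j : ℕ} {a : G} (ha : f.RP j a) (x : Fin n → F) {t : Fin n} (h : j ≤ t.val) :
    (f.L a *ᵥ x) t = x t := by
  rw [show x t = ((1 : Matrix (Fin n) (Fin n) F) *ᵥ x) t by rw [one_mulVec]]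
  show ∑ s, f.L a t s * x s = ∑ s, (1 : Matrix (Fin n) (Fin n) F) t s * x s
  exact Finset.sum_congr rfl fun s _ => by rw [Bas2.RL f ha (Or.inl h)]

theorem Bas2.Rrow {j : ℕ} {a : G} (ha : f.RP j a) (A : Matrix (Fin n) (Fin n) F) {s : Fin n} (t : Fin n)
    (h : j ≤ s.val) : (f.L a * A) s t = A s t :=
  Bas2.Rmv f ha (fun r => A r t) h

theorem Bas2.Rcol {j : ℕ} {a : G} (ha : f.RP j a) (A : Matrix (Fin n) (Fin n) F) (s : Fin n) {t : Fin n}
    (h : t.val < j) : (A * f.L a) s t = A s t :=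
  Bas2.Rvm f ha (fun r => A s r) h

theorem Bas2.Rw {j : ℕ} {a : G} (ha : f.RP j a) {x : Fin n → F} (h : ∀ i : Fin n, i.val < j → x i = 0) :
    x ᵥ* f.L a = x := by
  ext t
  rw [show x t = (x ᵥ* (1 : Matrix (Fin n) (Fin n) F)) t by rw [vecMul_one]]
  show ∑ s, x s * f.L a s t = ∑ s, x s * (1 : Matrix (Fin n) (Fin n) F) s t
  refine Finset.sum_congr rfl fun s _ => ?_
  rcases lt_or_ge s.val j with e | e
  · rw [h s e, zero_mul, zero_mul]
  · rw [Bas2.RL f ha (Or.inl e)]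

theorem Bas2.Ru {j : ℕ} {a : G} (ha : f.RP j a) {x : Fin n → F} (h : ∀ i : Fin n, j ≤ i.val → x i = 0) :
    f.L a *ᵥ x = x := by
  ext t
  rw [show x t = ((1 : Matrix (Fin n) (Fin n) F) *ᵥ x) t by rw [one_mulVec]]
  show ∑ s, f.L a t s * x s = ∑ s, (1 : Matrix (Fin n) (Fin n) F) t s * x s
  refine Finset.sum_congr rfl fun s _ => ?_
  rcases lt_or_ge s.val j with e | e
  · rw [Bas2.RL f ha (Or.inr e)]
  · rw [h s e, mul_zero, mul_zero]

theorem Bas2.closure_iff {p : G → Prop} (h1 : p 1) (hm : ∀ a b, p a → p b → p (a * b)) {a : G} :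
    a ∈ closure {a | p a} ↔ p a := by
  rw [show {a | p a} = ((sub p h1 hm : Subgroup G) : Set G) from rfl, closure_eq]
  rfl

theorem Bas2.cmVs {j : ℕ} {s v : G} (hs : s ∈ f.S) (hv : v ∈ f.Vs j) : ⁅s, v⁆ ∈ f.Vs (j + 1) := by
  obtain ⟨h0, h1, h2, h3⟩ := f.cmQ hs hv.1
  obtain ⟨-, hu, hw, -⟩ := hv
  refine ⟨h0, by rw [h2, hu, mulVec_zero, add_zero], fun i hi => ?_, fun h => ?_⟩
  · rw [h1, Pi.add_apply, Bas2.vm f (inv_mem hs) _ _ fun t ht => hw t (by rw [Fin.lt_def] at ht; omega),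
      CharTwo.add_self_eq_zero]
  · have e : f.w v = 0 := funext fun t => hw t (by have := t.2; omega)
    simp [h3, hu, e]

theorem Bas2.cmWs {j : ℕ} {s v : G} (hs : s ∈ f.S) (hv : v ∈ f.Ws j) : ⁅s, v⁆ ∈ f.Ws (j + 1) := by
  obtain ⟨h0, h1, h2, h3⟩ := f.cmQ hs hv.1
  obtain ⟨-, hw, hu, -⟩ := hv
  refine ⟨h0, by rw [h1, hw, zero_vecMul, add_zero], fun i hi => ?_, fun h => ?_⟩
  · rw [h2, Pi.add_apply, Bas2.mv f hs _ _ fun t ht => hu t (by rw [Fin.lt_def] at ht; omega),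
      CharTwo.add_self_eq_zero]
  · have e : f.u v = 0 := funext fun t => hu t (by omega)
    simp [h3, hw, e]

theorem Bas2.cj_eq (s v : G) : s * v * s⁻¹ = ⁅s, v⁆ * v := by
  rw [commutatorElement_def, inv_mul_cancel_right]

theorem Bas2.one_of_V {s : G} (h : ∀ v ∈ f.V, f.w v ᵥ* f.L s = f.w v) : f.L s = 1 := by
  refine ext_of_single_vecMul fun i => ?_
  obtain ⟨v, hv, e1, e2, -⟩ := f.exQ (Pi.single i 1) 0 0
  rw [vecMul_one, ← e1]
  exact h v (f.mem_V.2 ⟨hv, e2⟩)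

theorem Bas2.card_par {X : Type*} {T : Subgroup G} (φ : X → (Fin n → F) × (Fin n → F) × F)
    (hφ : Function.Injective φ) (h : ∀ a, a ∈ T ↔ a ∈ f.Q ∧ (f.w a, f.u a, f.c a) ∈ Set.range φ) :
    Nat.card T = Nat.card X := by
  rw [← Nat.card_range_of_injective hφ]
  refine Nat.card_congr (Equiv.ofBijective (fun a => ⟨(f.w a, f.u a, f.c a), ((h a).1 a.2).2⟩) ⟨?_, ?_⟩)
  · intro a b e
    simp only [Subtype.mk.injEq, Prod.mk.injEq] at e
    exact Subtype.ext (Bas1.extQ f ((h a).1 a.2).1 ((h b).1 b.2).1 e.1 e.2.1 e.2.2)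
  · rintro ⟨⟨x, y, d⟩, hz⟩
    obtain ⟨a, ha, rfl, rfl, rfl⟩ := f.exQ x y d
    exact ⟨⟨a, (h a).2 ⟨ha, hz⟩⟩, rfl⟩

theorem Bas2.card_ker {T : Subgroup G} (hT : T ≤ f.Q) {y : G} (hy : y ∈ f.Q) (hs : ∀ l, ∃ a ∈ T, f.B y a = l) :
    Nat.card (T ⊓ centralizer {y} : Subgroup G) * Fintype.card F = Nat.card T := by
  let ψ : T →* Multiplicative F := MonoidHom.mk' (fun a => Multiplicative.ofAdd (f.B y a)) fun a b => by
    obtain ⟨m1, m2, -⟩ := f.mulQ (hT a.2) (hT b.2)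
    rw [← ofAdd_add, coe_mul, B, B, B, m1, m2, dotProduct_add, add_dotProduct, add_add_add_comm]
  have k : ψ.ker = (T ⊓ centralizer {y}).subgroupOf T := by
    ext a
    rw [MonoidHom.mem_ker, mem_subgroupOf, mem_inf, mem_centralizer_singleton_iff, eq_comm (a := (a : G) * y),
      f.commQ hy (hT a.2), and_iff_right a.2]
    rfl
  have r : ψ.range = ⊤ := MonoidHom.range_eq_top.2 fun l => by
    obtain ⟨a, ha, e⟩ := hs l.toAdd
    exact ⟨⟨a, ha⟩, congrArg Multiplicative.ofAdd e⟩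
  rw [← ψ.ker.card_mul_index, index_ker, r, card_top, k,
    Nat.card_congr (subgroupOfEquivOfLe inf_le_left).toEquiv, Nat.card_congr Multiplicative.toAdd,
    Nat.card_eq_fintype_card (α := F)]

theorem Bas2.rinj {x y : Fin n → F} : ((fun i : Fin n => x i.rev) = fun i : Fin n => y i.rev) ↔ x = y :=
  ⟨fun h => funext fun i => by simpa using congrFun h i.rev, fun h => by rw [h]⟩

theorem Bas2.rdot (x y : Fin n → F) : (fun i : Fin n => x i.rev) ⬝ᵥ (fun i : Fin n => y i.rev) = x ⬝ᵥ y :=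
  Fintype.sum_equiv Fin.revPerm _ _ fun k => by simp

theorem Bas2.rvm (A : Matrix (Fin n) (Fin n) F) (x : Fin n → F) :
    (fun i : Fin n => x i.rev) ᵥ* (of fun i j : Fin n => A j.rev i.rev) = fun i : Fin n => (A *ᵥ x) i.rev :=
  funext fun i => Fintype.sum_equiv Fin.revPerm _ _ fun k => by simp [mul_comm]

theorem Bas2.dw {q : G} (hq : q ∈ f.Q) : f.dual.w q = fun i : Fin n => f.u q i.rev := by
  rw [← (f.invQ hq).2.1]; rfl

theorem Bas2.du {q : G} (hq : q ∈ f.Q) : f.dual.u q = fun i : Fin n => f.w q i.rev := by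
  rw [← (f.invQ hq).1]; rfl

theorem Bas2.ker_iff {y q : G} (hy : y ∈ f.S) (hq : q ∈ f.Q) : f.Ker y q ↔ ⁅y, q⁆ ∈ f.Z := by
  obtain ⟨h0, h1, h2, -⟩ := f.cmQ hy hq
  rw [f.mem_Z, and_iff_right h0, h1, h2]
  refine ⟨fun h => ⟨?_, by rw [h.2, Bas1.aa]⟩, fun h => ⟨?_, Bas1.eq_of_add h.2⟩⟩
  · have e : f.w q ᵥ* f.L y⁻¹ = f.w q := by
      conv_lhs => rw [← h.1]
      rw [vecMul_vecMul, f.L_mul_inv hy, vecMul_one]
    rw [e, Bas1.aa]
  · conv_lhs => rw [← Bas1.eq_of_add h.1]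
    rw [vecMul_vecMul, f.L_inv_mul hy, vecMul_one]

theorem mem_U {k : ℕ} {a : G} : a ∈ f.U k ↔ f.UP k a := by
  refine Bas2.closure_iff ⟨one_mem _, fun _ => by simp [f.w_one], fun _ => by simp [f.u_one],
    fun i j hi hj => ?_⟩ fun a b ha hb => ⟨mul_mem ha.1 hb.1, fun h => ?_, fun h => ?_, fun i j hi hj => ?_⟩
  · rw [f.L_one, one_apply_ne fun e => by rw [e] at hi; omega]
  · rw [Bas2.w0 f _ ha.1 _ hb.1, ha.2.1 h, hb.2.1 h, add_zero]
  · rw [Bas2.uL f _ ha.1 _ hb.1, ha.2.2.1 h, hb.2.2.1 h, add_zero]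
  · rw [Bas2.Ls f (hi.trans hj.symm) _ ha.1 _ hb.1, ha.2.2.2 i j hi hj, hb.2.2.2 i j hi hj, add_zero]

theorem mem_R {j : ℕ} {a : G} : a ∈ f.R j ↔ f.RP j a := by
  refine Bas2.closure_iff ⟨one_mem _, fun _ _ => by simp [f.w_one], fun _ _ => by simp [f.u_one],
    fun s t h _ => ?_⟩ fun a b ha hb => ⟨mul_mem ha.1 hb.1, fun i h => ?_, fun i h => ?_, fun s t h e => ?_⟩
  · rw [f.L_one, one_apply_ne h.ne]
  · rw [f.w_mul _ ha.1 _ hb.1, Bas2.Rw f hb ha.2.1, Pi.add_apply, ha.2.1 i h, hb.2.1 i h, add_zero]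
  · rw [f.u_mul _ ha.1 _ hb.1, Bas2.Ru f ha hb.2.2.1, Pi.add_apply, ha.2.2.1 i h, hb.2.2.1 i h, add_zero]
  · rw [f.L_mul _ ha.1 _ hb.1]
    rcases e with e | e
    · rw [Bas2.Rrow f ha _ _ e, hb.2.2.2 s t h (Or.inl e)]
    · rw [Bas2.Rcol f hb _ _ e, ha.2.2.2 s t h (Or.inr e)]

theorem U_le (k : ℕ) : f.U k ≤ f.S := by
  exact fun a ha => (f.mem_U.1 ha).1

theorem U_top : f.U (n + 1) = f.S := by
  exact le_antisymm (f.U_le _) fun a ha => f.mem_U.2 ⟨ha, fun h => absurd h (by omega),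
    fun h => absurd h (by omega), fun i j _ hj => absurd hj (by have := j.2; omega)⟩

theorem R_zero : f.R 0 = f.V := by
  ext a
  rw [f.mem_R, f.mem_V]
  exact ⟨fun h => ⟨⟨h.1, Bas2.L_eq_one f h.1 fun s t e => h.2.2.2 s t e (Or.inl (Nat.zero_le _))⟩,
      funext fun i => h.2.2.1 i (Nat.zero_le _)⟩,
    fun h => ⟨h.1.1, fun i hi => absurd hi (Nat.not_lt_zero _), fun i _ => congrFun h.2 i,
      fun s t e _ => by rw [h.1.2, one_apply_ne e.ne]⟩⟩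

theorem R_n : f.R n = f.W := by
  ext a
  rw [f.mem_R, f.mem_W]
  exact ⟨fun h => ⟨⟨h.1, Bas2.L_eq_one f h.1 fun s t e => h.2.2.2 s t e (Or.inr t.2)⟩,
      funext fun i => h.2.1 i i.2⟩,
    fun h => ⟨h.1.1, fun i _ => congrFun h.2 i, fun i hi => absurd hi (not_le.2 i.2),
      fun s t e _ => by rw [h.1.2, one_apply_ne e.ne]⟩⟩

theorem R_sq {j : ℕ} {a : G} (ha : a ∈ f.R j) : a * a = 1 := by
  rw [f.mem_R] at ha
  have z : ∀ A : Matrix (Fin n) (Fin n) F, A + A = 0 := fun A => by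
    ext i j; exact CharTwo.add_self_eq_zero _
  have hN : (f.L a + 1) * (f.L a + 1) = 0 := by
    ext s t
    rw [mul_apply, Matrix.zero_apply]
    refine Finset.sum_eq_zero fun r _ => ?_
    rw [Matrix.add_apply, Matrix.add_apply]
    rcases lt_or_ge r.val j with e | e
    · rw [Bas2.RL f ha (Or.inr e), CharTwo.add_self_eq_zero, zero_mul]
    · rw [Bas2.RL f ha (s := r) (Or.inl e), CharTwo.add_self_eq_zero, mul_zero]
  refine f.inj _ (mul_mem ha.1 ha.1) _ (one_mem _) ?_ ?_ ?_ ?_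
  · rw [add_mul, mul_add, mul_add, mul_one, one_mul, mul_one, add_assoc, ← add_assoc (f.L a), z, zero_add,
      ← z 1] at hN
    rw [f.L_mul _ ha.1 _ ha.1, f.L_one]
    exact add_right_cancel hN
  · rw [f.w_mul _ ha.1 _ ha.1, Bas2.Rw f ha ha.2.1, Bas1.aa, f.w_one]
  · rw [f.u_mul _ ha.1 _ ha.1, Bas2.Ru f ha ha.2.2.1, Bas1.aa, f.u_one]
  · rw [f.c_mul _ ha.1 _ ha.1, CharTwo.add_self_eq_zero, zero_add, f.c_one]
    refine Finset.sum_eq_zero fun r _ => ?_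
    rcases lt_or_ge r.val j with e | e
    · rw [ha.2.1 r e, zero_mul]
    · rw [ha.2.2.1 r e, mul_zero]

theorem R_le_U {j k : ℕ} (hj : j ≤ n) (h : j ≠ k) : f.R j ≤ f.U k := by
  intro a ha
  rw [f.mem_R] at ha
  have := f.hn
  refine f.mem_U.2 ⟨ha.1, fun e => ha.2.1 _ (show 0 < j by omega),
    fun e => ha.2.2.1 _ (show j ≤ n - 1 by omega), fun s t hs ht => ha.2.2.2 s t ?_ (by omega)⟩
  rw [Fin.lt_def]; omega

theorem Z_le_R {j : ℕ} (h : j ≤ n) : f.Z ≤ f.R j := by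
  have _ := h
  intro a ha
  rw [f.mem_Z] at ha
  exact f.mem_R.2 ⟨ha.1.1, fun i _ => congrFun ha.2.1 i, fun i _ => congrFun ha.2.2 i,
    fun s t e _ => by rw [ha.1.2, one_apply_ne e.ne]⟩

theorem nQ : f.S ≤ 𝐍(f.Q) := by
  exact Bas2.norm f fun s hs a ha => (f.cjQ hs ha).1

theorem nVs (j : ℕ) : f.S ≤ 𝐍(f.Vs j) := by
  exact Bas2.norm f fun s hs a ha => by
    rw [Bas2.cj_eq]; exact mul_mem (f.Vs_anti (Nat.le_succ _) (Bas2.cmVs f hs ha)) ha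

theorem nWs (j : ℕ) : f.S ≤ 𝐍(f.Ws j) := by
  exact Bas2.norm f fun s hs a ha => by
    rw [Bas2.cj_eq]; exact mul_mem (f.Ws_anti (Nat.le_succ _) (Bas2.cmWs f hs ha)) ha

theorem nD (j i : ℕ) : f.S ≤ 𝐍(f.D j i) := by
  exact le_normalizer_sup (f.nVs j) (f.nWs i)

theorem nI (μ : F) : f.S ≤ 𝐍(f.I μ) := by
  refine Bas2.norm f fun s hs a ha => ?_
  obtain ⟨c0, c1, c2, -⟩ := f.cjQ hs ha.1
  obtain ⟨-, h0, h1, h2⟩ := ha
  have ne : f.i0 ≠ f.i1 := fun h => absurd (congrArg Fin.val h) Nat.zero_ne_one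
  have big : ∀ x : Fin n, x ≠ f.i0 ∧ x ≠ f.i1 → 2 ≤ x.val := fun x hx => by
    have e0 : x.val ≠ 0 := fun e => hx.1 (Fin.ext e)
    have e1 : x.val ≠ 1 := fun e => hx.2 (Fin.ext e)
    omega
  have eL : f.L s⁻¹ f.i0 f.i1 = f.L s f.i0 f.i1 := by
    have e := Bas2.Ls f (i := f.i0) (j := f.i1) rfl _ (inv_mem hs) _ hs
    rw [inv_mul_cancel, f.L_one, one_apply_ne ne] at e
    exact CharTwo.add_eq_zero.1 e.symm
  refine ⟨c0, ?_, ?_, fun i hi => ?_⟩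
  · rw [c1, c2]
    show ∑ t, f.L s f.i0 t * f.u a t = μ * ∑ t, f.w a t * f.L s⁻¹ t f.i1
    rw [Fintype.sum_eq_add f.i0 f.i1 ne fun x hx => by rw [h2 x (big x hx), mul_zero],
      Fintype.sum_eq_add f.i0 f.i1 ne fun x hx => by
        rw [Bas2.lo f (inv_mem hs) (show f.i1 < x from big x hx), mul_zero],
      Bas2.dg f hs, Bas2.dg f (inv_mem hs), eL, h0, h1]
    ring
  · rw [c1, c2, Bas2.mv f hs _ _ fun t ht => h2 t ht,
      Bas2.vm f (inv_mem hs) _ _ fun t ht => absurd ht (Nat.not_lt_zero _), h1]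
  · rw [c2, Bas2.mv f hs _ _ fun t ht => h2 t (by rw [Fin.lt_def] at ht; omega), h2 i hi]

theorem nU (k : ℕ) : f.S ≤ 𝐍(f.U k) := by
  refine Bas2.norm f fun s hs a ha => ?_
  rw [f.mem_U] at ha ⊢
  refine ⟨mul_mem (mul_mem hs ha.1) (inv_mem hs), fun h => ?_, fun h => ?_, fun i j hi hj => ?_⟩
  · exact (Bas2.cjhom f (fun a => f.w a f.i0) (Bas2.w0 f) hs ha.1).trans (ha.2.1 h)
  · exact (Bas2.cjhom f (fun a => f.u a f.iL) (Bas2.uL f) hs ha.1).trans (ha.2.2.1 h)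
  · exact (Bas2.cjhom f (fun a => f.L a i j) (Bas2.Ls f (hi.trans hj.symm)) hs ha.1).trans
      (ha.2.2.2 i j hi hj)

theorem nR (j : ℕ) : f.S ≤ 𝐍(f.R j) := by
  refine Bas2.norm f fun s hs a ha => ?_
  rw [f.mem_R] at ha ⊢
  have hi := inv_mem hs
  have hsa := mul_mem hs ha.1
  have hai := mul_mem ha.1 hi
  refine ⟨mul_mem hsa hi, fun i h => ?_, fun i h => ?_, fun p q h e => ?_⟩
  · have k : ∀ t : Fin n, t.val < j → (f.w (s * a) + f.w s) t = 0 := fun t ht => by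
      rw [Pi.add_apply, f.w_mul _ hs _ ha.1, Pi.add_apply, Bas2.Rvm f ha _ ht, ha.2.1 t ht, add_zero,
        CharTwo.add_self_eq_zero]
    rw [f.w_mul _ hsa _ hi, f.w_inv hs, ← add_vecMul, Bas2.vm f hi _ _ fun t ht => k t (lt_trans ht h), k i h]
  · have k : ∀ t : Fin n, j ≤ t.val → (f.u s⁻¹ + f.u (a * s⁻¹)) t = 0 := fun t ht => by
      rw [Pi.add_apply, f.u_mul _ ha.1 _ hi, Pi.add_apply, Bas2.Rmv f ha _ ht, ha.2.2.1 t ht, zero_add,
        CharTwo.add_self_eq_zero]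
    have e := f.u_inv hi
    rw [inv_inv] at e
    rw [mul_assoc, f.u_mul _ hs _ hai, e, ← mulVec_add,
      Bas2.mv f hs _ _ fun t ht => k t (h.trans (le_of_lt ht)), k i h]
  · rw [← one_apply_ne (α := F) h.ne, ← f.L_mul_inv hs]
    rcases e with e | e
    · rw [mul_assoc, f.L_mul _ hs _ hai, f.L_mul _ ha.1 _ hi, mul_apply, mul_apply]
      refine Finset.sum_congr rfl fun r _ => ?_
      rcases lt_or_ge r p with e' | e'
      · rw [Bas2.lo f hs e', zero_mul, zero_mul]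
      · rw [Bas2.Rrow f ha _ _ (e.trans e')]
    · rw [f.L_mul _ hsa _ hi, f.L_mul _ hs _ ha.1, mul_apply, mul_apply]
      refine Finset.sum_congr rfl fun r _ => ?_
      rcases lt_or_ge q r with e' | e'
      · rw [Bas2.lo f hi e', mul_zero, mul_zero]
      · rw [Bas2.Rcol f ha _ _ (lt_of_le_of_lt e' e)]

theorem cmVs {j : ℕ} {s v : G} (hs : s ∈ f.S) (hv : v ∈ f.Vs j) : ⁅s, v⁆ ∈ f.Vs (j + 1) := by
  exact Bas2.cmVs f hs hv

theorem cmWs {j : ℕ} {s v : G} (hs : s ∈ f.S) (hv : v ∈ f.Ws j) : ⁅s, v⁆ ∈ f.Ws (j + 1) := by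
  exact Bas2.cmWs f hs hv

/-- `S` is transitive on the coset `v Vs (j + 1)` -/
theorem orbVs {j : ℕ} {v v' : G} (hv : v ∈ f.Vs j) (hv' : v ∉ f.Vs (j + 1)) (h : v⁻¹ * v' ∈ f.Vs (j + 1)) :
    ∃ s ∈ f.S, s * v * s⁻¹ = v' := by
  rcases le_or_gt n j with hj | hj
  · rw [f.Vs_top (Nat.lt_succ_of_le hj), mem_bot, inv_mul_eq_one] at h
    exact ⟨1, one_mem _, by rw [one_mul, inv_one, mul_one, h]⟩
  obtain ⟨d, rfl⟩ : ∃ d, v' = v * d := ⟨v⁻¹ * v', by rw [mul_inv_cancel_left]⟩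
  rw [inv_mul_cancel_left] at h
  let J : Fin n := ⟨j, hj⟩
  have hJ : f.w v J ≠ 0 := fun e => hv' ⟨hv.1, hv.2.1, fun i hi => by
    rcases Nat.lt_succ_iff_lt_or_eq.1 hi with e' | e'
    · exact hv.2.2.1 i e'
    · rw [show i = J from Fin.ext e']; exact e, fun h => absurd h (by omega)⟩
  obtain ⟨m1, m2, m3⟩ := f.mulQ hv.1 h.1
  obtain ⟨t, ht, eL, -⟩ := f.full (1 + vecMulVec (Pi.single J (f.w v J)⁻¹) (f.w d)) (fun i k hik => by
    rw [Matrix.add_apply, vecMulVec_apply]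
    by_cases e : i = J
    · rw [h.2.2.1 k (by rw [e, Fin.le_def] at hik; exact Nat.lt_succ_of_le hik), mul_zero, add_zero]
    · rw [Pi.single_eq_of_ne e, zero_mul, add_zero]) 0 0 0
  obtain ⟨a0, a1, a2, -⟩ := f.cjQ (inv_mem ht) hv.1
  rw [inv_inv, eL, vecMul_add, vecMul_one, vecMul_vecMulVec, dotProduct_single, mul_inv_cancel₀ hJ,
    one_smul] at a1
  rw [hv.2.1, mulVec_zero] at a2
  obtain ⟨r, hr, r1, r2, -⟩ := f.exQ 0 (Pi.single J ((f.w v J)⁻¹ * (f.c (t⁻¹ * v * t⁻¹⁻¹) + f.c (v * d)))) 0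
  obtain ⟨b0, b1, b2, b3⟩ := f.cjQ hr.1 a0
  have ri : f.L r⁻¹ = 1 := (inv_mem hr : r⁻¹ ∈ f.Q).2
  refine ⟨r * t⁻¹, mul_mem hr.1 (inv_mem ht), ?_⟩
  rw [show r * t⁻¹ * v * (r * t⁻¹)⁻¹ = r * (t⁻¹ * v * t⁻¹⁻¹) * r⁻¹ by group]
  rw [inv_inv] at a2
  refine Bas1.extQ f b0 (mul_mem hv.1 h.1) ?_ ?_ ?_
  · rw [b1, ri, vecMul_one, inv_inv, a1, m1]
  · rw [b2, inv_inv, a2, mulVec_zero, m2, hv.2.1, h.2.1, add_zero]
  · rw [b3, ri, vecMul_one, r1, r2, zero_dotProduct, add_zero, dotProduct_single, inv_inv, a1, Pi.add_apply,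
      h.2.2.1 J (Nat.lt_succ_self j), add_zero, mul_inv_cancel_left₀ hJ, ← add_assoc,
      CharTwo.add_self_eq_zero, zero_add]

theorem cenV : f.S ⊓ 𝐂(f.V) ≤ f.V := by
  rintro s ⟨hs, hc⟩
  have k := fun v (hv : v ∈ f.V) => (f.comm_iff hv.1.1 hs).1 (mem_centralizer_iff_commute.1 hc v hv)
  refine f.mem_V.2 ⟨⟨hs, Bas2.one_of_V f fun v hv => ?_⟩, dotProduct_eq_zero _ fun x => ?_⟩
  · have e := (k v hv).2.1
    rw [hv.1.2, vecMul_one, add_comm (f.w s)] at e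
    exact add_right_cancel e
  · obtain ⟨v, hv, e1, e2, -⟩ := f.exQ x 0 0
    have e := (k v (f.mem_V.2 ⟨hv, e2⟩)).2.2.2
    rwa [e1, e2, dotProduct_zero, dotProduct_comm] at e

theorem cenQ : f.S ⊓ 𝐂(f.Q) ≤ f.Z := by
  rintro s ⟨hs, hc⟩
  have hV := f.mem_V.1 (f.cenV ⟨hs, centralizer_anti (f.Vs_le 0) hc⟩)
  refine f.mem_Z.2 ⟨hV.1, dotProduct_eq_zero _ fun x => ?_, hV.2⟩
  obtain ⟨v, hv, e1, e2, -⟩ := f.exQ 0 x 0
  have e := (f.commQ hv hV.1).1 (mem_centralizer_iff_commute.1 hc v hv)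
  rwa [B, e1, e2, zero_dotProduct, zero_add] at e

theorem modZ {s : G} (hs : s ∈ f.S) (h : ∀ v ∈ f.V, ⁅s, v⁆ ∈ f.Z) : s ∈ f.Q := by
  exact ⟨hs, Bas2.one_of_V f fun v hv => ((Bas2.ker_iff f hs hv.1).2 (h v hv)).1⟩

theorem perpD {j i : ℕ} (hj : j ≤ n) (hi : i ≤ n) : f.Q ⊓ 𝐂(f.D j i) = f.D (n - i) (n - j) := by
  ext a
  rw [mem_inf, f.mem_D (Nat.sub_le _ _) (Nat.sub_le _ _), mem_centralizer_iff_commute]
  refine and_congr_right fun ha => ⟨fun h => ⟨fun t ht => ?_, fun t ht => ?_⟩, fun h d hd => ?_⟩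
  · obtain ⟨d, hd, e1, e2, -⟩ := f.exQ 0 (Pi.single t 1) 0
    have e := (f.commQ hd ha).1 (h d ((f.mem_D hj hi).2 ⟨hd, fun r _ => congrFun e1 r, fun r hr => by
      rw [e2, Pi.single_eq_of_ne fun e => by rw [e] at hr; omega]⟩))
    rwa [B, e1, e2, zero_dotProduct, zero_add, dotProduct_single, mul_one] at e
  · obtain ⟨d, hd, e1, e2, -⟩ := f.exQ (Pi.single t 1) 0 0
    have e := (f.commQ hd ha).1 (h d ((f.mem_D hj hi).2 ⟨hd, fun r hr => by
      rw [e1, Pi.single_eq_of_ne fun e => by rw [e] at hr; omega], fun r _ => congrFun e2 r⟩))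
    rwa [B, e1, e2, dotProduct_zero, add_zero, single_dotProduct, one_mul] at e
  · rw [f.mem_D hj hi] at hd
    have e1 : f.w d ⬝ᵥ f.u a = 0 := Finset.sum_eq_zero fun r _ => by
      rcases lt_or_ge r.val j with e | e
      · rw [hd.2.1 r e, zero_mul]
      · rw [h.2 r (by omega), mul_zero]
    have e2 : f.w a ⬝ᵥ f.u d = 0 := Finset.sum_eq_zero fun r _ => by
      rcases lt_or_ge r.val (n - i) with e | e
      · rw [h.1 r e, zero_mul]
      · rw [hd.2.2 r (by omega), mul_zero]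
    rw [f.commQ hd.1 ha, B, e1, e2, add_zero]

theorem card_Vs {j : ℕ} (h : j ≤ n + 1) : Nat.card (f.Vs j) = Fintype.card F ^ (n + 1 - j) := by
  rcases h.eq_or_lt with rfl | h
  · rw [f.Vs_top (Nat.lt_succ_self n), card_bot, Nat.sub_self, pow_zero]
  have c : Fintype.card {i : Fin n // ¬ i.val < j} = n - j := by
    rw [Fintype.card_subtype_compl, Fintype.card_fin, Fintype.card_subtype, Fin.card_filter_val_lt,
      min_eq_right (by omega)]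
  rw [Bas2.card_par f (X := ({i : Fin n // ¬ i.val < j} → F) × F)
    (fun x => (fun i => if h : ¬ i.val < j then x.1 ⟨i, h⟩ else 0, 0, x.2)) ?_ fun a => ?_]
  · classical
    rw [Nat.card_eq_fintype_card, Fintype.card_prod, Fintype.card_fun, c, ← pow_succ,
      show n - j + 1 = n + 1 - j by omega]
  · intro x y e
    simp only [Prod.mk.injEq] at e
    refine Prod.ext (funext fun i => ?_) e.2.2
    have := congrFun e.1 i
    rwa [dif_pos i.2, dif_pos i.2] at this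
  · refine and_congr_right fun _ => ⟨fun ha => ⟨⟨fun i => f.w a i, f.c a⟩, Prod.ext (funext fun i => ?_)
      (Prod.ext ha.1.symm rfl)⟩, ?_⟩
    · by_cases e : i.val < j
      · exact (dif_neg (not_not.2 e)).trans (ha.2.1 i e).symm
      · exact dif_pos e
    · rintro ⟨x, e⟩
      simp only [Prod.mk.injEq] at e
      exact ⟨e.2.1.symm, fun i hi => by rw [← e.1]; exact dif_neg (not_not.2 hi), fun h' => absurd h' (by omega)⟩

theorem card_Q : Nat.card f.Q = Fintype.card F ^ (2 * n + 1) := by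
  classical
  rw [Bas2.card_par f id Function.injective_id fun a => (and_iff_left ⟨_, rfl⟩).symm, Nat.card_eq_fintype_card,
    Fintype.card_prod, Fintype.card_prod, Fintype.card_fun, Fintype.card_fin]
  ring

theorem card_I (μ : F) : Nat.card (f.I μ) = Fintype.card F ^ (n + 1) := by
  classical
  have ne : f.i1 ≠ f.i0 := fun h => absurd (congrArg Fin.val h) Nat.one_ne_zero
  rw [Bas2.card_par f (X := (Fin n → F) × F)
    (fun x => (x.1, fun i => if i = f.i0 then μ * x.1 f.i1 else if i = f.i1 then μ * x.1 f.i0 else 0, x.2))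
    ?_ fun a => ?_]
  · rw [Nat.card_eq_fintype_card, Fintype.card_prod, Fintype.card_fun, Fintype.card_fin, pow_succ]
  · intro x y e
    simp only [Prod.mk.injEq] at e
    exact Prod.ext e.1 e.2.2
  · refine and_congr_right fun _ => ⟨fun ha => ⟨⟨f.w a, f.c a⟩, Prod.ext rfl
      (Prod.ext (funext fun i => ?_) rfl)⟩, ?_⟩
    · show (if i = f.i0 then μ * f.w a f.i1 else if i = f.i1 then μ * f.w a f.i0 else 0) = f.u a i
      split_ifs with e0 e1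
      · rw [e0, ha.1]
      · rw [e1, ha.2.1]
      · have e0' : i.val ≠ 0 := fun e => e0 (Fin.ext e)
        have e1' : i.val ≠ 1 := fun e => e1 (Fin.ext e)
        exact (ha.2.2 i (by omega)).symm
    · rintro ⟨x, e⟩
      simp only [Prod.mk.injEq] at e
      rw [← e.1, ← e.2.1]
      refine ⟨if_pos rfl, (if_neg ne).trans (if_pos rfl), fun i hi => (if_neg ?_).trans (if_neg ?_)⟩
      · rintro rfl
        exact absurd hi (show ¬ 2 ≤ 0 by omega)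
      · rintro rfl
        exact absurd hi (show ¬ 2 ≤ 1 by omega)

/-- a non-central element of `Q` has a centraliser of index `q` -/
theorem card_cen {y : G} (hy : y ∈ f.Q) (h : y ∉ f.Z) :
    Nat.card (f.Q ⊓ centralizer {y} : Subgroup G) = Fintype.card F ^ (2 * n) := by
  have k := Bas2.card_ker f le_rfl hy fun l => by
    by_cases hw : f.w y = 0
    · obtain ⟨i, hi⟩ := Function.ne_iff.1 fun e : f.u y = 0 => h (f.mem_Z.2 ⟨hy, hw, e⟩)
      obtain ⟨a, ha, e1, e2, -⟩ := f.exQ (Pi.single i (l * (f.u y i)⁻¹)) 0 0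
      exact ⟨a, ha, by rw [B, e1, e2, dotProduct_zero, zero_add, single_dotProduct, inv_mul_cancel_right₀ hi]⟩
    · obtain ⟨i, hi⟩ := Function.ne_iff.1 hw
      obtain ⟨a, ha, e1, e2, -⟩ := f.exQ 0 (Pi.single i ((f.w y i)⁻¹ * l)) 0
      exact ⟨a, ha, by rw [B, e1, e2, zero_dotProduct, add_zero, dotProduct_single, mul_inv_cancel_left₀ hi]⟩
  rw [f.card_Q, pow_succ] at k
  exact Nat.eq_of_mul_eq_mul_right Fintype.card_pos k

theorem card_cenV {d : G} (hd : d ∈ f.W) (h : d ∉ f.Z) :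
    Nat.card (f.V ⊓ centralizer {d} : Subgroup G) = Fintype.card F ^ n := by
  have k := Bas2.card_ker f (f.Vs_le 0) hd.1 fun l => by
    obtain ⟨i, hi⟩ := Function.ne_iff.1 fun e : f.u d = 0 => h (f.mem_Z.2 ⟨hd.1, hd.2.1, e⟩)
    obtain ⟨a, ha, e1, e2, -⟩ := f.exQ (Pi.single i (l * (f.u d i)⁻¹)) 0 0
    exact ⟨a, f.mem_V.2 ⟨ha, e2⟩, by
      rw [B, e1, e2, dotProduct_zero, zero_add, single_dotProduct, inv_mul_cancel_right₀ hi]⟩
  rw [f.card_Vs (Nat.zero_le _), Nat.sub_zero, pow_succ] at k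
  exact Nat.eq_of_mul_eq_mul_right Fintype.card_pos k

theorem card_le_of_W {T : Subgroup G} (h : T ≤ f.Q) (hW : T ⊓ f.W ≤ f.Z) :
    Nat.card T ≤ Fintype.card F ^ (n + 1) := by
  classical
  refine (Nat.card_le_card_of_injective (fun a : T => (f.w a, f.c a)) fun a b e => ?_).trans_eq ?_
  · simp only [Prod.mk.injEq] at e
    obtain ⟨m1, m2, -⟩ := f.mulQ (h a.2) (h b.2)
    rw [e.1, Bas1.aa] at m1
    have z := f.mem_Z.1 (hW ⟨mul_mem a.2 b.2, f.mem_W.2 ⟨mul_mem (h a.2) (h b.2), m1⟩⟩)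
    exact Subtype.ext (Bas1.extQ f (h a.2) (h b.2) e.1 (Bas1.eq_of_add (m2.symm.trans z.2.2)) e.2)
  · rw [Nat.card_eq_fintype_card, Fintype.card_prod, Fintype.card_fun, Fintype.card_fin, pow_succ]

theorem Z_ne : f.Z ≠ ⊥ := by
  intro h
  obtain ⟨a, ha, e1, e2, e3⟩ := f.exQ 0 0 1
  have e : a ∈ f.Z := f.mem_Z.2 ⟨ha, e1, e2⟩
  rw [h, mem_bot] at e
  rw [e, f.c_one] at e3
  exact zero_ne_one e3

theorem V_not_le_W : ¬ f.V ≤ f.W := by
  intro h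
  obtain ⟨a, ha, e1, e2, -⟩ := f.exQ (fun _ => 1) 0 0
  have e := (f.mem_W.1 (h (f.mem_V.2 ⟨ha, e2⟩))).2
  rw [e1] at e
  exact one_ne_zero (congrFun e f.i0)

theorem dual_dual : f.dual.dual = f := by
  obtain ⟨S, L, w, u, c, _⟩ := f
  simp only [dual, Fr.mk.injEq, true_and]
  refine ⟨?_, ?_, ?_, ?_⟩ <;> ext <;> simp

theorem dual_Q : f.dual.Q = f.Q := by
  ext a
  rw [← f.Q.inv_mem_iff, mem_Q, mem_Q, f.S.inv_mem_iff]
  refine and_congr_right fun _ => ⟨fun h => ?_, fun h => ?_⟩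
  · ext i j
    have e : f.L a⁻¹ i.rev.rev j.rev.rev = _ := congrFun (congrFun h j.rev) i.rev
    simpa [one_apply, eq_comm] using e
  · ext i j
    show f.L a⁻¹ j.rev i.rev = _
    simp [h, one_apply, eq_comm]

theorem dual_Vs (j : ℕ) : f.dual.Vs j = f.Ws j := by
  ext a
  rw [← (f.Ws j).inv_mem_iff, mem_Vs, mem_Ws, f.dual_Q, f.Q.inv_mem_iff]
  refine and_congr_right fun _ => and_congr (Bas2.rinj (y := 0)) (and_congr_left fun _ =>
    ⟨fun h i hi => ?_, fun h i hi => h i.rev (by rw [Fin.val_rev]; have := i.2; omega)⟩)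
  have e : f.u a⁻¹ i.rev.rev = 0 := h i.rev (by rw [Fin.val_rev]; have := i.2; omega)
  rwa [Fin.rev_rev] at e

theorem dual_Ws (j : ℕ) : f.dual.Ws j = f.Vs j := by
  have e := f.dual.dual_Vs j
  rw [f.dual_dual] at e
  exact e.symm

theorem dual_Z : f.dual.Z = f.Z := by
  exact (f.dual_Vs n).trans f.Ws_n

theorem Bas2.dual_U {k : ℕ} (h : k ≤ n) : f.U k ≤ f.dual.U (n - k) := by
  intro a ha
  have := f.hn
  obtain ⟨h0, h1, h2, h3⟩ := f.mem_U.1 (inv_mem ha)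
  refine f.dual.mem_U.2 ⟨f.U_le k ha, fun e => ?_, fun e => ?_, fun i j hi hj => ?_⟩
  · exact (congrArg (f.u a⁻¹) (Fin.ext rfl)).trans (h2 (by omega))
  · exact (congrArg (f.w a⁻¹) (Fin.ext (show n - (n - 1 + 1) = 0 by omega))).trans (h1 (by omega))
  · have := j.2
    exact h3 j.rev i.rev (by rw [Fin.val_rev]; omega) (by rw [Fin.val_rev]; omega)

theorem Bas2.dual_R {j : ℕ} (h : j ≤ n) : f.R j ≤ f.dual.R (n - j) := by
  intro a ha
  obtain ⟨h0, h1, h2, h3⟩ := f.mem_R.1 (inv_mem ha)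
  refine f.dual.mem_R.2 ⟨(f.mem_R.1 ha).1, fun i e => ?_, fun i e => ?_, fun s t hi hj => ?_⟩
  · exact h2 i.rev (by rw [Fin.val_rev]; omega)
  · exact h1 i.rev (by rw [Fin.val_rev]; have := i.2; omega)
  · have := s.2
    exact h3 t.rev s.rev (Fin.rev_lt_rev.2 hi) (by rw [Fin.val_rev, Fin.val_rev]; omega)

theorem Bas2.dual_D (j i : ℕ) : f.dual.D j i = f.D i j := by
  show f.dual.Vs j ⊔ f.dual.Ws i = f.Vs i ⊔ f.Ws j
  rw [f.dual_Vs, f.dual_Ws, sup_comm]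

theorem Bas2.dual_line {p y : G} (hp : p ∈ f.Q) (hy : y ∈ f.Q)
    (h : ∃ l : F, f.w p = l • f.w y ∧ f.u p = l • f.u y) :
    ∃ l : F, f.dual.w p = l • f.dual.w y ∧ f.dual.u p = l • f.dual.u y := by
  obtain ⟨l, h1, h2⟩ := h
  rw [Bas2.dw f hp, Bas2.dw f hy, Bas2.du f hp, Bas2.du f hy, h1, h2]
  exact ⟨l, rfl, rfl⟩

theorem dual_U {k : ℕ} (h : k ≤ n) : f.dual.U (n - k) = f.U k := by
  have e := Bas2.dual_U f.dual (Nat.sub_le n k)
  rw [f.dual_dual, Nat.sub_sub_self h] at e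
  exact le_antisymm e (Bas2.dual_U f h)

theorem dual_R {j : ℕ} (h : j ≤ n) : f.dual.R (n - j) = f.R j := by
  have e := Bas2.dual_R f.dual (Nat.sub_le n j)
  rw [f.dual_dual, Nat.sub_sub_self h] at e
  exact le_antisymm e (Bas2.dual_R f h)

theorem dual_Ker {y q : G} (hy : y ∈ f.S) (hq : q ∈ f.Q) : f.dual.Ker y q ↔ f.Ker y q := by
  rw [Bas2.ker_iff f hy hq, Bas2.ker_iff f.dual hy (f.dual_Q.symm ▸ hq), f.dual_Z]

theorem dual_B {p q : G} (hp : p ∈ f.Q) (hq : q ∈ f.Q) : f.dual.B p q = f.B p q := by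
  rw [B, B, Bas2.dw f hp, Bas2.dw f hq, Bas2.du f hp, Bas2.du f hq, Bas2.rdot, Bas2.rdot, add_comm,
    dotProduct_comm (f.u q), dotProduct_comm (f.u p)]

theorem dual_cu {y a b : G} (hy : y ∈ f.S) (h : y * y = 1) (ha : a ∈ f.Q) (hb : b ∈ f.Q) :
    f.dual.cu y b a = f.cu y a b := by
  rw [cu, cu, Bas2.dw f hb, Bas2.du f ha, show f.dual.L y = of fun i j => f.L y⁻¹ j.rev i.rev from rfl,
    Bas2.rvm, add_dotProduct, Bas2.rdot, Bas2.rdot, (f.inv_co hy h).1, add_dotProduct, ← dotProduct_mulVec,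
    dotProduct_comm (f.w a), dotProduct_comm (f.w a)]

theorem Full.dual {f : Fr G F n} (h : f.Full) : f.dual.Full := by
  intro k hk
  have e := f.dual_U (Nat.sub_le n k)
  rw [Nat.sub_sub_self hk] at e
  rw [e]
  exact h _ (Nat.sub_le n k)

theorem Ch.dual {f : Fr G F n} (h : f.Ch) : f.dual.Ch := by
  refine ⟨h.full.dual, fun z hz h1 => ?_, ?_, ?_⟩
  · rw [f.dual_Z] at hz
    show _ ≤ 𝐍(f.dual.Vs 0) ⊓ 𝐍(f.dual.Ws 0)
    rw [f.dual_Vs, f.dual_Ws, inf_comm]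
    exact h.cz z hz h1
  · show 𝐂(f.dual.Vs 0) ≤ f.dual.Vs 0
    rw [f.dual_Vs]; exact h.cW
  · show 𝐂(f.dual.Ws 0) ≤ f.dual.Ws 0
    rw [f.dual_Ws]; exact h.cV

theorem DD.dual {f : Fr G F n} {j i : ℕ} (h : f.DD E P j i) : f.dual.DD E P i j := by
  exact ⟨h.i1, h.in', h.j1, h.jn, f.dual_Vs _ ▸ h.cW, f.dual_Ws _ ▸ h.cV, f.dual_Vs _ ▸ h.nW,
    f.dual_Ws _ ▸ h.nV, f.dual_Vs _ ▸ h.WE, f.dual_Ws _ ▸ h.VE, f.dual_Vs _ ▸ h.PW, f.dual_Ws _ ▸ h.PV⟩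

theorem A1.dual {f : Fr G F n} {j i : ℕ} (h : f.A1 E P M j i) : f.dual.A1 E P M i j := by
  exact ⟨h.me, h.dd.dual, f.dual_Q ▸ h.QE, f.dual_Q ▸ h.nQ, f.dual_Z ▸ h.cZ⟩

theorem Mid.dual {f : Fr G F n} {k : ℕ} (h : f.Mid P M k) : f.dual.Mid P M (n - k) := by
  have h1 := h.k1
  have h2 := h.kn
  refine ⟨by omega, by omega, ?_, ?_⟩
  · rw [f.dual_U h2.le, Nat.sub_sub_self h2.le]
    exact h.a1.dual
  · rw [f.dual_U h2.le, Nat.sub_sub_self h2.le, Bas2.dual_D, Bas2.dual_D]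
    exact h.reg

theorem B1.dual {f : Fr G F n} {x y : G} (h : f.B1 E x y) : f.dual.B1 E x y := by
  refine ⟨h.nE, ?_, ?_, ?_, h.eq, ?_, ?_, ?_, ?_, ?_, ?_⟩
  · rw [f.dual_Z]; exact h.yZ
  · rw [f.dual_Q]; exact h.yQ
  · rw [f.dual_Z]; exact h.y1
  · rw [f.dual_Z]; exact h.zz
  · rw [f.dual_Z, f.dual_Q]
    exact fun p hp => ⟨(h.line p hp).1, Bas2.dual_line f (h.line p hp).1 h.yQ (h.line p hp).2⟩
  · rw [f.dual_Z, f.dual_Q]; exact h.ZI
  · rw [f.dual_Q]; exact h.cU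
  · rw [f.dual_Q]; exact h.sq
  · rw [f.dual_Z, f.dual_Q]
    exact fun p hp e => Bas2.dual_line f hp.1.2 h.yQ (h.fix p hp e)

theorem B2.dual {f : Fr G F n} (h : f.B2 E P M) : f.dual.B2 E P M := by
  refine ⟨h.me, ?_, ?_⟩
  · rw [f.dual_Z]; exact h.nZ
  · rw [f.dual_Z, f.dual_Q]; exact h.out

theorem dual_Rg {y : G} : f.dual.Rg P M y ↔ f.Rg P M y := by
  rw [Rg, Rg, f.dual_Z]

theorem dual_H1 (hE : E ≤ f.S) {y : G} (hy : y ∈ E) : f.dual.H1 E y ↔ f.H2 E y := by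
  show (∃ v ∈ f.dual.Vs 0, _) ↔ _
  rw [f.dual_Vs]
  exact exists_congr fun v => and_congr_right fun hv => and_congr_left fun _ => f.dual_Ker (hE hy) hv.1

theorem dual_H2 (hE : E ≤ f.S) {y : G} (hy : y ∈ E) : f.dual.H2 E y ↔ f.H1 E y := by
  show (∃ v ∈ f.dual.Ws 0, _) ↔ _
  rw [f.dual_Ws]
  exact exists_congr fun v => and_congr_right fun hv => and_congr_left fun _ => f.dual_Ker (hE hy) hv.1

end Fr

end H46.Sl
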