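import Cfsg.Agent.Lib.SLM.TY

/-! Unitriangular Sylow 2-subgroups, package C1a: see `blueprint/SLM/README.md`. -/

set_option autoImplicit false
set_option linter.unusedSectionVars false

namespace H46.Sl
open Subgroup H69 Cfsg Matrix
open scoped commutatorElement

namespace Fr
variable {G : Type*} [Group G] [Finite G] {F : Type*} [Field F] [Fintype F] [CharP F 2] {n : ℕ}
  (f : Fr G F n) {E P M : Subgroup G}

theorem c1a_add (x : Fin n → F) : x + x = 0 := by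
  ext i; exact CharTwo.add_self_eq_zero _

theorem c1a_eq {x y : Fin n → F} : x + y = 0 ↔ x = y :=
  ⟨fun h => by rw [← add_zero x, ← c1a_add y, ← add_assoc, h, zero_add], fun h => h ▸ c1a_add x⟩

theorem c1a_N {A : Subgroup G} {g a : G} (hg : g ∈ 𝐍(A)) (ha : a ∈ A) : g * a * g⁻¹ ∈ A :=
  (mem_normalizer_iff.1 hg a).1 ha

theorem c1a_N' {A : Subgroup G} {g a : G} (hg : g ∈ 𝐍(A)) (ha : a ∈ A) : g⁻¹ * a * g ∈ A := by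
  simpa only [inv_inv] using c1a_N (inv_mem hg) ha

theorem c1a_comm {s p : G} (hs : s ∈ f.S) (hp : p ∈ f.Q) :
    s * p = p * s ↔ f.Ker s p ∧ f.B s p = 0 := by
  rw [f.comm_iff hs (f.Q_le hp), (f.mem_Q.1 hp).2, Ker, B, CharTwo.add_eq_zero]
  simp only [mul_one, one_mul, vecMul_one, one_mulVec, true_and]
  rw [add_comm (f.w s), add_left_inj, add_comm (f.u s), add_left_inj, eq_comm (a := f.w p), and_assoc]

theorem c1a_Z {y q : G} (hE : E ≤ f.S) (hy : y ∈ Yp E) (hq : q ∈ f.Q) : ⁅y, q⁆ ∈ f.Z ↔ f.Ker y q := by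
  obtain ⟨a1, a2, a3, -⟩ := Reg.cm hE hy hq
  rw [f.mem_Z, a2, a3, c1a_eq, c1a_eq]
  exact ⟨fun h => h.2, fun h => ⟨a1, h⟩⟩

theorem c1a_Zc {z s : G} (hz : z ∈ f.Z) (hs : s ∈ f.S) : s * z = z * s := f.Z_cen hz s hs

theorem c1a_ZS : f.Z ≤ f.S ⊓ 𝐂(f.S) := fun _ hz => ⟨f.Q_le (f.Vs_le _ hz), f.Z_cen hz⟩

theorem B2.z0 {f : Fr G F n} (b : f.B2 E P M) {y : G} (hy : f.Rg P M y) (h1 : f.H1 E y) : f.Z ⊓ 𝐂(P) = ⊥ := by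
  have r := (b.reg hy).1
  obtain ⟨x, hx, hM, z, hz, -, rfl⟩ := hy
  refine b.me.z0 f.c1a_ZS b.nZ hz hx hM fun t ht => ?_
  obtain ⟨v, hv, -, n1, e, k⟩ := r.fill b.me.le (f.ZE b.me) h1 ht
  exact ⟨v, ⟨f.Q_le (f.Vs_le _ hv), n1⟩, e, k⟩

theorem Reg.c1a_1 {f : Fr G F n} {y : G} (hE : E ≤ f.S) (r : f.Reg E y) (h1 : f.H1 E y) :
    ∃ α, α ᵥ* f.L y = α ∧ α ⬝ᵥ f.u y ≠ 0 := by
  obtain ⟨v, hv, k, vE⟩ := h1
  refine ⟨f.w v, k.1, fun e => vE ((r.mem hE (f.Vs_le _ hv)).2 ⟨k, ?_⟩)⟩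
  rw [B, e, (f.mem_V.1 hv).2, dotProduct_zero, add_zero]

theorem Reg.c1a_2 {f : Fr G F n} {y : G} (hE : E ≤ f.S) (r : f.Reg E y) (h2 : f.H2 E y) :
    ∃ β, f.L y *ᵥ β = β ∧ f.w y ⬝ᵥ β ≠ 0 := by
  obtain ⟨v, hv, k, vE⟩ := h2
  refine ⟨f.u v, k.2, fun e => vE ((r.mem hE (f.Ws_le _ hv)).2 ⟨k, ?_⟩)⟩
  rw [B, e, (f.mem_W.1 hv).2, zero_dotProduct, add_zero]

theorem Reg.c1a_U {f : Fr G F n} {y : G} (hE : E ≤ f.S) (r : f.Reg E y) {α β : Fin n → F}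
    (ha : α ᵥ* f.L y = α) (hb : f.L y *ᵥ β = β) (h : f.w y ⬝ᵥ β + α ⬝ᵥ f.u y = 0) :
    ∃ p ∈ f.Q, p ∈ E ∧ f.w p = α ∧ f.u p = β := by
  obtain ⟨p, hp, rfl, rfl, -⟩ := f.exQ α β 0
  exact ⟨p, hp, (r.mem hE hp).2 ⟨⟨ha, hb⟩, h⟩, rfl, rfl⟩

theorem B2.kerY {f : Fr G F n} (b : f.B2 E P M) {y : G} (hy : f.Rg P M y) (h1 : f.H1 E y) (h2 : f.H2 E y)
    {s q : G} (hs : s ∈ Yp E) (hq : q ∈ f.Q) (k : f.Ker y q) : f.Ker s q := by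
  have r := (b.reg hy).1
  have hE := b.me.le
  obtain ⟨α, a1, a2⟩ := r.c1a_1 hE h1
  obtain ⟨β, b1, b2⟩ := r.c1a_2 hE h2
  have cm : ∀ p ∈ f.Q, p ∈ E → f.Ker s p := fun p hp pE =>
    ((f.c1a_comm (hE hs.1) hp).1 (hs.2.1 p pE).symm).1
  obtain ⟨p, hp, pE, e1, -⟩ := r.c1a_U hE (β := (f.w q ⬝ᵥ f.u y / f.w y ⬝ᵥ β) • β) k.1
    (by rw [mulVec_smul, b1]) (by
      rw [dotProduct_smul, smul_eq_mul, div_mul_cancel₀ _ b2]; exact CharTwo.add_self_eq_zero _)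
  obtain ⟨p', hp', pE', -, e2⟩ := r.c1a_U hE (α := (f.w y ⬝ᵥ f.u q / α ⬝ᵥ f.u y) • α)
    (by rw [smul_vecMul, a1]) k.2 (by
      rw [smul_dotProduct, smul_eq_mul, div_mul_cancel₀ _ a2]; exact CharTwo.add_self_eq_zero _)
  exact ⟨e1 ▸ (cm p hp pE).1, e2 ▸ (cm p' hp' pE').2⟩

theorem B2.A_ker {f : Fr G F n} (b : f.B2 E P M) {y : G} (hy : f.Rg P M y) (h1 : f.H1 E y) (h2 : f.H2 E y)
    {a : G} (ha : a ∈ f.A E) : f.Ker y a := by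
  have r := (b.reg hy).1
  have me := b.me
  have hE := me.le
  have hZ := f.ZE me
  have z0 := b.z0 hy h1
  have z0' : ∀ z ∈ f.Z, z ∈ 𝐂(P) → z = 1 := fun z hz hc => mem_bot.1 (z0 ▸ mem_inf.2 ⟨hz, hc⟩)
  obtain ⟨x, hx, hM⟩ := me.ex_x
  have nY : P ≤ 𝐍(Yp E) := me.nE.trans (norm_Yp E)
  obtain ⟨⟨t, ht⟩, t1⟩ := ne_bot_iff_exists_ne_one.1 f.Z_ne
  obtain ⟨a1, a1V, k1, n1, -, a1E⟩ := r.fill hE hZ h1 ht
  have a1E := a1E fun e => t1 (Subtype.ext e)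
  have a1Q := f.Vs_le _ a1V
  have a1R : a1 ∈ f.S ⊓ 𝐍(E) := ⟨f.Q_le a1Q, n1⟩
  have cZ : ∀ s ∈ Yp E, ⁅s, a1⁆ ∈ f.Z := fun s hs =>
    (f.c1a_Z hE hs a1Q).2 (b.kerY hy h1 h2 hs a1Q k1)
  have XY : f.Z ^ᶜ x⁻¹ ≤ Yp E := cj_le_of_mem_normalizer hZ (nY (inv_mem hx))
  have X0 : f.Z ^ᶜ x⁻¹ ⊓ centralizer {a1} = ⊥ := by
    rw [eq_bot_iff]
    rintro s ⟨hs, hc⟩
    obtain ⟨z, hz, rfl⟩ := mem_cj'.1 hs
    by_cases zc : z ∈ 𝐂(P)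
    · rw [z0' z hz zc]; simp
    · exact absurd ((me.reg (f.c1a_ZS hz) (hZ hz).2.2 zc (inv_mem hx) (fun h => hM (inv_mem_iff.1 h))).2
        ⟨a1R.1, mem_centralizer_singleton_iff.2 (mem_centralizer_singleton_iff.1 hc).symm⟩) a1E
  have dec : ∀ s ∈ Yp E, ∃ z ∈ f.Z, x * a1 * x⁻¹ * (s * z) = s * z * (x * a1 * x⁻¹) := by
    intro s hs
    have hs' := c1a_N' (nY hx) hs
    obtain ⟨t, ht, e⟩ := rho_dec n1 XY X0 (by rw [card_cj]; exact rho_le n1 cZ) hs'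
    have e1 := Yp_cm_mul hs' (XY ht) n1
    rw [e, (Yp_cm (XY ht) n1).2.2, commutatorElement_eq_one_iff_mul_comm] at e1
    obtain ⟨z, hz, rfl⟩ := mem_cj'.1 ht
    refine ⟨z, hz, ?_⟩
    calc x * a1 * x⁻¹ * (s * z) = x * (a1 * (x⁻¹ * s * x * (x⁻¹ * z * x⁻¹⁻¹))) * x⁻¹ := by group
      _ = _ := by rw [← e1]; group
  by_contra k
  have aQ := (mem_inf.1 ha).1
  have aN := (mem_inf.1 ha).2
  have sY := Yp_cm r.1 aN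
  obtain ⟨z, hz, cz⟩ := dec _ sY
  obtain ⟨v, vV, -, vN, ev, -⟩ := r.fill hE hZ h1 hz
  have vQ := f.Vs_le _ vV
  have e1 : ⁅y, a * v⁆ = ⁅y, a⁆ * z := by
    calc ⁅y, a * v⁆ = ⁅y, a⁆ * (a * ⁅y, v⁆) * a⁻¹ := by simp only [commutatorElement_def]; group
      _ = _ := by rw [ev, f.c1a_Zc hz (f.Q_le aQ)]; group
  have ne : ⁅y, a⁆ * z ≠ 1 := fun e =>
    k ((f.c1a_Z hE r.1 aQ).1 (by rw [eq_inv_of_mul_eq_one_left e]; exact inv_mem hz))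
  have avQ := mul_mem aQ vQ
  have avE : a * v ∉ E := fun e => ne (by
    rw [← e1, commutatorElement_eq_one_iff_mul_comm]; exact (r.1.2.1 _ e).symm)
  obtain ⟨g, gM, ge⟩ := me.inv_conj a1R ⟨f.Q_le avQ, mul_mem aN vN⟩ a1E avE
    (by rw [f.V_sq a1V]; exact one_mem _) (hZ (f.sqQ avQ).1).1
  have gP := me.MP gM
  have z1 := cZ _ (c1a_N' (nY gP) r.1)
  have e2 : g * ⁅g⁻¹ * y * g, a1⁆ * g⁻¹ = ⁅y, a⁆ * z := by
    obtain ⟨e, he⟩ : ∃ e, e = g * a1 * g⁻¹ * (a * v)⁻¹ := ⟨_, rfl⟩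
    rw [← he] at ge
    have c1 : e * y = y * e := r.1.2.1 e ge
    have c2 : e * (⁅y, a⁆ * z) = ⁅y, a⁆ * z * e := (mul_mem sY (hZ hz)).2.1 e ge
    calc g * ⁅g⁻¹ * y * g, a1⁆ * g⁻¹ = y * e * y⁻¹ * ⁅y, a * v⁆ * e⁻¹ := by
          rw [he]; simp only [commutatorElement_def]; group
      _ = e * (⁅y, a⁆ * z) * e⁻¹ := by rw [← c1, e1]; group
      _ = _ := by rw [c2]; group
  generalize ⁅g⁻¹ * y * g, a1⁆ = z' at z1 e2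
  rw [← e2] at cz ne
  have gen : P ≤ centralizer {g * z' * g⁻¹} := by
    refine me.gen gP hx (fun h => hM (by simpa using mul_mem gM h)) a1R a1E (fun s hs => ?_)
      (mem_centralizer_singleton_iff.2 cz)
    obtain ⟨s, hs', rfl⟩ := mem_cj'.1 hs
    rw [mem_centralizer_singleton_iff]
    calc g * s * g⁻¹ * (g * z' * g⁻¹) = g * (s * z') * g⁻¹ := by group
      _ = _ := by rw [f.c1a_Zc z1 hs'.1]; group
  have e3 : g * z' * g⁻¹ = z' := by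
    have := mem_centralizer_singleton_iff.1 (gen gP)
    calc g * z' * g⁻¹ = g⁻¹ * (g * (g * z' * g⁻¹)) := by group
      _ = _ := by rw [this]; group
  rw [e3] at gen ne
  exact ne (z0' z' z1 fun p hp => mem_centralizer_singleton_iff.1 (gen hp))

end Fr

end H46.Sl
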