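import Cfsg.Agent.Lib.SLM.C1a

/-! Unitriangular Sylow 2-subgroups, package C1b: see `blueprint/SLM/README.md`. -/

set_option autoImplicit false
set_option linter.unusedSectionVars false

namespace H46.Sl
open Subgroup H69 Cfsg Matrix
open scoped commutatorElement

namespace Fr
variable {G : Type*} [Group G] [Finite G] {F : Type*} [Field F] [Fintype F] [CharP F 2] {n : ℕ}
  (f : Fr G F n) {E P M : Subgroup G}

theorem c1b_row (x : Fin n → F) (A : Matrix (Fin n) (Fin n) F) : x ᵥ* (A + 1) = x ᵥ* A + x := by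
  rw [vecMul_add, vecMul_one]

theorem c1b_col (x : Fin n → F) (A : Matrix (Fin n) (Fin n) F) : (A + 1) *ᵥ x = A *ᵥ x + x := by
  rw [add_mulVec, one_mulVec]

theorem c1b_add {x y z : Fin n → F} (h : x + y = z) : y = x + z := by
  rw [← h, ← add_assoc, c1a_add, zero_add]

theorem B2.c1b_zero {f : Fr G F n} (b : f.B2 E P M) {y : G} (hy : f.Rg P M y) (h1 : f.H1 E y)
    (h2 : f.H2 E y) {s : G} (hs : s ∈ Yp E) (hq : s ∈ f.Q) {α β : Fin n → F}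
    (e1 : f.w s = α ᵥ* (f.L y + 1)) (e2 : f.u s = (f.L y + 1) *ᵥ β) : s ∈ f.Z := by
  have r := (b.reg hy).1
  obtain ⟨q, qQ, rfl, rfl, -⟩ := f.exQ α β 0
  obtain ⟨-, a2, a3, -⟩ := Reg.cm b.me.le r.1 qQ
  rw [c1b_row] at e1
  rw [c1b_col] at e2
  have k := b.A_ker hy h1 h2 (mem_inf.2 ⟨qQ, r.nrm b.me.le (f.ZE b.me) qQ hs hq (a2.trans e1.symm)
    (a3.trans e2.symm)⟩)
  exact f.mem_Z.2 ⟨hq, by rw [e1, k.1, c1a_add], by rw [e2, k.2, c1a_add]⟩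

theorem B2.YQ {f : Fr G F n} (b : f.B2 E P M) {y : G} (hy : f.Rg P M y) (h1 : f.H1 E y) (h2 : f.H2 E y) :
    Yp E ⊓ f.Q ≤ f.Z := by
  rintro s ⟨hs, hq⟩
  obtain ⟨r, yQ⟩ := b.reg hy
  have hE := b.me.le
  have yS := hE r.1.1
  obtain ⟨N, hN⟩ : ∃ N, N = f.L y + 1 := ⟨_, rfl⟩
  have kr : ∀ {α : Fin n → F}, α ᵥ* N = 0 ↔ α ᵥ* f.L y = α := by
    intro α; rw [hN, c1b_row, c1a_eq]
  have kc : ∀ {α : Fin n → F}, N *ᵥ α = 0 ↔ f.L y *ᵥ α = α := by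
    intro α; rw [hN, c1b_col, c1a_eq]
  let K : Submodule F ((Fin n → F) × (Fin n → F)) :=
    (LinearMap.ker N.vecMulLinear).prod (LinearMap.ker N.mulVecLin)
  have mK : ∀ v, v ∈ K ↔ v.1 ᵥ* N = 0 ∧ N *ᵥ v.2 = 0 := fun v => by simp [K]
  let φ : G → ((Fin n → F) × (Fin n → F) →ₗ[F] F) := fun g =>
    { toFun := fun v => f.w g ⬝ᵥ v.2 + v.1 ⬝ᵥ f.u g
      map_add' := fun v v' => by simp [dotProduct_add, add_dotProduct]; ring
      map_smul' := fun c v => by simp [mul_add] }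
  obtain ⟨κ, hκ⟩ := prop_of_ker K (φ s) (φ y) fun v hv h => by
    obtain ⟨p, pQ, pE, e1, e2⟩ := r.c1a_U hE (kr.1 ((mK v).1 hv).1) (kc.1 ((mK v).1 hv).2) h
    have := ((f.c1a_comm (hE hs.1) pQ).1 (hs.2.1 p pE).symm).2
    rwa [B, e1, e2] at this
  obtain ⟨α, hα⟩ := row_of_perp (N := N) (s := f.w s + κ • f.w y) fun β hβ => by
    have : f.w s ⬝ᵥ β + 0 ⬝ᵥ f.u s = κ * (f.w y ⬝ᵥ β + 0 ⬝ᵥ f.u y) :=
      hκ (0, β) ((mK _).2 ⟨zero_vecMul _, hβ⟩)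
    rw [zero_dotProduct, zero_dotProduct, add_zero, add_zero] at this
    rw [add_dotProduct, smul_dotProduct, this]
    exact CharTwo.add_self_eq_zero _
  obtain ⟨β, hβ⟩ := col_of_perp (N := N) (t := f.u s + κ • f.u y) fun α hα => by
    have : f.w s ⬝ᵥ 0 + α ⬝ᵥ f.u s = κ * (f.w y ⬝ᵥ 0 + α ⬝ᵥ f.u y) :=
      hκ (α, 0) ((mK _).2 ⟨hα, mulVec_zero _⟩)
    rw [dotProduct_zero, dotProduct_zero, zero_add, zero_add] at this
    rw [dotProduct_add, dotProduct_smul, this]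
    exact CharTwo.add_self_eq_zero _
  by_cases k0 : κ = 0
  · rw [k0, zero_smul, add_zero, hN] at hα hβ
    exact b.c1b_zero hy h1 h2 hs hq hα hβ
  exfalso
  have cm : ∀ e ∈ E, N * f.L e = f.L e * N ∧ N *ᵥ f.u e = (f.L e + 1) *ᵥ f.u y := by
    intro e he
    obtain ⟨a1, -, a3, -⟩ := (f.comm_iff (hE he) yS).1 (r.1.2.1 e he)
    refine ⟨by rw [hN, add_mul, mul_add, a1, one_mul, mul_one], ?_⟩
    rw [hN, c1b_col, c1b_col]
    linear_combination c1a_add (f.u e) - c1a_add (f.u y) - a3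
  have N0 : ∃ t : Fin n → F, t ᵥ* N ≠ 0 := by
    by_contra h
    push Not at h
    refine yQ (f.mem_Q.2 ⟨yS, ?_⟩)
    ext i j
    have := congrFun (kr.1 (h (Pi.single i 1))) j
    rw [single_one_vecMul] at this
    simpa [one_apply, Pi.single_apply, eq_comm] using this
  obtain ⟨t, ht⟩ := N0
  obtain ⟨π, ⟨α0, rfl⟩, π0, fx⟩ := ex_fix {x | ∃ a, x = a ᵥ* N} {L | ∃ e ∈ E, L = f.L e}
    (by rintro _ ⟨e, he, rfl⟩; exact f.ut e (hE he))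
    (by
      rintro _ ⟨e, he, rfl⟩ _ ⟨a, rfl⟩
      exact ⟨a ᵥ* f.L e - a, by rw [sub_vecMul, vecMul_vecMul, vecMul_vecMul, (cm e he).1]⟩)
    ⟨t, rfl⟩ ht
  obtain ⟨p, pQ, e1, e2, -⟩ := f.exQ (α0 ᵥ* N) 0 0
  have pc : ∀ e ∈ E, e * p = p * e := by
    intro e he
    have fe := fx _ ⟨e, he, rfl⟩
    refine (f.c1a_comm (hE he) pQ).2 ⟨⟨by rw [e1, fe], by rw [e2, mulVec_zero]⟩, ?_⟩
    rw [B, e1, e2, dotProduct_zero, zero_add, ← dotProduct_mulVec, (cm e he).2]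
    have ks := ((f.c1a_comm (hE he) hq).1 (hs.2.1 e he)).1.2
    have e3 : (f.L e + 1) *ᵥ f.u s = 0 := by rw [c1b_col, ks, c1a_add]
    have e4 : N * (f.L e + 1) = (f.L e + 1) * N := by
      rw [mul_add, add_mul, (cm e he).1, mul_one, one_mul]
    refine (mul_eq_zero.1 ?_).resolve_left k0
    rw [← smul_eq_mul, ← dotProduct_smul, ← mulVec_smul, c1b_add hβ, mulVec_add, e3, zero_add,
      mulVec_mulVec, ← e4, dotProduct_mulVec, ← vecMul_vecMul, c1b_row, fe, c1a_add, zero_dotProduct]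
  have pV : p ∈ f.V := f.mem_V.2 ⟨pQ, e2⟩
  have pY : p ∈ Yp E :=
    ⟨r.2 ⟨f.Q_le pQ, mem_centralizer_singleton_iff.2 (pc y r.1.1).symm⟩, pc, f.V_sq pV⟩
  have := b.c1b_zero hy h1 h2 pY pQ (α := α0) (β := 0) (hN ▸ e1) (by rw [e2, mulVec_zero])
  exact π0 (e1 ▸ (f.mem_Z.1 this).2.1)

theorem B2.c1 {f : Fr G F n} (b : f.B2 E P M) {y : G} (hy : f.Rg P M y) (h1 : f.H1 E y) (h2 : f.H2 E y) : False := by
  have r := (b.reg hy).1
  have me := b.me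
  have hE := me.le
  have hZ := f.ZE me
  have z0 := b.z0 hy h1
  have YQ := b.YQ hy h1 h2
  have nY : P ≤ 𝐍(Yp E) := me.nE.trans (norm_Yp E)
  have nU : E ≤ 𝐍(E ⊓ f.Q) := le_normalizer_inf le_normalizer (hE.trans f.nQ)
  have ti : ∀ x ∈ P, x ∉ M → ∀ c ∈ E ⊓ f.Q, c ∈ (E ⊓ f.Q) ^ᶜ x → c = 1 := by
    intro x hx hM
    have nx := cj_eq_of_mem_normalizer (me.nE hx)
    suffices (E ⊓ f.Q) ⊓ (E ⊓ f.Q) ^ᶜ x = ⊥ from fun c h h' => mem_bot.1 (this ▸ mem_inf.2 ⟨h, h'⟩)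
    by_contra h
    obtain ⟨t, ht, t1, tY⟩ := ex_Yp (me.pS.to_le hE) (inf_le_left.trans inf_le_left)
      (le_normalizer_inf nU (by rw [← cj_normalizer]; exact nx.ge.trans (cj_mono x nU))) h
    have hz : x⁻¹ * t * x ∈ f.Z := YQ ⟨c1a_N' (nY hx) tY, (mem_cj.1 ht.2).2⟩
    have := b.out x hx hM _ hz (by simpa [mul_assoc] using ht.1.2)
    have e : x⁻¹ * t * x = 1 := mem_bot.1 (z0 ▸ mem_inf.2 ⟨hz, this⟩)
    exact t1 (by
      calc t = x * (x⁻¹ * t * x) * x⁻¹ := by group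
        _ = 1 := by rw [e]; group)
  obtain ⟨x, hx, hM⟩ := me.ex_x
  have inv : ∀ a ∈ f.Q, a ∈ 𝐍(E) → a ∉ E → ∀ p ∈ E ⊓ f.Q, a * p * a⁻¹ = p⁻¹ := by
    intro a aQ aN aE
    have UE : (E ⊓ f.Q) ^ᶜ x ≤ E := cj_le_of_mem_normalizer inf_le_left (me.nE hx)
    obtain ⟨o1, o2⟩ := me.out (inv_mem hx) (fun h => hM (inv_mem_iff.1 h)) ⟨f.Q_le aQ, aN⟩ aE
    let φ : ((E ⊓ f.Q) ^ᶜ x : Subgroup G) → (E ⊓ f.Q : Subgroup G) := fun v =>
      ⟨(v : G)⁻¹ * (a * v * a⁻¹), mem_inf.2 ⟨mul_mem (inv_mem (UE v.2)) (c1a_N aN (UE v.2)), by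
        simpa only [mul_assoc] using mul_mem (c1a_N' (f.nQ (hE (UE v.2))) aQ) (inv_mem aQ)⟩⟩
    have inj : Function.Injective φ := by
      intro v v' e
      have e : (v : G)⁻¹ * (a * v * a⁻¹) = (v' : G)⁻¹ * (a * v' * a⁻¹) := congrArg Subtype.val e
      have c1 := mem_cj.1 (mul_mem v'.2 (inv_mem v.2))
      have e2 : a⁻¹ * (v' * (v : G)⁻¹) * a = v' * (v : G)⁻¹ := by
        calc a⁻¹ * (v' * (v : G)⁻¹) * a
            = a⁻¹ * v' * ((v : G)⁻¹ * (a * v * a⁻¹)) * a * (v : G)⁻¹ := by group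
          _ = _ := by rw [e]; group
      have e3 := ti _ o1 o2 _ c1 (mem_cj.2 (by
        rw [show (x⁻¹ * a * x⁻¹⁻¹)⁻¹ * (x⁻¹ * (v' * (v : G)⁻¹) * x) * (x⁻¹ * a * x⁻¹⁻¹) =
          x⁻¹ * (a⁻¹ * (v' * (v : G)⁻¹) * a) * x by group, e2]
        exact c1))
      refine Subtype.ext (mul_inv_eq_one.1 ?_).symm
      calc (v' : G) * (v : G)⁻¹ = x * (x⁻¹ * (v' * (v : G)⁻¹) * x) * x⁻¹ := by group
        _ = 1 := by rw [e3]; group
    have sur := (inj.bijective_of_nat_card_le (card_cj _ _).ge).2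
    intro p hp
    obtain ⟨v, e⟩ := sur ⟨p, hp⟩
    have e : (v : G)⁻¹ * (a * v * a⁻¹) = p := congrArg Subtype.val e
    have c := f.c1a_Zc (f.sqQ aQ).1 (hE (UE v.2))
    rw [← e]
    calc a * ((v : G)⁻¹ * (a * v * a⁻¹)) * a⁻¹ = a * (v : G)⁻¹ * a⁻¹ * (a * a * v) * (a * a)⁻¹ := by group
      _ = _ := by rw [← c]; group
  obtain ⟨l, l0, l1⟩ := f.ex_l
  obtain ⟨t, tQ, t1, t2, t3⟩ := f.exQ 0 0 1
  obtain ⟨t', tQ', t1', t2', t3'⟩ := f.exQ 0 0 l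
  have tZ := f.mem_Z.2 ⟨tQ, t1, t2⟩
  have tZ' := f.mem_Z.2 ⟨tQ', t1', t2'⟩
  obtain ⟨a, aV, -, aN, ea, aE⟩ := r.fill hE hZ h1 tZ
  obtain ⟨a', aV', -, aN', ea', aE'⟩ := r.fill hE hZ h1 tZ'
  have aQ := f.Vs_le _ aV
  have aQ' := f.Vs_le _ aV'
  have aE := aE fun e => one_ne_zero (by rw [← t3, e, f.c_one])
  have aE' := aE' fun e => l0 (by rw [← t3', e, f.c_one])
  have aaE : a * a' ∉ E := fun e => by
    have e1 : ⁅y, a * a'⁆ = t * t' := by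
      calc ⁅y, a * a'⁆ = ⁅y, a⁆ * (a * ⁅y, a'⁆) * a⁻¹ := by simp only [commutatorElement_def]; group
        _ = _ := by rw [ea, ea', f.c1a_Zc tZ' (f.Q_le aQ)]; group
    rw [commutatorElement_eq_one_iff_mul_comm.2 (r.1.2.1 _ e).symm] at e1
    have := (f.mulQ tQ tQ').2.2
    rw [← e1, f.c_one, t3, t3', t1, zero_dotProduct, add_zero] at this
    exact l1 (CharTwo.add_eq_zero.1 this.symm).symm
  have sq : ∀ p ∈ E ⊓ f.Q, p⁻¹ = p := fun p hp => by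
    rw [← inv _ (mul_mem aQ aQ') (mul_mem aN aN') aaE p hp]
    calc a * a' * p * (a * a')⁻¹ = a * (a' * p * a'⁻¹) * a⁻¹ := by group
      _ = p := by rw [inv a' aQ' aN' aE' p hp, inv a aQ aN aE _ (inv_mem hp), inv_inv]
  have cen : ∀ v ∈ f.Q, v ∈ 𝐍(E) → ∀ p ∈ E ⊓ f.Q, v * p = p * v := by
    intro v vQ vN p hp
    by_cases vE : v ∈ E
    · have hv : v ∈ E ⊓ f.Q := ⟨vE, vQ⟩
      rw [← sq _ (mul_mem hv hp), _root_.mul_inv_rev, sq p hp, sq v hv]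
    · calc v * p = v * p * v⁻¹ * v := by group
        _ = _ := by rw [inv v vQ vN vE p hp, sq p hp]
  obtain ⟨α, a1, a2⟩ := r.c1a_1 hE h1
  obtain ⟨β, b1, b2⟩ := r.c1a_2 hE h2
  obtain ⟨p, pQ, pE, -, e2⟩ := r.c1a_U hE (α := (f.w y ⬝ᵥ β / α ⬝ᵥ f.u y) • α)
    (by rw [smul_vecMul, a1]) b1 (by
      rw [smul_dotProduct, smul_eq_mul, div_mul_cancel₀ _ a2]; exact CharTwo.add_self_eq_zero _)
  obtain ⟨β', e⟩ := col_of_perp (N := f.L y + 1) (t := β) fun γ hγ => by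
    obtain ⟨v, vQ, v1, v2, -⟩ := f.exQ γ 0 0
    obtain ⟨-, c2, c3, -⟩ := Reg.cm hE r.1 vQ
    have vN := r.nrm hE hZ vQ (one_mem _) (one_mem _) (by rw [c2, v1, ← c1b_row, hγ, f.w_one])
      (by rw [c3, v2, mulVec_zero, add_zero, f.u_one])
    have := (f.commQ vQ pQ).1 (cen v vQ vN p ⟨pE, pQ⟩)
    rwa [B, v1, v2, e2, dotProduct_zero, add_zero] at this
  refine b2 ?_
  rw [e, dotProduct_mulVec, c1b_row, (f.inv_co (hE r.1.1) r.1.2.2).2.2.1, c1a_add, zero_dotProduct]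

end Fr

end H46.Sl
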