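import Cfsg.Agent.Lib.SLM.C1a

/-! Unitriangular Sylow 2-subgroups, package C2: see `blueprint/SLM/README.md`. -/

set_option autoImplicit false
set_option linter.unusedSectionVars false

namespace H46.Sl
open Subgroup H69 Cfsg Matrix
open scoped commutatorElement

theorem C2_cm_mul {G : Type*} [Group G] (s a b : G) : ⁅s, a * b⁆ = ⁅s, a⁆ * (a * ⁅s, b⁆ * a⁻¹) := by
  simp only [commutatorElement_def]; group

theorem C2_cj {G : Type*} [Group G] (x s a : G) : x * ⁅s, a⁆ * x⁻¹ = ⁅x * s * x⁻¹, x * a * x⁻¹⁆ := by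
  simp only [commutatorElement_def]; group

theorem C2_two {F : Type*} [Field F] [CharP F 2] {n : ℕ} (x : Fin n → F) : x + x = 0 := by
  funext i; exact CharTwo.add_self_eq_zero _

theorem C2_eq {F : Type*} [Field F] [CharP F 2] {n : ℕ} {x y : Fin n → F} (h : x + y = 0) : x = y := by
  rw [← add_zero x, ← C2_two y, ← add_assoc, h, zero_add]

theorem C2_idx {G : Type*} [Group G] [Finite G] {E A B : Subgroup G} (h : A ≤ B)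
    (hi : E.relIndex B ≤ E.relIndex A) {b : G} (hb : b ∈ B) : ∃ a ∈ A, a⁻¹ * b ∈ E := by
  have bij : Function.Bijective (quotientSubgroupOfEmbeddingOfLE E h) :=
    (quotientSubgroupOfEmbeddingOfLE E h).injective.bijective_of_nat_card_le hi
  obtain ⟨q, hq⟩ := bij.2 (QuotientGroup.mk ⟨b, hb⟩)
  obtain ⟨a, rfl⟩ := QuotientGroup.mk_surjective q
  rw [quotientSubgroupOfEmbeddingOfLE_apply_mk, QuotientGroup.eq] at hq
  exact ⟨a, a.2, hq⟩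

namespace Fr
variable {G : Type*} [Group G] [Finite G] {F : Type*} [Field F] [Fintype F] [CharP F 2] {n : ℕ}
  (f : Fr G F n) {E P M : Subgroup G}

theorem B2.C2_ZY {f : Fr G F n} (b : f.B2 E P M) : f.Z ≤ Yp E := fun _ hz =>
  have c : _ ∈ 𝐂(E) := centralizer_anti b.me.le (f.Z_cen hz)
  ⟨b.me.cen ⟨f.Q_le (f.Vs_le _ hz), c⟩, c, f.V_sq (f.Vs_anti (Nat.zero_le _) hz)⟩

theorem C2_V_comm {a b : G} (ha : a ∈ f.V) (hb : b ∈ f.V) : a * b = b * a := by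
  rw [f.commQ (f.Vs_le _ ha) (f.Vs_le _ hb), B, (f.mem_V.1 ha).2, (f.mem_V.1 hb).2]
  simp

theorem C2_cmV {s a : G} (hs : s ∈ f.S) (ha : a ∈ f.V) : ⁅s, a⁆ ∈ f.V := f.Vs_anti (Nat.zero_le _) (f.cmVs hs ha)

/-- `Y ∩ V = [y, A₁]` -/
theorem Reg.C2_X {f : Fr G F n} (hE : E ≤ f.S) (hZ : f.Z ≤ Yp E) {y : G} (h : f.Reg E y) (h1 : f.H1 E y)
    (h2 : ¬ f.H2 E y) {s : G} (hs : s ∈ Yp E) (hV : s ∈ f.V) : ∃ a ∈ f.V ⊓ 𝐍(E), ⁅y, a⁆ = s := by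
  have sQ := f.Vs_le _ hV
  obtain ⟨α, hα⟩ : ∃ α, f.w s = α ᵥ* (f.L y + 1) := by
    apply row_of_perp
    intro β hβ
    obtain ⟨q, hq, e1, e2, -⟩ := f.exQ 0 β 0
    have qE : q ∈ E := by
      by_contra c
      refine h2 ⟨q, f.mem_W.2 ⟨hq, e1⟩, ⟨by rw [e1, zero_vecMul], ?_⟩, c⟩
      rw [add_mulVec, one_mulVec] at hβ
      rw [e2]; exact C2_eq hβ
    have := (f.commQ sQ hq).1 (mem_centralizer_iff_commute.1 hs.2.1 _ qE).symm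
    rwa [B, e1, e2, zero_dotProduct, add_zero] at this
  obtain ⟨a, ha, e1, e2, -⟩ := f.exQ α 0 0
  have aV : a ∈ f.V := f.mem_V.2 ⟨ha, e2⟩
  obtain ⟨m1, m2, m3, -⟩ := Reg.cm hE h.1 ha
  have w1 : f.w ⁅y, a⁆ = f.w s := by rw [m2, e1, hα, vecMul_add, vecMul_one]
  have u1 : f.u ⁅y, a⁆ = f.u s := by rw [m3, e2, (f.mem_V.1 hV).2]; simp
  have aN : a ∈ 𝐍(E) := h.nrm hE hZ ha hs sQ w1 u1
  have tZ : ⁅y, a⁆⁻¹ * s ∈ f.Z := by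
    obtain ⟨i1, i2, -⟩ := f.invQ m1
    obtain ⟨j1, j2, -⟩ := f.mulQ (inv_mem m1) sQ
    exact f.mem_Z.2 ⟨mul_mem (inv_mem m1) sQ, by rw [j1, i1, w1, C2_two], by rw [j2, i2, u1, C2_two]⟩
  obtain ⟨v, hv, -, vN, ev, -⟩ := h.fill hE hZ h1 tZ
  refine ⟨a * v, mul_mem ⟨aV, aN⟩ ⟨hv, vN⟩, ?_⟩
  rw [C2_cm_mul, ev, mem_centralizer_iff_commute.1 (f.Z_cen tZ) _ (f.Q_le ha)]
  group

theorem Reg.C2_card {f : Fr G F n} (hE : E ≤ f.S) (hZ : f.Z ≤ Yp E) {y : G} (h : f.Reg E y) (h1 : f.H1 E y)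
    (h2 : ¬ f.H2 E y) : Nat.card (Yp E ⊓ f.V : Subgroup G) ≤ E.relIndex (f.V ⊓ 𝐍(E)) := by
  let φ : (f.V ⊓ 𝐍(E) : Subgroup G) →* G := MonoidHom.mk' (fun a => ⁅y, (a : G)⁆) fun a b => by
    rw [coe_mul, C2_cm_mul, f.C2_V_comm a.2.1 (f.C2_cmV (hE h.1.1) b.2.1), mul_inv_cancel_right]
  have r : Yp E ⊓ f.V ≤ φ.range := by
    rintro s ⟨hs, hV⟩
    obtain ⟨a, ha, e⟩ := h.C2_X hE hZ h1 h2 hs hV
    exact ⟨⟨a, ha⟩, e⟩
  have k : E.subgroupOf (f.V ⊓ 𝐍(E)) ≤ φ.ker := fun a ha =>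
    commutatorElement_eq_one_iff_mul_comm.2 (mem_centralizer_iff_commute.1 h.1.2.1 _ ha).symm
  refine (card_le_of_le r).trans ?_
  rw [← index_ker]
  exact Nat.le_of_dvd (Nat.pos_of_ne_zero index_ne_zero_of_finite) (index_dvd_of_le k)

theorem B2.c2 {f : Fr G F n} (b : f.B2 E P M) {y : G} (hy : f.Rg P M y) (h1 : f.H1 E y) : f.H2 E y := by
  by_contra h2
  have hE := b.me.le
  have hZ := b.C2_ZY
  have r0 := (b.reg hy).1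
  have all : ∀ y', f.Rg P M y' → f.H1 E y' ∧ ¬ f.H2 E y' := fun y' h' =>
    ⟨r0.h1 hE (b.reg h').1 h1, fun k => h2 ((b.reg h').1.h2 hE r0 k)⟩
  obtain ⟨x, hx, hM⟩ := b.me.ex_x
  obtain ⟨z, hz, hP, -, g'⟩ := b.ex hx hM
  obtain ⟨y', hy'⟩ : ∃ y', y' = x⁻¹ * z * x := ⟨_, rfl⟩
  rw [← hy'] at g'
  have r' := (b.reg g').1
  have cjx : ∀ a, x * ⁅y', a⁆ * x⁻¹ = ⁅z, x * a * x⁻¹⁆ := fun a => by
    rw [C2_cj, hy']; congr 1; group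
  have xY : x ∈ 𝐍(Yp E) := norm_Yp E (b.me.nE hx)
  obtain ⟨a1, ha1, n1⟩ := SetLike.not_le_iff_exists.1 b.nV
  have a1S : a1 ∈ f.S ⊓ 𝐍(E) := ⟨f.Q_le (f.Vs_le _ ha1.1), ha1.2⟩
  have ρ1 : (centralizer {a1}).relIndex (Yp E) ≤ Nat.card (Yp E ⊓ f.V : Subgroup G) :=
    rho_le ha1.2 fun s hs => ⟨Yp_cm hs ha1.2, f.C2_cmV (hE hs.1) ha1.1⟩
  -- `A₂` centralises `X`
  have cen : ∀ a2 ∈ f.W ⊓ 𝐍(E), ∀ s ∈ Yp E ⊓ f.V, s * a2 = a2 * s := by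
    intro a2 ha2 s hs
    by_cases n2 : a2 ∈ E
    · exact (mem_centralizer_iff_commute.1 hs.1.2.1 _ n2).symm
    have a2Q := f.Ws_le _ ha2.1
    have a2S : a2 ∈ f.S ⊓ 𝐍(E) := ⟨f.Q_le a2Q, ha2.2⟩
    have key : ∀ t ∈ (Yp E ⊓ f.V) ^ᶜ x, ⁅t, a2⁆ ∈ f.Z → t = 1 := by
      intro t ht hc
      obtain ⟨s', hs', rfl⟩ := mem_cj'.1 ht
      obtain ⟨a, ha, rfl⟩ := r'.C2_X hE hZ (all _ g').1 (all _ g').2 hs'.1 hs'.2
      by_cases aE : a ∈ E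
      · rw [commutatorElement_eq_one_iff_mul_comm.2 (mem_centralizer_iff_commute.1 r'.1.2.1 _ aE).symm]
        simp
      exfalso
      obtain ⟨y'', g'', e1, -, e3⟩ := b.gam hx hM hz hP ⟨f.Q_le (f.Vs_le _ ha.1), ha.2⟩ aE
      rw [cjx, e1, e3 _ a2S.1] at hc
      obtain ⟨-, -, m3, -⟩ := Reg.cm hE (b.reg g'').1.1 a2Q
      rw [(f.mem_Z.1 hc).2.2] at m3
      exact (all _ g'').2 ⟨a2, ha2.1, ⟨by rw [(f.mem_W.1 ha2.1).2, zero_vecMul], C2_eq m3.symm⟩, n2⟩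
    have ρ2 : (centralizer {a2}).relIndex (Yp E) ≤ Nat.card ((Yp E ⊓ f.V) ^ᶜ x) := by
      rw [card_cj, b.me.rho a2S a1S n2 n1 (by rw [f.W_sq ha2.1]; exact one_mem _)
        (by rw [f.V_sq ha1.1]; exact one_mem _)]
      exact ρ1
    obtain ⟨t, ht, e⟩ := rho_dec ha2.2 (cj_le_of_mem_normalizer inf_le_left xY) (by
      rw [eq_bot_iff]
      rintro t ⟨ht, hc⟩
      refine key t ht ?_
      rw [commutatorElement_eq_one_iff_mul_comm.2 (mem_centralizer_singleton_iff.1 hc)]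
      exact one_mem _) ρ2 hs.1
    have := key t ht (e ▸ (f.cmQQ (f.Vs_le _ hs.2) a2Q).1)
    rw [this, commutatorElement_one_left] at e
    exact commutatorElement_eq_one_iff_mul_comm.1 e
  have cu0 : ∀ a ∈ f.V ⊓ 𝐍(E), ∀ a' ∈ f.W ⊓ 𝐍(E), (f.w a ᵥ* f.L y' + f.w a) ⬝ᵥ f.u a' = 0 := by
    intro a ha a' ha'
    obtain ⟨m1, m2, -, -⟩ := Reg.cm hE r'.1 (f.Vs_le _ ha.1)
    have := (f.commQ m1 (f.Ws_le _ ha'.1)).1
      (cen a' ha' _ ⟨Yp_cm r'.1 ha.2, f.C2_cmV (hE r'.1.1) ha.1⟩)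
    rwa [B, m2, (f.mem_W.1 ha'.1).2, zero_dotProduct, add_zero] at this
  have mult : ∀ p ∈ f.A E, ∀ q ∈ f.A E, ⁅y', p * q⁆ = ⁅y', p⁆ * ⁅y', q⁆ := by
    intro p hp q hq
    obtain ⟨p1, hp1, p2, hp2, -, e1, e2⟩ := r'.split hE (all _ g').2 hp
    obtain ⟨q1, hq1, q2, hq2, -, e3, e4⟩ := r'.split hE (all _ g').2 hq
    obtain ⟨m1, m2, m3, -⟩ := Reg.cm hE r'.1 hq.1
    have : p * ⁅y', q⁆ = ⁅y', q⁆ * p := by
      rw [f.commQ hp.1 m1, B, m2, m3, ← e1, ← e2, ← e3, ← e4, cu0 q1 hq1 p2 hp2, add_zero, dotProduct_add,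
        dotProduct_mulVec, ← add_dotProduct]
      exact cu0 p1 hp1 q2 hq2
    rw [C2_cm_mul, this, mul_inv_cancel_right]
  have ρ3 : E.relIndex (f.A E) ≤ (centralizer {a1}).relIndex (Yp E) := by
    refine rho_ge (fun p => x * ⁅y', p⁆ * x⁻¹) (fun p hp => conj_mem_of_mem_normalizer xY (Yp_cm r'.1 hp.2))
      (fun p hp q hq => by simp only [mult p hp q hq]; group) fun p hp c => ?_
    by_contra pE
    obtain ⟨y'', g'', e1, -, e3⟩ := b.gam hx hM hz hP ⟨f.Q_le hp.1, hp.2⟩ pE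
    have c' := commutatorElement_eq_one_iff_mul_comm.2 c
    rw [cjx, e1, e3 _ a1S.1] at c'
    exact n1 ((b.reg g'').1.2 ⟨a1S.1, mem_centralizer_singleton_iff.2
      (commutatorElement_eq_one_iff_mul_comm.1 c').symm⟩)
  obtain ⟨a2, ha2, n2⟩ := SetLike.not_le_iff_exists.1 b.nW
  have a2Q := f.Ws_le _ ha2.1
  obtain ⟨a, ha, e⟩ := C2_idx (inf_le_inf_right _ (f.Vs_le 0))
    (ρ3.trans (ρ1.trans (r0.C2_card hE hZ h1 h2))) (b := a2) ⟨a2Q, ha2.2⟩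
  have aQ := f.Vs_le _ ha.1
  have k := ((r0.mem hE (mul_mem (inv_mem aQ) a2Q)).1 e).1.2
  rw [(f.mulQ (inv_mem aQ) a2Q).2.1, (f.invQ aQ).2.1, (f.mem_V.1 ha.1).2, zero_add] at k
  exact h2 ⟨a2, ha2.1, ⟨by rw [(f.mem_W.1 ha2.1).2, zero_vecMul], k⟩, n2⟩

end Fr

end H46.Sl
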