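import Cfsg.Agent.Lib.SLM.TY
import Cfsg.Agent.Lib.SLM.GC

/-! Unitriangular Sylow 2-subgroups, package C3a: see `blueprint/SLM/README.md`. -/

set_option autoImplicit false
set_option linter.unusedSectionVars false

namespace H46.Sl
open Subgroup H69 Cfsg Matrix
open scoped commutatorElement

namespace Fr
variable {G : Type*} [Group G] [Finite G] {F : Type*} [Field F] [Fintype F] [CharP F 2] {n : ℕ}
  (f : Fr G F n) {E P M : Subgroup G}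

theorem C3a_vv (x : Fin n → F) : x + x = 0 := by
  ext i; simp [CharTwo.add_self_eq_zero]

theorem C3a_mm (x : Matrix (Fin n) (Fin n) F) : x + x = 0 := by
  ext i j; simp [CharTwo.add_self_eq_zero]

theorem C3a_eq {x y : Fin n → F} : x + y = 0 ↔ x = y := by
  constructor
  · intro h
    have : x + y + y = y := by rw [h, zero_add]
    rwa [add_assoc, C3a_vv, add_zero] at this
  · rintro rfl; exact C3a_vv x

theorem C3a_row (L : Matrix (Fin n) (Fin n) F) (x : Fin n → F) : x ᵥ* (L + 1) = x ᵥ* L + x := by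
  rw [vecMul_add, vecMul_one]

theorem C3a_col (L : Matrix (Fin n) (Fin n) F) (x : Fin n → F) : (L + 1) *ᵥ x = L *ᵥ x + x := by
  rw [add_mulVec, one_mulVec]

/-- the elements of `V` and `W` in the kernel -/
theorem C3a_kerV (y : G) {x : Fin n → F} (h : x ᵥ* (f.L y + 1) = 0) : ∃ v ∈ f.V, f.Ker y v ∧ f.w v = x := by
  obtain ⟨a, ha, e1, e2, -⟩ := f.exQ x 0 0
  rw [C3a_row, C3a_eq] at h
  exact ⟨a, f.mem_V.2 ⟨ha, e2⟩, ⟨by rw [e1, h], by rw [e2, mulVec_zero]⟩, e1⟩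

theorem C3a_kerW (y : G) {x : Fin n → F} (h : (f.L y + 1) *ᵥ x = 0) : ∃ v ∈ f.W, f.Ker y v ∧ f.u v = x := by
  obtain ⟨a, ha, e1, e2, -⟩ := f.exQ 0 x 0
  rw [C3a_col, C3a_eq] at h
  exact ⟨a, f.mem_W.2 ⟨ha, e1⟩, ⟨by rw [e1, zero_vecMul], by rw [e2, h]⟩, e2⟩

/-- kernel type: `Y ∩ Q = [y, A] Z` -/
theorem Reg.YQ {f : Fr G F n} (hE : E ≤ f.S) (hZ : f.Z ≤ Yp E) {y : G} (h : f.Reg E y) (h1 : ¬ f.H1 E y)
    (h2 : ¬ f.H2 E y) {s : G} (hs : s ∈ Yp E) (hQ : s ∈ f.Q) : ∃ a ∈ f.V ⊓ 𝐍(E), ∃ a' ∈ f.W ⊓ 𝐍(E),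
    f.w s = f.w a ᵥ* f.L y + f.w a ∧ f.u s = f.L y *ᵥ f.u a' + f.u a' := by
  have hB : ∀ q ∈ f.Q, f.Ker y q → f.B q s = 0 := fun q hq hk =>
    (f.commQ hq hQ).1 (hs.2.1 q ((h.kt hE h1 h2 hq).2 hk))
  obtain ⟨α, hα⟩ := row_of_perp (N := f.L y + 1) (s := f.w s) fun b hb => by
    obtain ⟨v, hv, hk, rfl⟩ := f.C3a_kerW y hb
    have := hB v (f.mem_W.1 hv).1 hk
    rwa [B, (f.mem_W.1 hv).2, zero_dotProduct, zero_add] at this
  obtain ⟨β, hβ⟩ := col_of_perp (N := f.L y + 1) (t := f.u s) fun b hb => by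
    obtain ⟨v, hv, hk, rfl⟩ := f.C3a_kerV y hb
    have := hB v (f.mem_V.1 hv).1 hk
    rwa [B, (f.mem_V.1 hv).2, dotProduct_zero, add_zero] at this
  obtain ⟨q, hq, e1, e2, -⟩ := f.exQ α β 0
  obtain ⟨-, c1, c2, -⟩ := Reg.cm (f := f) hE h.1 hq
  rw [C3a_row] at hα
  rw [C3a_col] at hβ
  have hn := h.nrm hE hZ hq hs hQ (by rw [c1, e1, hα]) (by rw [c2, e2, hβ])
  obtain ⟨a, ha, a', ha', -, e3, e4⟩ := h.split hE h2 (b := q) ⟨hq, hn⟩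
  exact ⟨a, ha, a', ha', by rw [e3, e1, hα], by rw [e4, e2, hβ]⟩

/-- kernel type: an element moving `y` inside `y (Y ∩ Q)` -/
theorem Reg.inA {f : Fr G F n} (hE : E ≤ f.S) (hZ : f.Z ≤ Yp E) {y : G} (h : f.Reg E y) (h1 : ¬ f.H1 E y)
    (h2 : ¬ f.H2 E y) {r : G} (hr : r ∈ f.S ⊓ 𝐍(E)) (hQ : ⁅y, r⁆ ∈ f.Q) : ∃ a ∈ f.A E, a⁻¹ * r ∈ E := by
  obtain ⟨a1, ha1, a2, ha2, e1, e2⟩ := h.YQ hE hZ h1 h2 (Yp_cm h.1 hr.2) hQ
  have q1 := f.mem_V.1 ha1.1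
  have q2 := f.mem_W.1 ha2.1
  have hyS : y ∈ f.S := hE h.1.1
  have ha : a1 * a2 ∈ f.Q := mul_mem q1.1 q2.1
  obtain ⟨m1, m2, -⟩ := f.mulQ q1.1 q2.1
  rw [q2.2, add_zero] at m1
  rw [q1.2, zero_add] at m2
  refine ⟨a1 * a2, ⟨ha, mul_mem ha1.2 ha2.2⟩, ?_⟩
  rw [← m1] at e1
  rw [← m2] at e2
  generalize a1 * a2 = a at *
  obtain ⟨c0, c1, c2, -⟩ := Reg.cm (f := f) hE h.1 ha
  -- `z = ⁅y, a⁆⁻¹ ⁅y, r⁆`
  obtain ⟨i1, i2, -⟩ := f.invQ c0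
  obtain ⟨k1, k2, -⟩ := f.mulQ (inv_mem c0) hQ
  have hz : ⁅y, a⁆⁻¹ * ⁅y, r⁆ ∈ f.Z := f.mem_Z.2 ⟨mul_mem (inv_mem c0) hQ,
    by rw [k1, i1, c1, e1, C3a_vv], by rw [k2, i2, c2, e2, C3a_vv]⟩
  have haS : a ∈ f.S := f.Q_le ha
  have hρ : a⁻¹ * r ∈ f.S := mul_mem (inv_mem haS) hr.1
  have yy : y⁻¹ = y := inv_eq_of_mul_eq_one_right h.1.2.2
  have key : a⁻¹ * r * y = y * (⁅y, a⁆⁻¹ * ⁅y, r⁆) * (a⁻¹ * r) := by
    have hc := f.Z_cen hz a⁻¹ (inv_mem haS)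
    rw [mul_assoc y, ← mul_assoc _ a⁻¹ r, ← hc]
    simp only [commutatorElement_def, yy, _root_.mul_inv_rev, inv_inv]
    calc a⁻¹ * r * y = y * y * a⁻¹ * (y * y) * r * y := by rw [h.1.2.2]; group
      _ = _ := by group
  generalize ⁅y, a⁆⁻¹ * ⁅y, r⁆ = z at hz key
  generalize a⁻¹ * r = ρ at hρ key ⊢
  obtain ⟨zQ, zw, zu⟩ := f.mem_Z.1 hz
  have hzS : z ∈ f.S := f.Q_le zQ
  have hyz : y * z ∈ f.S := mul_mem hyS hzS
  have l0 : f.L (y * z) = f.L y := by rw [f.L_mul _ hyS _ hzS, zQ.2, mul_one]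
  have w0 : f.w (y * z) = f.w y := by rw [f.w_mul _ hyS _ hzS, zQ.2, zw, vecMul_one, add_zero]
  have u0 : f.u (y * z) = f.u y := by rw [f.u_mul _ hyS _ hzS, zu, mulVec_zero, add_zero]
  have c0' : f.c (y * z) = f.c y + f.c z := by rw [f.c_mul _ hyS _ hzS, zu, dotProduct_zero, add_zero]
  have kL := congrArg f.L key
  have kw := congrArg f.w key
  have ku := congrArg f.u key
  have kc := congrArg f.c key
  rw [f.L_mul _ hρ _ hyS, f.L_mul _ hyz _ hρ, l0] at kL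
  rw [f.w_mul _ hρ _ hyS, f.w_mul _ hyz _ hρ, w0] at kw
  rw [f.u_mul _ hρ _ hyS, f.u_mul _ hyz _ hρ, l0, u0] at ku
  rw [f.c_mul _ hρ _ hyS, f.c_mul _ hyz _ hρ, c0', w0] at kc
  have hB : ∀ q ∈ f.Q, f.Ker y q → f.B y q = 0 := fun q hq hk =>
    ((h.mem hE hq).1 ((h.kt hE h1 h2 hq).2 hk)).2
  obtain ⟨α, hα⟩ := row_of_perp (N := f.L y + 1) (s := f.w y) fun b hb => by
    obtain ⟨v, hv, hk, rfl⟩ := f.C3a_kerW y hb
    have := hB v (f.mem_W.1 hv).1 hk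
    rwa [B, (f.mem_W.1 hv).2, zero_dotProduct, add_zero] at this
  obtain ⟨β, hβ⟩ := col_of_perp (N := f.L y + 1) (t := f.u y) fun b hb => by
    obtain ⟨v, hv, hk, rfl⟩ := f.C3a_kerV y hb
    have := hB v (f.mem_V.1 hv).1 hk
    rwa [B, (f.mem_V.1 hv).2, dotProduct_zero, zero_add] at this
  have jw : f.w ρ ᵥ* (f.L y + 1) = f.w y ᵥ* (f.L ρ + 1) := by
    rw [C3a_row, C3a_row, ← C3a_eq]
    calc _ = (f.w ρ ᵥ* f.L y + f.w y) + (f.w y ᵥ* f.L ρ + f.w ρ) := by abel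
      _ = 0 := by rw [kw, C3a_vv]
  have ju : (f.L y + 1) *ᵥ f.u ρ = (f.L ρ + 1) *ᵥ f.u y := by
    rw [C3a_col, C3a_col, ← C3a_eq]
    calc _ = (f.u ρ + f.L ρ *ᵥ f.u y) + (f.u y + f.L y *ᵥ f.u ρ) := by abel
      _ = 0 := by rw [ku, C3a_vv]
  have jL : (f.L y + 1) * (f.L ρ + 1) = (f.L ρ + 1) * (f.L y + 1) := by
    simp only [mul_add, add_mul, mul_one, one_mul, kL]; abel
  have d : f.w ρ ⬝ᵥ f.u y = f.w y ⬝ᵥ f.u ρ := by
    calc f.w ρ ⬝ᵥ f.u y = (f.w ρ ᵥ* (f.L y + 1)) ⬝ᵥ β := by rw [← dotProduct_mulVec, ← hβ]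
      _ = (α ᵥ* ((f.L y + 1) * (f.L ρ + 1))) ⬝ᵥ β := by rw [jw, ← vecMul_vecMul, ← hα]
      _ = α ⬝ᵥ ((f.L ρ + 1) *ᵥ f.u y) := by rw [jL, ← dotProduct_mulVec, ← mulVec_mulVec, ← hβ]
      _ = f.w y ⬝ᵥ f.u ρ := by rw [← ju, dotProduct_mulVec, ← hα]
  have z1 : z = 1 := f.Z_ext hz (one_mem _) (by rw [f.c_one]; rw [d] at kc; linear_combination -kc)
  rw [z1, mul_one] at key
  exact h.2 ⟨hρ, mem_centralizer_singleton_iff.2 key⟩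

/-- kernel type: the multiples of `y` -/
theorem Reg.smul {f : Fr G F n} (hE : E ≤ f.S) {y : G} (h : f.Reg E y) (t : F) : ∃ s ∈ Yp E,
    f.L s + 1 = t • (f.L y + 1) ∧ f.w s = t • f.w y ∧ f.u s = t • f.u y := by
  have hyS : y ∈ f.S := hE h.1.1
  obtain ⟨s, hs, e1, e2, e3, -⟩ := f.full (t • (f.L y + 1) + 1) (fun i j hij => by
    simp [f.ut y hyS i j hij, CharTwo.add_self_eq_zero]) (t • f.w y) (t • f.u y) 0
  have hc : s ∈ 𝐂(E) := fun e he => by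
    have heS : e ∈ f.S := hE he
    obtain ⟨k1, k2, k3, k4⟩ := (f.comm_iff heS hyS).1 (h.1.2.1 e he)
    refine (f.comm_iff heS hs).2 ⟨?_, ?_, ?_, ?_⟩
    · rw [e1]; simp only [mul_add, add_mul, mul_one, one_mul, Matrix.mul_smul, Matrix.smul_mul, k1]
    · have k : f.w e ᵥ* (f.L y + 1) = f.w y ᵥ* f.L e + f.w y := by
        rw [C3a_row, ← C3a_eq]
        calc _ = (f.w e ᵥ* f.L y + f.w y) + (f.w y ᵥ* f.L e + f.w e) := by abel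
          _ = 0 := by rw [k2, C3a_vv]
      rw [e1, e2, C3a_row, vecMul_smul, k, smul_add, smul_vecMul, ← C3a_eq]
      calc _ = (t • f.w y ᵥ* f.L e + t • f.w y ᵥ* f.L e) + (t • f.w y + t • f.w y) + (f.w e + f.w e) := by abel
        _ = 0 := by simp only [C3a_vv, add_zero]
    · have k : (f.L y + 1) *ᵥ f.u e = f.L e *ᵥ f.u y + f.u y := by
        rw [C3a_col, ← C3a_eq]
        calc _ = (f.u e + f.L e *ᵥ f.u y) + (f.u y + f.L y *ᵥ f.u e) := by abel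
          _ = 0 := by rw [k3, C3a_vv]
      rw [e1, e3, C3a_col, smul_mulVec, k, smul_add, mulVec_smul, ← C3a_eq]
      calc _ = (t • f.L e *ᵥ f.u y + t • f.L e *ᵥ f.u y) + (t • f.u y + t • f.u y) + (f.u e + f.u e) := by abel
        _ = 0 := by simp only [C3a_vv, add_zero]
    · rw [e2, e3, dotProduct_smul, smul_dotProduct, k4]
  obtain ⟨-, i1, i2, i3, i4⟩ := f.inv_co hyS h.1.2.2
  have nn : (f.L y + 1) * (f.L y + 1) = 0 := by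
    calc _ = (f.L y * f.L y + 1) + (f.L y + f.L y) := by simp only [mul_add, add_mul, mul_one, one_mul]; abel
      _ = 0 := by rw [i1, C3a_mm, C3a_mm, add_zero]
  refine ⟨s, ⟨h.2 ⟨hs, mem_centralizer_singleton_iff.2 (hc y h.1.1).symm⟩, hc, ?_⟩,
    by rw [e1, add_assoc, C3a_mm, add_zero], e2, e3⟩
  refine f.inj _ (mul_mem hs hs) _ (one_mem _) ?_ ?_ ?_ ?_
  · rw [f.L_mul _ hs _ hs, e1, f.L_one]
    calc _ = (t * t) • ((f.L y + 1) * (f.L y + 1)) + (t • (f.L y + 1) + t • (f.L y + 1)) + 1 := by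
          generalize f.L y + 1 = N
          simp only [mul_add, add_mul, mul_one, one_mul, Matrix.mul_smul, Matrix.smul_mul, smul_smul]; abel
      _ = 1 := by rw [nn, C3a_mm, smul_zero, add_zero, zero_add]
  · rw [f.w_mul _ hs _ hs, e1, e2, f.w_one, C3a_row, vecMul_smul, smul_vecMul, C3a_row, i2, C3a_vv, smul_zero,
      smul_zero, zero_add, C3a_vv]
  · rw [f.u_mul _ hs _ hs, e1, e3, f.u_one, C3a_col, smul_mulVec, mulVec_smul, C3a_col, i3, C3a_vv, smul_zero,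
      smul_zero, zero_add, C3a_vv]
  · rw [f.c_mul _ hs _ hs, e2, e3, f.c_one, dotProduct_smul, smul_dotProduct, i4, CharTwo.add_self_eq_zero]
    simp

theorem B2.c3a {f : Fr G F n} (b : f.B2 E P M) (h1 : ∀ y, f.Rg P M y → ¬ f.H1 E y) (h2 : ∀ y, f.Rg P M y → ¬ f.H2 E y)
    {y : G} (hy : f.Rg P M y) : ∃ a ∈ f.V ⊓ 𝐍(E), ∃ a' ∈ f.W ⊓ 𝐍(E), f.cu y a a' ≠ 0 := by
  by_contra hcon
  push Not at hcon
  have hE : E ≤ f.S := b.me.le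
  have ry := (b.reg hy).1
  have hZ : f.Z ≤ Yp E := fun z hz => by
    have hzS : z ∈ f.S := f.Q_le (f.Vs_le _ hz)
    exact ⟨ry.2 ⟨hzS, mem_centralizer_singleton_iff.2 (f.Z_cen hz y (hE ry.1.1)).symm⟩,
      centralizer_anti hE (f.Z_cen hz), f.V_sq (f.Vs_anti (Nat.zero_le _) hz)⟩
  have all : ∀ y', f.Rg P M y' → ∀ a ∈ f.V ⊓ 𝐍(E), ∀ a' ∈ f.W ⊓ 𝐍(E), f.cu y' a a' = 0 := by
    intro y' hy' a ha a' ha'
    have r' := (b.reg hy').1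
    obtain ⟨c0, c1, -⟩ := Reg.cm (f := f) hE r'.1 (f.Vs_le _ ha.1)
    obtain ⟨a0, ha0, -, -, e, -⟩ := ry.YQ hE hZ (h1 y hy) (h2 y hy) (Yp_cm r'.1 ha.2) c0
    have := hcon a0 ha0 a' ha'
    rw [cu, ← e, c1] at this
    exact this
  obtain ⟨x, hx, hM⟩ := b.me.ex_x
  obtain ⟨z, hz, hzP, -, hy'⟩ := b.ex hx hM
  have r' := (b.reg hy').1
  have yy := r'.1.2.2
  have eγ : ∀ a : G, ⁅z, x * a * x⁻¹⁆ = x * ⁅x⁻¹ * z * x, a⁆ * x⁻¹ := fun a => by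
    simp only [commutatorElement_def]; group
  have hxE := b.me.nE hx
  have inY : ∀ a ∈ f.A E, ⁅z, x * a * x⁻¹⁆ ∈ Yp E := fun a ha => by
    rw [eγ]; exact conj_mem_of_mem_normalizer (norm_Yp E hxE) (Yp_cm r'.1 ha.2)
  refine f.gc hE (fun t ht => (hZ ht).1) (fun hh => b.nV (inf_le_left.trans hh))
    (fun hh => b.nW (inf_le_left.trans hh)) (fun a => ⁅z, x * a * x⁻¹⁆) (fun a ha => hE (inY a ha).1)
    (fun a ha a' ha' => ?_) (fun a ha e he => ?_) (fun a ha haE q hq => ?_)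
  · rw [← f.L_mul _ (hE (inY a ha).1) _ (hE (inY a' ha').1)]
    congr 1
    obtain ⟨a1, ha1, a2, ha2, -, e1, e2⟩ := r'.split hE (h2 _ hy') ha
    obtain ⟨a1', ha1', a2', ha2', -, e1', e2'⟩ := r'.split hE (h2 _ hy') ha'
    obtain ⟨c0, c1, c2, -⟩ := Reg.cm (f := f) hE r'.1 ha'.1
    have k1 := all _ hy' a1 ha1 a2' ha2'
    have k2 := all _ hy' a1' ha1' a2 ha2
    rw [cu, e1, e2'] at k1
    rw [cu, e1', e2] at k2
    have hc : a * ⁅x⁻¹ * z * x, a'⁆ = ⁅x⁻¹ * z * x, a'⁆ * a := by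
      rw [f.commQ ha.1 c0, B, c1, c2, k2, add_zero, dotProduct_add, dotProduct_mulVec, ← add_dotProduct, k1]
    have e : ⁅x⁻¹ * z * x, a * a'⁆ = ⁅x⁻¹ * z * x, a⁆ * (a * ⁅x⁻¹ * z * x, a'⁆) * a⁻¹ := by
      simp only [commutatorElement_def]; group
    simp only [eγ]
    rw [e, hc]; group
  · rw [← f.L_mul _ (hE (inY a ha).1) _ (hE he), ← f.L_mul _ (hE he) _ (hE (inY a ha).1), (inY a ha).2.1 e he]
  · obtain ⟨y'', hy'', e, l, -⟩ := b.gam hx hM hz hzP (a := a) ⟨f.Q_le ha.1, ha.2⟩ haE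
    rw [(b.reg hy'').1.kt hE (h1 _ hy'') (h2 _ hy'') hq]
    simp only [Ker, e, l]

end Fr

end H46.Sl
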