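import Cfsg.Agent.Lib.SLM.C3a

/-! Unitriangular Sylow 2-subgroups, package C3b: see `blueprint/SLM/README.md`. -/

set_option autoImplicit false
set_option linter.unusedSectionVars false

namespace H46.Sl
open Subgroup H69 Cfsg Matrix
open scoped commutatorElement

theorem c3b_ge {G : Type*} [Group G] [Finite G] {E T K Y : Subgroup G} (γ : G → G) (h0 : ∀ b ∈ T, γ b ∈ Y)
    (h1 : ∀ b ∈ T, ∀ b' ∈ T, γ (b * b') = γ b * γ b') (h2 : ∀ b ∈ T, γ b ∈ K → b ∈ E) :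
    E.relIndex T ≤ K.relIndex Y := by
  let φ : T →* G := MonoidHom.mk' (fun b => γ b) fun a b => h1 a a.2 b b.2
  have a1 : K.comap φ ≤ E.subgroupOf T := fun b hb => h2 b b.2 hb
  have a2 : φ.range ≤ Y := by rintro _ ⟨b, rfl⟩; exact h0 b b.2
  calc E.relIndex T ≤ (K.comap φ).index := index_antitone a1
    _ = K.relIndex φ.range := index_comap K φ
    _ ≤ _ := relIndex_le_of_le_right a2 index_ne_zero_of_finite

theorem c3b_lt {G : Type*} [Group G] [Finite G] {C K Y : Subgroup G} (h1 : C ⊓ Y ≤ K) (h2 : K ≤ Y)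
    (h3 : ¬ K ≤ C) : K.relIndex Y < C.relIndex Y := by
  have e := relIndex_mul_relIndex (C ⊓ Y) K Y h1 h2
  rw [inf_relIndex_right] at e
  have a0 : (C ⊓ Y).relIndex K ≠ 0 := index_ne_zero_of_finite
  have a1 : (C ⊓ Y).relIndex K ≠ 1 := fun h => h3 ((relIndex_eq_one.1 h).trans inf_le_left)
  have a2 : K.relIndex Y ≠ 0 := index_ne_zero_of_finite
  rw [← e]
  exact (Nat.lt_mul_iff_one_lt_left (Nat.pos_of_ne_zero a2)).2 (by omega)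

namespace Fr
variable {G : Type*} [Group G] [Finite G] {F : Type*} [Field F] [Fintype F] [CharP F 2] {n : ℕ}
  (f : Fr G F n) {E P M : Subgroup G}

/-- the relations between two commuting elements, written with `N = L + 1` -/
theorem c3b_comm {a b : G} (ha : a ∈ f.S) (hb : b ∈ f.S) (c : a * b = b * a) :
    (f.L a + 1) * (f.L b + 1) = (f.L b + 1) * (f.L a + 1) ∧
      (f.L a + 1) *ᵥ f.u b = (f.L b + 1) *ᵥ f.u a := by
  obtain ⟨h1, -, h3, -⟩ := (f.comm_iff ha hb).1 c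
  refine ⟨by noncomm_ring [h1], ?_⟩
  rw [add_mulVec, add_mulVec, one_mulVec, one_mulVec, ← ty_add]
  have := ty_add.2 h3
  rw [← this]
  abel

theorem Reg.c3b_rad {f : Fr G F n} (hE : E ≤ f.S) {y : G} (h : f.Reg E y) (h1 : ¬ f.H1 E y) (h2 : ¬ f.H2 E y)
    {a : G} (hr : ∀ a' ∈ f.W ⊓ 𝐍(E), f.cu y a a' = 0) {s : G} (hs : s ∈ Yp E)
    (e : f.w a ᵥ* f.L s = f.w a) : f.w a ⬝ᵥ f.u s = 0 := by
  have cs : ∀ e ∈ E, e * s = s * e := mem_centralizer_iff_commute.1 hs.2.1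
  have cy : ∀ e ∈ E, e * y = y * e := mem_centralizer_iff_commute.1 h.1.2.1
  have lk : ∀ x, x ᵥ* (f.L y + 1) = 0 → ∀ t ∈ Yp E, x ᵥ* (f.L t + 1) = 0 ∧ x ⬝ᵥ f.u t = 0 := by
    intro x hx t ht
    obtain ⟨v, hv, rfl⟩ := f.ty_exV x
    have vQ := f.Vs_le _ hv
    have vE := (h.kt hE h1 h2 vQ).2 ((f.ty_KerV hv).2 (ty_row.1 hx))
    obtain ⟨-, c2, -, c4⟩ := (f.comm_iff vQ.1 (hE ht.1)).1 (mem_centralizer_iff_commute.1 ht.2.1 v vE)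
    rw [vQ.2, vecMul_one, add_comm (f.w t), add_left_inj] at c2
    rw [(f.mem_V.1 hv).2, dotProduct_zero] at c4
    exact ⟨ty_row.2 c2, c4⟩
  obtain ⟨β0, h0⟩ := col_of_perp (N := f.L y + 1) (t := f.u y) fun x hx => (lk x hx y h.1).2
  obtain ⟨β, hβ⟩ := col_of_perp (N := f.L y + 1) (t := f.u s + (f.L s + 1) *ᵥ β0) fun x hx => by
    rw [dotProduct_add, dotProduct_mulVec, (lk x hx s hs).1, (lk x hx s hs).2, zero_dotProduct, add_zero]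
  obtain ⟨b, hb, rfl⟩ := f.ty_exW β
  have bN : b ∈ 𝐍(E) := ty_nrm fun e he => by
    have mW : ⁅e, b⁆ ∈ f.W := f.Ws_anti (Nat.zero_le _) (f.cmWs (hE he) hb)
    refine (h.kt hE h1 h2 (f.Ws_le _ mW)).2 ((f.ty_KerW mW).2 (ty_col.1 ?_))
    obtain ⟨a1, a2⟩ := f.c3b_comm (hE he) (hE h.1.1) (cy e he)
    obtain ⟨a3, a4⟩ := f.c3b_comm (hE he) (hE hs.1) (cs e he)
    obtain ⟨p, hp, e1⟩ := f.ty_exW (f.u e + (f.L e + 1) *ᵥ β0)
    have pQ := f.Ws_le _ hp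
    have pE : p ∈ E := (h.kt hE h1 h2 pQ).2 ((f.ty_KerW hp).2 (ty_col.1 (by
      rw [e1, mulVec_add, mulVec_mulVec, ← a1, ← mulVec_mulVec, ← h0, a2, ty_add])))
    obtain ⟨-, a5⟩ := f.c3b_comm pQ.1 (hE hs.1) (cs p pE)
    have z0 : (f.L p + 1) *ᵥ f.u s = 0 := by rw [ty_col, pQ.2, one_mulVec]
    rw [z0, e1] at a5
    have a6 : f.L e *ᵥ f.u b + f.u b = (f.L e + 1) *ᵥ f.u b := by rw [add_mulVec, one_mulVec]
    rw [(f.cmQ (hE he) (f.Ws_le _ hb)).2.2.1, a6, mulVec_mulVec, ← a1, ← mulVec_mulVec, ← hβ, mulVec_add, a4,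
      mulVec_mulVec, a3, ← mulVec_mulVec, ← mulVec_add, ← a5]
  have := hr b ⟨hb, bN⟩
  have a7 : f.w a ᵥ* f.L y + f.w a = f.w a ᵥ* (f.L y + 1) := by rw [vecMul_add, vecMul_one]
  rwa [cu, a7, ← dotProduct_mulVec, ← hβ, dotProduct_add, dotProduct_mulVec, ty_row.2 e, zero_dotProduct,
    add_zero] at this

theorem c3b_cmV {s v : G} (hs : s ∈ f.S) (hv : v ∈ f.V) : ⁅s, v⁆ ∈ f.V :=
  f.Vs_anti (Nat.zero_le _) (f.cmVs hs hv)

theorem Reg.c3b_le {f : Fr G F n} (hE : E ≤ f.S) (hZ : f.Z ≤ Yp E) {y : G} (h : f.Reg E y) (h1 : ¬ f.H1 E y)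
    (h2 : ¬ f.H2 E y) {a : G} (ha : a ∈ f.V ⊓ 𝐍(E)) (hr : ∀ a' ∈ f.W ⊓ 𝐍(E), f.cu y a a' = 0) :
    (centralizer {a}).relIndex (Yp E) ≤ E.relIndex (f.V ⊓ 𝐍(E)) := by
  rw [rho_eq ha.2]
  have ex : ∀ t : {t : G // ∃ s ∈ Yp E, t = ⁅s, a⁆}, ∃ b : (f.V ⊓ 𝐍(E) : Subgroup G),
      f.w t.1 = f.w b.1 ᵥ* f.L y + f.w b.1 := by
    rintro ⟨_, s, hs, rfl⟩
    obtain ⟨b, hb, -, -, e, -⟩ := h.YQ hE hZ h1 h2 (Yp_cm hs ha.2) (f.Vs_le _ (f.c3b_cmV (hE hs.1) ha.1))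
    exact ⟨⟨b, hb⟩, e⟩
  choose φ hφ using ex
  refine Nat.card_le_card_of_injective
    (fun t => ((φ t : (f.V ⊓ 𝐍(E) : Subgroup G)) : _ ⧸ E.subgroupOf (f.V ⊓ 𝐍(E)))) fun t t' e => ?_
  have m : ((φ t).1)⁻¹ * (φ t').1 ∈ E := (QuotientGroup.eq (s := E.subgroupOf (f.V ⊓ 𝐍(E)))).1 e
  have q1 := f.Vs_le _ (φ t).2.1
  have q2 := f.Vs_le _ (φ t').2.1
  have k := ((h.kt hE h1 h2 (mul_mem (inv_mem q1) q2)).1 m).1
  rw [(f.mulQ (inv_mem q1) q2).1, (f.invQ q1).1, add_vecMul, ← ty_add] at k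
  have ew : f.w t.1 + f.w t'.1 = 0 := by rw [hφ, hφ, ← k]; abel
  clear k m q1 q2 e
  obtain ⟨_, s, hs, rfl⟩ := t
  obtain ⟨_, s', hs', rfl⟩ := t'
  have v1 := f.c3b_cmV (hE hs.1) ha.1
  have v2 := f.c3b_cmV (hE hs'.1) ha.1
  have ss := mul_mem hs hs'
  obtain ⟨c0, c1, c2, c3⟩ := Reg.cm hE ss (f.Vs_le _ ha.1)
  have w0 : f.w ⁅s * s', a⁆ = 0 := by
    rw [Yp_cm_mul hs hs' ha.2, (f.mulQ (f.Vs_le _ v1) (f.Vs_le _ v2)).1]; exact ew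
  have k := ty_add.1 (c1.symm.trans w0)
  have u0 := (f.mem_V.1 ha.1).2
  have one : ⁅s * s', a⁆ = 1 :=
    f.Z_ext (f.mem_Z.2 ⟨c0, w0, by rw [c2, u0, mulVec_zero, add_zero]⟩) (one_mem _) (by
      rw [c3, cu, u0, k, h.c3b_rad hE h1 h2 hr ss k, f.c_one, dotProduct_zero, dotProduct_zero, add_zero,
        add_zero])
  rw [Yp_cm_mul hs hs' ha.2] at one
  exact Subtype.ext (mul_right_cancel (one.trans (f.V_sq v2).symm))

theorem B2.perf {f : Fr G F n} (b : f.B2 E P M) (h1 : ∀ y, f.Rg P M y → ¬ f.H1 E y) (h2 : ∀ y, f.Rg P M y → ¬ f.H2 E y)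
    {y : G} (hy : f.Rg P M y) {a : G} (ha : a ∈ f.V ⊓ 𝐍(E)) (hE : a ∉ E) : ∃ a' ∈ f.W ⊓ 𝐍(E), f.cu y a a' ≠ 0 := by
  by_contra hr
  push Not at hr
  have le := b.me.le
  have hZ := f.ZE b.me
  have r := (b.reg hy).1
  have l1 := r.c3b_le le hZ (h1 y hy) (h2 y hy) ha hr
  obtain ⟨p, hp, p', hp', cp⟩ := b.c3a h1 h2 hy
  have pQ := f.Vs_le _ hp.1
  have pE : p ∉ E := fun m => cp (by
    rw [cu, ((r.mem le pQ).1 m).1.1, ty_add.2 rfl, zero_dotProduct])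
  have e := b.me.rho (a := a) (b := p) ⟨(f.Vs_le _ ha.1).1, ha.2⟩ ⟨pQ.1, hp.2⟩ hE pE
    (by rw [f.V_sq ha.1]; exact one_mem _) (by rw [f.V_sq hp.1]; exact one_mem _)
  let K : Subgroup G := sub (fun s => s ∈ Yp E ∧ ⁅s, p⁆ ∈ f.Z) ⟨one_mem _, by simp⟩
    fun s t hs ht => ⟨mul_mem hs.1 ht.1, by rw [Yp_cm_mul hs.1 ht.1 hp.2]; exact mul_mem hs.2 ht.2⟩
  have l2 : K.relIndex (Yp E) < (centralizer {p}).relIndex (Yp E) := by
    refine c3b_lt (fun s hs => ⟨hs.2, ?_⟩) (fun s hs => hs.1) fun hK => cp ?_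
    · rw [commutatorElement_eq_one_iff_mul_comm.2 (mem_centralizer_singleton_iff.1 hs.1)]
      exact one_mem _
    · have p'Q := f.Ws_le _ hp'.1
      obtain ⟨c0, c1, c2, -⟩ := Reg.cm le r.1 p'Q
      have c := mem_centralizer_singleton_iff.1 (hK ⟨Yp_cm r.1 hp'.2, (f.cmQQ c0 pQ).1⟩)
      rw [f.commQ c0 pQ, B, (f.mem_V.1 hp.1).2, dotProduct_zero, zero_add, c2, dotProduct_add,
        dotProduct_mulVec] at c
      rw [cu, add_dotProduct, c]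
  obtain ⟨x, hx, hM⟩ := b.me.ex_x
  obtain ⟨z, hz, hP, -, r0⟩ := b.ex hx hM
  have y0 := (b.reg r0).1.1
  have eγ : ∀ t : G, ⁅z, x * t * x⁻¹⁆ = x * ⁅x⁻¹ * z * x, t⁆ * x⁻¹ := fun t => by
    simp only [commutatorElement_def]; group
  have l3 : E.relIndex (f.V ⊓ 𝐍(E)) ≤ K.relIndex (Yp E) := by
    refine c3b_ge (fun t => ⁅z, x * t * x⁻¹⁆) (fun t ht => ?_) (fun t ht t' ht' => ?_) fun t ht hK => ?_
    · rw [eγ]
      exact conj_mem_of_mem_normalizer (norm_Yp E (b.me.nE hx)) (Yp_cm y0 ht.2)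
    · simp only [eγ]
      have m := f.c3b_cmV (le y0.1) ht'.1
      have c : t * ⁅x⁻¹ * z * x, t'⁆ = ⁅x⁻¹ * z * x, t'⁆ * t := by
        rw [f.commQ (f.Vs_le _ ht.1) (f.Vs_le _ m), B, (f.mem_V.1 m).2, (f.mem_V.1 ht.1).2, dotProduct_zero,
          dotProduct_zero, add_zero]
      generalize x⁻¹ * z * x = y0 at c
      have : ⁅y0, t * t'⁆ = ⁅y0, t⁆ * (t * ⁅y0, t'⁆) * t⁻¹ := by
        simp only [commutatorElement_def]; group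
      rw [this, c]; group
    · by_contra tE
      obtain ⟨y', ry, e1, -, e3⟩ := b.gam hx hM hz hP ⟨(f.Vs_le _ ht.1).1, ht.2⟩ tE
      have m : ⁅⁅z, x * t * x⁻¹⁆, p⁆ ∈ f.Z := hK.2
      rw [e1, e3 p pQ.1] at m
      have r' := (b.reg ry).1
      refine pE ((r'.kt le (h1 _ ry) (h2 _ ry) pQ).2 ((f.ty_KerV hp.1).2 (ty_add.1 ?_)))
      rw [← (Reg.cm le r'.1 pQ).2.1]
      exact (f.mem_Z.1 m).2.1
  omega

end Fr

end H46.Sl
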