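import Cfsg.Agent.Lib.SLM.C3b

/-! Unitriangular Sylow 2-subgroups, package C3c: see `blueprint/SLM/README.md`. -/

set_option autoImplicit false
set_option linter.unusedSectionVars false

namespace H46.Sl
open Subgroup H69 Cfsg Matrix
open scoped commutatorElement

namespace Fr
variable {G : Type*} [Group G] [Finite G] {F : Type*} [Field F] [Fintype F] [CharP F 2] {n : ℕ}
  (f : Fr G F n) {E P M : Subgroup G}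

theorem c3c_Z {f : Fr G F n} (b : f.B2 E P M) : f.Z ≤ Yp E := fun z hz =>
  have c : z ∈ 𝐂(E) := fun e he => f.Z_cen hz e (b.me.le he)
  ⟨b.me.cen ⟨f.Q_le (f.Vs_le _ hz), c⟩, c, f.V_sq (f.Vs_anti (Nat.zero_le _) hz)⟩

theorem c3c_cm {s g g' : G} (hs : s ∈ Yp E) (h : g⁻¹ * g' ∈ E) : ⁅s, g'⁆ = ⁅s, g⁆ := by
  have e : g⁻¹ * g' * s = s * (g⁻¹ * g') := hs.2.1 _ h
  calc ⁅s, g'⁆ = s * g * s⁻¹ * (s * (g⁻¹ * g')) * s⁻¹ * g'⁻¹ := by rw [commutatorElement_def]; group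
    _ = _ := by rw [← e, commutatorElement_def]; group

theorem c3c_cj (h s q : G) : ⁅s, h * q * h⁻¹⁆ = h * ⁅h⁻¹ * s * h, q⁆ * h⁻¹ := by
  simp only [commutatorElement_def]; group

theorem c3c_ext {p q : G} (hp : p ∈ f.Q) (hq : q ∈ f.Q) (h1 : f.w p = f.w q) (h2 : f.u p = f.u q)
    (h3 : f.c p = f.c q) : p = q :=
  f.inj _ hp.1 _ hq.1 (by rw [hp.2, hq.2]) h1 h2 h3

theorem c3c_sm {f : Fr G F n} (hE : E ≤ f.S) {y a : G} (h : f.Reg E y) (ha : a ∈ f.A E) (l : F) :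
    ∃ q ∈ f.A E, f.w q = l • f.w a ∧ f.u q = l • f.u a := by
  obtain ⟨q, hq, e1, e2, -⟩ := f.exQ (l • f.w a) (l • f.u a) 0
  exact ⟨q, ⟨hq, Reg.smulA hE h ha hq e1 e2⟩, e1, e2⟩

theorem c3c_smW {f : Fr G F n} (hE : E ≤ f.S) {y a : G} (h : f.Reg E y) (ha : a ∈ f.W ⊓ 𝐍(E)) (l : F) :
    ∃ q ∈ f.W ⊓ 𝐍(E), f.u q = l • f.u a := by
  obtain ⟨q, hq, e1, e2⟩ := c3c_sm hE h ⟨f.Ws_le _ ha.1, ha.2⟩ l
  exact ⟨q, ⟨f.mem_W.2 ⟨hq.1, by rw [e1, (f.mem_W.1 ha.1).2, smul_zero]⟩, hq.2⟩, e2⟩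

theorem c3c_W {f : Fr G F n} (hE : E ≤ f.S) {y a : G} (hy : y ∈ Yp E) (ha : a ∈ f.W ⊓ 𝐍(E)) {q : G}
    (hq : q ∈ f.Q) : ⁅⁅y, a⁆, q⁆ ∈ f.Z ∧ f.c ⁅⁅y, a⁆, q⁆ = f.cu y q a := by
  obtain ⟨k0, k1, k2, -⟩ := Reg.cm hE hy (f.Ws_le _ ha.1)
  refine ⟨(f.cmQQ k0 hq).1, ?_⟩
  rw [(f.cmQQ k0 hq).2, B, k1, k2, (f.mem_W.1 ha.1).2, cu, dotProduct_add, dotProduct_mulVec, add_dotProduct]
  simp

theorem c3c_V {f : Fr G F n} (hE : E ≤ f.S) {s v : G} (hs : s ∈ Yp E) (hv : v ∈ f.V) : ⁅s, v⁆ ∈ f.V ∧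
    f.w ⁅s, v⁆ = f.w v ᵥ* f.L s + f.w v ∧ f.c ⁅s, v⁆ = (f.w v ᵥ* f.L s) ⬝ᵥ f.u s := by
  obtain ⟨k0, k1, k2, k3⟩ := Reg.cm hE hs (f.Vs_le _ hv)
  have e := (f.mem_V.1 hv).2
  exact ⟨f.mem_V.2 ⟨k0, by simp [k2, e]⟩, k1, by simp [k3, cu, e]⟩

theorem c3c_lin {f : Fr G F n} (hE : E ≤ f.S) {s a q : G} (hs : s ∈ Yp E) (ha : a ∈ f.Q) (hq : q ∈ f.Q) {l : F}
    (e1 : f.w q = l • f.w a) (e2 : f.u q = l • f.u a) (h : ⁅s, a⁆ = 1) : ⁅s, q⁆ = 1 := by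
  obtain ⟨-, k1, k2, k3⟩ := Reg.cm hE hs ha
  obtain ⟨m0, m1, m2, m3⟩ := Reg.cm hE hs hq
  rw [h] at k1 k2 k3
  rw [cu, ← k1, f.w_one, zero_dotProduct, add_zero] at k3
  refine f.c3c_ext m0 (one_mem _) ?_ ?_ ?_
  · rw [m1, e1, smul_vecMul, ← smul_add, ← k1, f.w_one, smul_zero]
  · rw [m2, e2, mulVec_smul, ← smul_add, ← k2, f.u_one, smul_zero]
  · rw [m3, cu, e1, e2, smul_vecMul, ← smul_add, ← k1, f.w_one, smul_zero, zero_dotProduct, add_zero,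
      dotProduct_smul, smul_dotProduct, ← smul_add, ← k3, f.c_one, smul_zero]

theorem c3c_star {f : Fr G F n} (hE : E ≤ f.S) {y s a q q' : G} (hy : y ∈ Yp E) (hs : s ∈ Yp E) {t l : F}
    (t1 : f.L s + 1 = t • (f.L y + 1)) (t2 : f.w s = t • f.w y) (t3 : f.u s = t • f.u y)
    (hq : q ∈ f.Q) (hq' : q' ∈ f.Q) (e1 : f.w q = l • f.w a) (e2 : f.u q = l • f.u a)
    (e3 : f.w q' = (t * l) • f.w a) (e4 : f.u q' = (t * l) • f.u a) :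
    ∃ z ∈ f.Z, ⁅s, q⁆ = ⁅y, q'⁆ * z ∧ f.c z = (t + t ^ 2) * l ^ 2 * f.cu y a a := by
  obtain ⟨z, hz, z1, z2, z3⟩ := f.exQ 0 0 ((t + t ^ 2) * l ^ 2 * f.cu y a a)
  obtain ⟨k0, k1, k2, k3⟩ := Reg.cm hE hs hq
  obtain ⟨m0, m1, m2, m3⟩ := Reg.cm hE hy hq'
  obtain ⟨p1, p2, p3⟩ := f.mulQ m0 hz
  have r1 := congrArg (f.w a ᵥ* ·) t1
  have r2 := congrArg (· *ᵥ f.u a) t1
  simp only [vecMul_add, vecMul_smul, vecMul_one, add_mulVec, smul_mulVec, one_mulVec] at r1 r2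
  have r3 : (f.w a ᵥ* f.L y) ⬝ᵥ f.u y = f.w a ⬝ᵥ f.u y := by
    rw [← dotProduct_mulVec, (f.inv_co (hE hy.1) hy.2.2).2.2.2.1]
  have r4 := congrArg (· ⬝ᵥ f.u y) r1
  have r5 := congrArg (· ⬝ᵥ f.u a) r1
  refine ⟨z, f.mem_Z.2 ⟨hz, z1, z2⟩, f.c3c_ext k0 (mul_mem m0 hz) ?_ ?_ ?_, z3⟩
  · rw [k1, p1, m1, z1, e1, e3, smul_vecMul, smul_vecMul, ← smul_add, ← smul_add, r1, add_zero, smul_smul,
      mul_comm]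
  · rw [k2, p2, m2, z2, e2, e4, mulVec_smul, mulVec_smul, ← smul_add, ← smul_add, r2, add_zero, smul_smul,
      mul_comm]
  · rw [k3, p3, m3, z2, z3]
    simp only [cu, e1, e2, e3, e4, t2, t3, smul_vecMul, add_dotProduct, smul_dotProduct, dotProduct_smul,
      smul_eq_mul, dotProduct_zero, r3] at r4 r5 ⊢
    grind

theorem c3c_Rg {f : Fr G F n} (b : f.B2 E P M) {y h : G} (hy : f.Rg P M y) (hh : h ∈ M) :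
    f.Rg P M (h * y * h⁻¹) := by
  obtain ⟨x, hx, hM, z, hz, hP, rfl⟩ := hy
  exact ⟨h * x, mul_mem (b.me.MP hh) hx, fun e => hM ((mul_mem_cancel_left hh).1 e), z, hz, hP, by group⟩

theorem c3c_w {f : Fr G F n} (b : f.B2 E P M) (h1 : ∀ y, f.Rg P M y → ¬ f.H1 E y)
    (h2 : ∀ y, f.Rg P M y → ¬ f.H2 E y) {s : G} (hs : s ∈ Yp E) (hQ : s ∈ f.Q) (hc : s ∈ 𝐂(f.A E)) :
    f.w s = 0 := by
  obtain ⟨x, hx, hM⟩ := b.me.ex_x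
  obtain ⟨z, -, -, hy, -⟩ := b.ex hx hM
  have ry := (b.reg hy).1
  obtain ⟨a, ha, -, -, e, -⟩ := Reg.YQ b.me.le (c3c_Z b) ry (h1 _ hy) (h2 _ hy) hs hQ
  by_cases aE : a ∈ E
  · rw [e, ((Reg.kt b.me.le ry (h1 _ hy) (h2 _ hy) (f.Vs_le _ ha.1)).1 aE).1]
    ext i
    exact CharTwo.add_self_eq_zero _
  · obtain ⟨a', ha', k⟩ := b.perf h1 h2 hy ha aE
    have := (f.commQ (f.Ws_le _ ha'.1) hQ).1 (hc a' ⟨f.Ws_le _ ha'.1, ha'.2⟩)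
    rw [B, (f.mem_W.1 ha'.1).2, zero_dotProduct, zero_add, e] at this
    exact absurd this k

theorem B2.cenA {f : Fr G F n} (b : f.B2 E P M) (h1 : ∀ y, f.Rg P M y → ¬ f.H1 E y) (h2 : ∀ y, f.Rg P M y → ¬ f.H2 E y)
    {s : G} (hs : s ∈ Yp E) (hQ : s ∈ f.Q) (hc : s ∈ 𝐂(f.A E)) : s ∈ f.Z := by
  refine f.mem_Z.2 ⟨hQ, c3c_w b h1 h2 hs hQ hc, ?_⟩
  have k : ∀ y, f.dual.Rg P M y → f.Rg P M y ∧ y ∈ E := fun y hy =>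
    ⟨f.dual_Rg.1 hy, (b.reg (f.dual_Rg.1 hy)).1.1.1⟩
  have := c3c_w b.dual (fun y hy e => h2 y (k y hy).1 ((f.dual_H1 b.me.le (k y hy).2).1 e))
    (fun y hy e => h1 y (k y hy).1 ((f.dual_H2 b.me.le (k y hy).2).1 e)) hs (f.dual_Q ▸ hQ)
    (by rwa [A, f.dual_Q])
  ext i
  have e : f.u s⁻¹ i.rev.rev = 0 := congrFun this i.rev
  rwa [Fin.rev_rev, (f.invQ hQ).2.1] at e

/-- the data of the last case -/
structure C3D (E P M : Subgroup G) (y a1 a2 a h : G) : Prop where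
  b : f.B2 E P M
  h1 : ∀ y, f.Rg P M y → ¬ f.H1 E y
  h2 : ∀ y, f.Rg P M y → ¬ f.H2 E y
  hy : f.Rg P M y
  m1 : a1 ∈ f.V ⊓ 𝐍(E)
  n1 : a1 ∉ E
  m2 : a2 ∈ f.W ⊓ 𝐍(E)
  ma : a ∈ f.A E
  wa : f.w a1 = f.w a
  ua : f.u a2 = f.u a
  nu : f.cu y a a ≠ 0
  hM : h ∈ M
  cj : ∀ s ∈ Yp E, ⁅s, h * a * h⁻¹⁆ = ⁅s, a1⁆
  AS : ∀ t ∈ f.A E, h * t * h⁻¹ ∈ f.S

/-- `q ^ h` acts on `Y` as `k a₁` -/
def C3P (E : Subgroup G) (a h q : G) (k : F) : Prop := ∀ s ∈ Yp E, ⁅s, h * q * h⁻¹⁆ ∈ f.Q ∧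
  f.w ⁅s, h * q * h⁻¹⁆ = k • (f.w a ᵥ* f.L s + f.w a) ∧ f.c ⁅s, h * q * h⁻¹⁆ = k * ((f.w a ᵥ* f.L s) ⬝ᵥ f.u s)

namespace C3D
variable {f} {y a1 a2 a h : G} (D : f.C3D E P M y a1 a2 a h)
include D

theorem nE : h ∈ 𝐍(E) := D.b.me.nE (D.b.me.MP D.hM)

theorem cY {s : G} (hs : s ∈ Yp E) : h * s * h⁻¹ ∈ Yp E := (mem_normalizer_iff.1 (norm_Yp E D.nE) s).1 hs

theorem cY' {s : G} (hs : s ∈ Yp E) : h⁻¹ * s * h ∈ Yp E :=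
  (mem_normalizer_iff''.1 (norm_Yp E D.nE) s).1 hs

theorem zs (κ : F) : ∃ s ∈ Yp E, ∀ q ∈ f.Q, ∀ l : F, f.w q = l • f.w a → ⁅s, q⁆ ∈ f.Z ∧ f.c ⁅s, q⁆ = l * κ := by
  have ry := (D.b.reg D.hy).1
  obtain ⟨p, hp, e⟩ := c3c_smW D.b.me.le ry D.m2 (κ / f.cu y a a)
  refine ⟨_, Yp_cm ry.1 hp.2, fun q hq l e1 => ⟨(c3c_W D.b.me.le ry.1 hp hq).1, ?_⟩⟩
  have := D.nu
  rw [(c3c_W D.b.me.le ry.1 hp hq).2, cu, e, e1, D.ua, smul_vecMul, ← smul_add, smul_dotProduct, dotProduct_smul,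
    ← cu, smul_eq_mul, smul_eq_mul, div_mul_cancel₀ _ this]

theorem nZ {z : G} (hz : z ∈ f.Z) : h * z * h⁻¹ ∈ f.Z := by
  refine (mem_normalizer_iff''.1 (mem_normalizer_fintype (x := h⁻¹) fun z hz => ?_) z).1 hz |>
    fun e => by simpa using e
  obtain ⟨s, hs, k⟩ := D.zs (f.c z)
  obtain ⟨k1, k2⟩ := k a1 (f.Vs_le _ D.m1.1) 1 (by rw [one_smul, D.wa])
  have e : h⁻¹ * z * h⁻¹⁻¹ = ⁅h⁻¹ * s * h, a⁆ := by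
    rw [← f.Z_ext k1 hz (by rw [k2, one_mul]), ← D.cj s hs, conjugate_commutatorElement]
    congr 1 <;> group
  refine D.b.cenA D.h1 D.h2 (e ▸ Yp_cm (D.cY' hs) D.ma.2) (e ▸ (Reg.cm D.b.me.le (D.cY' hs) D.ma.1).1)
    fun t ht => ?_
  calc _ = h⁻¹ * (h * t * h⁻¹ * z) * h := by group
    _ = _ := by rw [f.Z_cen hz _ (D.AS t ht)]; group

theorem inj {z z' : G} (hz : z ∈ f.Z) (hz' : z' ∈ f.Z) (e : f.c (h * z * h⁻¹) = f.c (h * z' * h⁻¹)) :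
    f.c z = f.c z' := by
  rw [mul_left_cancel (mul_right_cancel (f.Z_ext (D.nZ hz) (D.nZ hz') e))]

theorem one : f.C3P E a h a 1 := fun s hs => by
  obtain ⟨k0, k1, k2⟩ := c3c_V D.b.me.le hs D.m1.1
  rw [D.cj s hs, k1, k2, D.wa, one_smul, one_mul]
  exact ⟨f.Vs_le _ k0, rfl, rfl⟩

theorem tau {q z z' : G} {l k : F} (hq : q ∈ f.Q) (e : f.w q = l • f.w a) (p : f.C3P E a h q k) (hz : z ∈ f.Z)
    (hz' : z' ∈ f.Z) (c : f.c z' = l * f.c z) : f.c (h * z' * h⁻¹) = k * f.c (h * z * h⁻¹) := by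
  obtain ⟨s, hs, m⟩ := D.zs (f.c z)
  obtain ⟨k1, k2⟩ := m a D.ma.1 1 (by rw [one_smul])
  obtain ⟨k3, k4⟩ := m q hq l e
  rw [← f.Z_ext k3 hz' (k4.trans c.symm), ← f.Z_ext k1 hz (by rw [k2, one_mul]), conjugate_commutatorElement,
    conjugate_commutatorElement, (p _ (D.cY hs)).2.2, (D.one _ (D.cY hs)).2.2, one_mul]

theorem pf {q : G} (hq : q ∈ f.A E) {l : F} (e1 : f.w q = l • f.w a) (e2 : f.u q = l • f.u a) :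
    ∃ k, f.C3P E a h q k := by
  have hE := D.b.me.le
  have ry := (D.b.reg D.hy).1
  have r1 := c3c_Rg D.b D.hy D.hM
  have R1 := (D.b.reg r1).1
  obtain ⟨yt, hyt, t1, t2, t3⟩ := Reg.smul hE ry l
  obtain ⟨z, hz, e, -⟩ := c3c_star (a := a) (l := 1) hE ry.1 hyt t1 t2 t3 D.ma.1 hq.1 (one_smul _ _).symm
    (one_smul _ _).symm (by rwa [mul_one]) (by rwa [mul_one])
  have hV : ⁅h * y * h⁻¹, h * q * h⁻¹⁆ ∈ f.V := by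
    have := mul_mem (c3c_V hE (D.cY hyt) D.m1.1).1 (inv_mem (f.Vs_anti (Nat.zero_le _) (D.nZ hz)))
    rw [← D.cj _ (D.cY hyt), ← conjugate_commutatorElement, e] at this
    rw [← conjugate_commutatorElement]
    convert this using 1
    group
  generalize h * y * h⁻¹ = s1 at r1 R1 hV
  obtain ⟨a', ha', e3⟩ := Reg.inA hE (c3c_Z D.b) R1 (D.h1 _ r1) (D.h2 _ r1)
    ⟨D.AS q hq, (𝐍(E)).mul_mem (mul_mem D.nE hq.2) (inv_mem D.nE)⟩ (f.Vs_le _ hV)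
  obtain ⟨v, hv, v', hv', rfl, -, e4⟩ := Reg.split hE R1 (D.h2 _ r1) ha'
  have vE : v' ∈ E := (Reg.kt hE R1 (D.h1 _ r1) (D.h2 _ r1) (f.Ws_le _ hv'.1)).2
    ⟨by rw [(f.mem_W.1 hv'.1).2, zero_vecMul], by
      have := (f.mem_V.1 hV).2
      rw [c3c_cm R1.1 e3, (Reg.cm hE R1.1 ha'.1).2.2.1, ← e4] at this
      ext i
      exact CharTwo.add_eq_zero.1 (congrFun this i)⟩
  have e5 : v⁻¹ * (h * q * h⁻¹) ∈ E := by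
    convert mul_mem vE e3 using 1
    group
  have cu0 : ∀ a' ∈ f.W ⊓ 𝐍(E), f.cu s1 a1 a' = 0 → f.cu s1 v a' = 0 := fun a' ha' k => by
    have hs := Yp_cm R1.1 ha'.2
    obtain ⟨k1, k2⟩ := c3c_W hE R1.1 ha' (f.Vs_le _ D.m1.1)
    have k3 := f.Z_ext k1 (one_mem _) (by rw [k2, k, f.c_one])
    rw [← D.cj _ hs, c3c_cj, conj_eq_one_iff] at k3
    rw [← (c3c_W hE R1.1 ha' (f.Vs_le _ hv.1)).2, ← c3c_cm hs e5, c3c_cj,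
      c3c_lin hE (D.cY' hs) D.ma.1 hq.1 e1 e2 k3, mul_one, mul_inv_cancel, f.c_one]
  obtain ⟨a0, ha0, n0⟩ := D.b.perf D.h1 D.h2 r1 D.m1 D.n1
  obtain ⟨p, hp, p1, p2⟩ := c3c_sm hE R1 ⟨f.Vs_le _ D.m1.1, D.m1.2⟩ (f.cu s1 v a0 / f.cu s1 a1 a0)
  have pV : p ∈ f.V := f.mem_V.2 ⟨hp.1, by rw [p2, (f.mem_V.1 D.m1.1).2, smul_zero]⟩
  have e6 : p⁻¹ * v ∈ E := by
    by_contra k
    obtain ⟨a', ha', k⟩ := D.b.perf D.h1 D.h2 r1 (mul_mem (inv_mem ⟨pV, hp.2⟩) hv) k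
    obtain ⟨p', hp', p3⟩ := c3c_smW hE R1 ha0 (f.cu s1 a1 a' / f.cu s1 a1 a0)
    have k1 := cu0 _ (mul_mem ha' hp')
    refine k ?_
    simp only [cu, (f.mulQ (f.Ws_le _ ha'.1) (f.Ws_le _ hp'.1)).2.1, p3, p1, (f.invQ hp.1).1,
      (f.mulQ (inv_mem hp.1) (f.Vs_le _ hv.1)).1, add_vecMul, smul_vecMul, dotProduct_add, add_dotProduct,
      smul_dotProduct, dotProduct_smul, smul_eq_mul] at k1 n0 ⊢
    grind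
  refine ⟨f.cu s1 v a0 / f.cu s1 a1 a0, fun s hs => ?_⟩
  obtain ⟨k0, k1, k2⟩ := c3c_V hE hs pV
  rw [c3c_cm hs e5, c3c_cm hs e6, k1, k2, p1, D.wa, smul_vecMul, smul_dotProduct, smul_add]
  exact ⟨f.Vs_le _ k0, rfl, rfl⟩

theorem fin : False := by
  have hE := D.b.me.le
  have ry := (D.b.reg D.hy).1
  have r1 := c3c_Rg D.b D.hy D.hM
  have R1 := (D.b.reg r1).1
  obtain ⟨l, l0, l1⟩ := f.ex_l
  obtain ⟨q1, hq1, a1', a2'⟩ := c3c_sm hE ry D.ma l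
  obtain ⟨q2, hq2, a3, a4⟩ := c3c_sm hE ry D.ma (l * l)
  obtain ⟨k, pk⟩ := D.pf hq1 a1' a2'
  obtain ⟨k2, pk2⟩ := D.pf hq2 a3 a4
  obtain ⟨yt, hyt, t1, t2, t3⟩ := Reg.smul hE ry l
  obtain ⟨z1, hz1, e1, c1⟩ := c3c_star (a := a) (l := 1) hE ry.1 hyt t1 t2 t3 D.ma.1 hq1.1 (one_smul _ _).symm
    (one_smul _ _).symm (by rwa [mul_one]) (by rwa [mul_one])
  obtain ⟨z2, hz2, e2, c2⟩ := c3c_star hE ry.1 hyt t1 t2 t3 hq1.1 hq2.1 a1' a2' a3 a4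
  obtain ⟨z3, hz3, b1, b2, c3⟩ := f.exQ 0 0 (l * f.c z1)
  have hz3' := f.mem_Z.2 ⟨hz3, b1, b2⟩
  have n1 : f.c z1 ≠ 0 := by
    rw [c1, show l + l ^ 2 = l * (l + 1) by ring]
    exact mul_ne_zero (mul_ne_zero (mul_ne_zero l0 fun e => l1 (CharTwo.add_eq_zero.1 e)) (by simp)) D.nu
  have τ2 := D.tau hq2.1 a3 pk2 hz1 hz2 (by rw [c1, c2]; ring)
  have τ3 := D.tau hq1.1 a1' pk hz1 hz3' c3
  have o : f.c (h * 1 * h⁻¹) = 0 := by simp [f.c_one]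
  have n2 : f.c (h * z1 * h⁻¹) ≠ 0 := fun e => n1 ((D.inj hz1 (one_mem _) (e.trans o.symm)).trans f.c_one)
  have k0 : k ≠ 0 := fun e => mul_ne_zero l0 n1 (by
    rw [← c3, D.inj hz3' (one_mem _) (by rw [τ3, e, zero_mul, o]), f.c_one])
  have k1 : k ≠ 1 := fun e => l1 (mul_right_cancel₀ n1 (by
    rw [← c3, D.inj hz3' hz1 (by rw [τ3, e, one_mul]), one_mul]))
  have cj : ∀ {q q' z : G} {m m' : F}, z ∈ f.Z → ⁅yt, q⁆ = ⁅y, q'⁆ * z → f.C3P E a h q m → f.C3P E a h q' m' →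
      m • (f.w a ᵥ* f.L (h * yt * h⁻¹) + f.w a) = m' • (f.w a ᵥ* f.L (h * y * h⁻¹) + f.w a) ∧
      m * ((f.w a ᵥ* f.L (h * yt * h⁻¹)) ⬝ᵥ f.u (h * yt * h⁻¹)) =
        m' * ((f.w a ᵥ* f.L (h * y * h⁻¹)) ⬝ᵥ f.u (h * y * h⁻¹)) + f.c (h * z * h⁻¹) := by
    intro q q' z m m' hz e p p'
    have e' : ⁅h * yt * h⁻¹, h * q * h⁻¹⁆ = ⁅h * y * h⁻¹, h * q' * h⁻¹⁆ * (h * z * h⁻¹) := by
      rw [← conjugate_commutatorElement, ← conjugate_commutatorElement, e]; group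
    obtain ⟨s0, s1, s2⟩ := f.mem_Z.1 (D.nZ hz)
    obtain ⟨m1, -, m3⟩ := f.mulQ (p' _ R1.1).1 s0
    rw [← (p _ (D.cY hyt)).2.1, ← (p _ (D.cY hyt)).2.2, e', m1, m3, s1, s2, (p' _ R1.1).2.1, (p' _ R1.1).2.2]
    simp
  obtain ⟨u1, u2⟩ := cj hz1 e1 D.one pk
  obtain ⟨u3, u4⟩ := cj hz2 e2 pk pk2
  have nN : f.w a ᵥ* f.L (h * y * h⁻¹) + f.w a ≠ 0 := fun e =>
    D.n1 ((Reg.kt hE R1 (D.h1 _ r1) (D.h2 _ r1) (f.Vs_le _ D.m1.1)).2 ⟨by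
      rw [D.wa]
      ext i
      exact CharTwo.add_eq_zero.1 (congrFun e i), by rw [(f.mem_V.1 D.m1.1).2, mulVec_zero]⟩)
  rw [one_smul] at u1
  rw [u1, smul_smul] at u3
  have u5 := smul_left_injective F nN u3
  rw [one_mul] at u2
  rw [u2, τ2, ← u5] at u4
  exact k1 (mul_right_cancel₀ (mul_ne_zero k0 n2) (by grind))

end C3D

theorem B2.c3 {f : Fr G F n} (b : f.B2 E P M) (h1 : ∀ y, f.Rg P M y → ¬ f.H1 E y)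
    (h2 : ∀ y, f.Rg P M y → ¬ f.H2 E y) : False := by
  have hE := b.me.le
  obtain ⟨x, hx, hM⟩ := b.me.ex_x
  obtain ⟨z, -, -, hy, -⟩ := b.ex hx hM
  have ZE : f.Z ≤ E := fun z hz => (c3c_Z b hz).1
  obtain ⟨a1, m1, n1, c1⟩ := ex_cen f.pS (T := f.V ⊓ 𝐍(E)) (inf_le_inf_right _ ((f.Vs_le _).trans f.Q_le))
    ((inf_le_inf (f.nVs 0) le_normalizer).trans inf_normalizer_le_normalizer_inf) b.nV
  obtain ⟨a2, m2, nu⟩ := b.perf h1 h2 hy m1 n1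
  have q1 := f.Vs_le _ m1.1
  have q2 := f.Ws_le _ m2.1
  have ma : a1 * a2 ∈ f.A E := ⟨mul_mem q1 q2, mul_mem m1.2 m2.2⟩
  have wa : f.w a1 = f.w (a1 * a2) := by rw [(f.mulQ q1 q2).1, (f.mem_W.1 m2.1).2, add_zero]
  have ua : f.u a2 = f.u (a1 * a2) := by rw [(f.mulQ q1 q2).2.1, (f.mem_V.1 m1.1).2, zero_add]
  have hA : f.A E ≤ f.S ⊓ 𝐍(E) := inf_le_inf_right _ f.Q_le
  obtain ⟨h, hh, e, hS⟩ := b.me.inv_adj (hA ma) (hA ⟨q1, m1.2⟩) (fun e => nu (by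
      rw [cu, wa, ((Reg.kt hE (b.reg hy).1 (h1 _ hy) (h2 _ hy) ma.1).1 e).1, add_dotProduct,
        CharTwo.add_self_eq_zero])) n1 (ZE (f.sqQ ma.1).1) (ZE (f.sqQ q1).1) c1 hA
    fun t ht => ZE (f.cmQQ ma.1 ht.1).1
  refine C3D.fin (f := f) ⟨b, h1, h2, hy, m1, n1, m2, ma, wa, ua, by rwa [cu, ← wa, ← ua], hh,
    fun s hs => c3c_cm hs ?_, fun t ht => hS (cj_mem h ht)⟩
  convert (mem_normalizer_iff''.1 m1.2 _).1 e using 1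
  group

end Fr

end H46.Sl
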