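import Cfsg.Agent.Lib.SLM.Bas2
import Cfsg.Agent.Lib.SLM.LA
import Cfsg.Agent.Lib.SLM.MB2

/-! Unitriangular Sylow 2-subgroups, package CHV: see `blueprint/SLM/README.md`. -/

set_option autoImplicit false
set_option linter.unusedSectionVars false

namespace H46.Sl
open Subgroup H69 Cfsg Matrix
open scoped commutatorElement

namespace Fr
variable {G : Type*} [Group G] [Finite G] {F : Type*} [Field F] [Fintype F] [CharP F 2] {n : ℕ}
  (f : Fr G F n) {E P M : Subgroup G}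

theorem chv_cm {a q : G} (ha : a ∈ f.S) (hq : q ∈ f.V) : ⁅a⁻¹, q⁆ ∈ f.V ∧
    f.w ⁅a⁻¹, q⁆ = f.w q ᵥ* f.L a + f.w q ∧ f.c ⁅a⁻¹, q⁆ = f.w q ⬝ᵥ f.u a := by
  obtain ⟨h1, h2⟩ := f.mem_V.1 hq
  obtain ⟨a1, a2, a3, a4⟩ := f.cmQ (inv_mem ha) h1
  rw [inv_inv] at a2 a4
  refine ⟨f.mem_V.2 ⟨a1, by rw [a3, h2, mulVec_zero, add_zero]⟩, a2, ?_⟩
  rw [a4, h2, dotProduct_zero, dotProduct_zero, zero_add, add_zero, f.u_inv ha, dotProduct_mulVec,
    vecMul_vecMul, f.L_mul_inv ha, vecMul_one]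

theorem chv_row {a : G} (ha : a ∈ f.S) {x : Fin n → F} {i : Fin n} (h : ∀ r, r < i → x r * f.L a r i = 0) :
    (x ᵥ* f.L a + x) i = 0 := by
  rw [Pi.add_apply, vecMul, dotProduct, Finset.sum_eq_single i, f.ut a ha i i le_rfl, one_apply_eq, mul_one,
    CharTwo.add_self_eq_zero]
  · intro r _ hr
    rcases lt_or_gt_of_ne hr with k | k
    · exact h r k
    · rw [f.ut a ha r i k.le, one_apply_ne hr, mul_zero]
  · exact fun h => absurd (Finset.mem_univ _) h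

theorem chv_le {k j : ℕ} (h : j + 1 = k) : ⁅f.U k, f.Vs j⁆ ≤ f.Vs (j + 2) := by
  rw [commutator_le]
  intro s hs v hv
  obtain ⟨a1, -, a3, a4⟩ := f.mem_U.1 (inv_mem hs)
  obtain ⟨b1, b2, b3⟩ := f.chv_cm a1 (f.Vs_anti (Nat.zero_le j) hv)
  rw [inv_inv] at b1 b2 b3
  refine f.mem_Vs.2 ⟨(f.mem_V.1 b1).1, (f.mem_V.1 b1).2, fun i hi => ?_, fun hn => ?_⟩
  · rw [b2]
    refine f.chv_row a1 fun r hr => ?_
    have hr' : r.val < i.val := hr
    by_cases e : r.val < j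
    · rw [hv.2.2.1 r e, zero_mul]
    · rw [a4 r i (by omega) (by omega), mul_zero]
  · rw [b3]
    refine Finset.sum_eq_zero fun r _ => ?_
    by_cases e : r.val < j
    · rw [hv.2.2.1 r e, zero_mul]
    · have := r.2
      have e' : r = f.iL := Fin.ext (by show r.val = n - 1; omega)
      rw [e', a3 (by omega), mul_zero]

theorem chv_ge {k j j' : ℕ} (hk : 1 ≤ k) (h : j < j') (h' : j + 1 = k → j + 2 ≤ j') :
    f.Vs j' ≤ ⁅f.U k, f.Vs j⁆ := by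
  intro v hv
  by_cases hn : n ≤ j
  · rw [f.Vs_top (by omega)] at hv
    exact bot_le (a := ⁅f.U k, f.Vs j⁆) hv
  replace hn : j < n := by omega
  obtain ⟨v1, v2, v3, v4⟩ := f.mem_Vs.1 hv
  obtain ⟨q, q1, q2, q3, q4⟩ := f.exQ (Pi.single ⟨j, hn⟩ 1) 0 0
  obtain ⟨a, a1, a2, a3, a4, -⟩ := f.full (1 + vecMulVec (Pi.single ⟨j, hn⟩ 1) (f.w v)) (fun r t ht => by
    rw [Matrix.add_apply, vecMulVec_apply]
    by_cases e : r = ⟨j, hn⟩
    · rw [v3 t (by subst e; exact lt_of_le_of_lt ht h), mul_zero, add_zero]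
    · rw [Pi.single_eq_of_ne e, zero_mul, add_zero]) 0 (Pi.single ⟨j, hn⟩ (f.c v)) 0
  have hq : q ∈ f.Vs j := f.mem_Vs.2 ⟨q1, q3, fun i hi => by
    rw [q2, Pi.single_eq_of_ne (fun e => by rw [e] at hi; exact lt_irrefl _ hi)], fun e => by omega⟩
  have ha : a ∈ f.U k := by
    refine f.mem_U.2 ⟨a1, fun e => by omega, fun e => ?_, fun r t hr ht => ?_⟩
    · rw [a4]
      by_cases e' : f.iL = ⟨j, hn⟩
      · have : n - 1 = j := congrArg Fin.val e'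
        rw [v4 (by have := h' (by omega); omega), Pi.single_zero, Pi.zero_apply]
      · exact Pi.single_eq_of_ne e' _
    · rw [a2, Matrix.add_apply, vecMulVec_apply, one_apply_ne (fun e => by rw [e] at hr; omega), zero_add]
      by_cases e : r = ⟨j, hn⟩
      · have : r.val = j := congrArg Fin.val e
        rw [v3 t (by have := h' (by omega); omega), mul_zero]
      · rw [Pi.single_eq_of_ne e, zero_mul]
  obtain ⟨b1, b2, b3⟩ := f.chv_cm a1 (f.Vs_anti (Nat.zero_le j) hq)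
  obtain ⟨b4, b5⟩ := f.mem_V.1 b1
  have : ⁅a⁻¹, q⁆ = v := by
    refine f.inj _ b4.1 _ v1.1 (b4.2.trans v1.2.symm) ?_ (b5.trans v2.symm) ?_
    · rw [b2, q2, a2, vecMul_add, vecMul_one, vecMul_vecMulVec, single_dotProduct, Pi.single_eq_same,
        one_mul, one_smul, add_right_comm]
      funext i
      rw [Pi.add_apply, Pi.add_apply, CharTwo.add_self_eq_zero, zero_add]
    · rw [b3, q2, a4, single_dotProduct, Pi.single_eq_same, one_mul]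
  exact this ▸ commutator_mem_commutator (inv_mem ha) hq

theorem chv {k j : ℕ} (hk : 1 ≤ k) (hj : j ≠ k) {g : G} (h1 : g ∈ 𝐍(f.U k)) (h2 : g ∈ 𝐍(f.V)) : g ∈ 𝐍(f.Vs j) := by
  have key : ∀ {i : ℕ}, g ∈ 𝐍(f.Vs i) → g ∈ 𝐍(⁅f.U k, f.Vs i⁆) := fun h =>
    le_normalizer_commutator (zpowers_le.2 h1) (zpowers_le.2 h) (mem_zpowers g)
  induction j using Nat.strong_induction_on with
  | _ j ih =>
    rcases j with _ | j
    · exact h2
    by_cases e : j = k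
    · obtain ⟨i, rfl⟩ : ∃ i, j = i + 1 := ⟨j - 1, by omega⟩
      rw [le_antisymm (f.chv_ge hk (j := i) (j' := i + 1 + 1) (by omega) fun _ => le_rfl) (f.chv_le e)]
      exact key (ih i (by omega) (by omega))
    · rw [le_antisymm (f.chv_ge hk (Nat.lt_succ_self j) fun h => absurd h hj)
        (commutator_le.2 fun s hs v hv => f.cmVs (f.U_le k hs) hv)]
      exact key (ih j (Nat.lt_succ_self j) e)

/-- the product `V R` -/
def chvT (k j : ℕ) (e : G) : Prop :=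
  e ∈ f.U k ∧ (∀ v ∈ f.Vs j, e * v = v * e) ∧ ∀ v ∈ f.V, ⁅e⁻¹, v⁆ ∈ f.Vs j

theorem chv_cj {k j : ℕ} {g e : G} (h1 : g ∈ 𝐍(f.U k)) (h2 : g ∈ 𝐍(f.V)) (h3 : g ∈ 𝐍(f.Vs j))
    (h : f.chvT k j e) : f.chvT k j (g * e * g⁻¹) := by
  refine ⟨conj_mem_of_mem_normalizer h1 h.1, fun v hv => ?_, fun v hv => ?_⟩
  · calc g * e * g⁻¹ * v = g * (e * (g⁻¹ * v * g)) * g⁻¹ := by group
      _ = _ := by rw [h.2.1 _ (conj_mem_of_mem_normalizer' h3 hv)]; group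
  · have : ⁅(g * e * g⁻¹)⁻¹, v⁆ = g * ⁅e⁻¹, g⁻¹ * v * g⁆ * g⁻¹ := by
      simp only [commutatorElement_def]; group
    rw [this]
    exact conj_mem_of_mem_normalizer h3 (h.2.2 _ (conj_mem_of_mem_normalizer' h2 hv))

theorem chv_Rc {j : ℕ} {a b : G} (ha : a ∈ f.R j) (hb : b ∈ f.R j) : a * b = b * a := by
  rw [← inv_eq_of_mul_eq_one_right (f.R_sq (mul_mem ha hb)), _root_.mul_inv_rev,
    inv_eq_of_mul_eq_one_right (f.R_sq ha), inv_eq_of_mul_eq_one_right (f.R_sq hb)]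

theorem chv_R {k j : ℕ} (hj : j ≠ k) (hn : j < n) {r : G} (h : r ∈ f.R j) : f.chvT k j r := by
  obtain ⟨a1, -, -, a4⟩ := f.mem_R.1 h
  refine ⟨f.R_le_U hn.le hj h, fun v hv => f.chv_Rc h (f.mem_R.2 ⟨hv.1.1, hv.2.2.1, fun i _ => ?_,
    fun s t hs _ => ?_⟩), fun v hv => ?_⟩
  · rw [hv.2.1, Pi.zero_apply]
  · rw [hv.1.2, one_apply_ne hs.ne]
  · obtain ⟨b1, b2, -⟩ := f.chv_cm a1 hv
    refine f.mem_Vs.2 ⟨(f.mem_V.1 b1).1, (f.mem_V.1 b1).2, fun i hi => ?_, fun e => by omega⟩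
    rw [b2]
    exact f.chv_row a1 fun s hs => by rw [a4 s i hs (.inr hi), mul_zero]

theorem chv_co {k j : ℕ} {e : G} (h : f.chvT k j e) : (∀ i : Fin n, j ≤ i.val → f.u e i = 0) ∧
    ∀ s t : Fin n, s < t → j ≤ s.val ∨ t.val < j → f.L e s t = 0 := by
  have he := f.U_le k h.1
  have key : ∀ s : Fin n, j ≤ s.val → f.u e s = 0 ∧ ∀ t, s < t → f.L e s t = 0 := fun s hs => by
    obtain ⟨q, q1, q2, q3, -⟩ := f.exQ (Pi.single s 1) 0 0
    have hq : q ∈ f.Vs j := f.mem_Vs.2 ⟨q1, q3, fun i hi => by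
      rw [q2, Pi.single_eq_of_ne (fun e => by rw [e] at hi; omega)], fun e => by have := s.2; omega⟩
    obtain ⟨-, c2, -, c4⟩ := (f.comm_iff he q1.1).1 (h.2.1 q hq)
    rw [q3, q2, dotProduct_zero, single_dotProduct, one_mul] at c4
    refine ⟨c4.symm, fun t ht => ?_⟩
    rw [q1.2, vecMul_one, add_comm, add_left_inj, q2] at c2
    have := congrFun c2 t
    rw [Pi.single_eq_of_ne ht.ne', single_one_vecMul] at this
    exact this.symm
  refine ⟨fun i hi => (key i hi).1, fun s t hs ht => ht.elim (fun e => (key s e).2 t hs) fun e => ?_⟩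
  obtain ⟨q, q1, q2, q3, -⟩ := f.exQ (Pi.single s 1) 0 0
  have hq : q ∈ f.V := f.mem_V.2 ⟨q1, q3⟩
  have := (h.2.2 q hq).2.2.1 t e
  rwa [(f.chv_cm he hq).2.1, q2, Pi.add_apply, Pi.single_eq_of_ne hs.ne', add_zero, single_one_vecMul] at this

theorem chv_dec {k j : ℕ} {e : G} (h : f.chvT k j e) : ∃ v ∈ f.V, ∃ r ∈ f.R j, e = v * r := by
  have he := f.U_le k h.1
  obtain ⟨r, r1, r2, r3, r4, -⟩ := f.full (f.L e) (f.ut e he) 0 (f.u e) 0
  obtain ⟨c1, c2⟩ := f.chv_co h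
  refine ⟨e * r⁻¹, f.mem_V.2 ⟨⟨mul_mem he (inv_mem r1), ?_⟩, ?_⟩, r,
    f.mem_R.2 ⟨r1, fun i _ => by rw [r3, Pi.zero_apply], r4 ▸ c1, r2 ▸ c2⟩, by group⟩
  · rw [f.L_mul _ he _ (inv_mem r1), ← r2, f.L_mul_inv r1]
  · rw [f.u_mul _ he _ (inv_mem r1), ← r2, ← r4, ← f.u_mul _ r1 _ (inv_mem r1), mul_inv_cancel, f.u_one]

theorem rn {k j : ℕ} (hk : 1 ≤ k) (hj : j ≠ k) (hn : j < n) {g : G} (h1 : g ∈ 𝐍(f.U k)) (h2 : g ∈ 𝐍(f.V)) :
    g ∈ 𝐍(f.R j) := by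
  have h3 := f.chv hk hj h1 h2
  have hT : ∀ r ∈ f.R j ^ᶜ g, f.chvT k j r := fun r hr => by
    obtain ⟨a, ha, rfl⟩ := mem_cj'.1 hr
    exact f.chv_cj h1 h2 h3 (f.chv_R hj hn ha)
  have hc : ∀ a ∈ f.R j ^ᶜ g, ∀ b ∈ f.R j ^ᶜ g, a * b = b * a := fun a ha b hb => by
    obtain ⟨a', ha', rfl⟩ := mem_cj'.1 ha
    obtain ⟨b', hb', rfl⟩ := mem_cj'.1 hb
    rw [conj_mul, conj_mul, f.chv_Rc ha' hb']
  have lift : ∀ t ∈ f.R j, ∃ r ∈ f.R j ^ᶜ g, f.L r = f.L t ∧ f.u r = f.u t := fun t ht => by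
    obtain ⟨v, hv, r, hr, e⟩ := f.chv_dec (f.chv_cj (inv_mem h1) (inv_mem h2) (inv_mem h3) (f.chv_R hj hn ht))
    have hr' : g * r * g⁻¹ ∈ f.R j ^ᶜ g := mem_cj'.2 ⟨r, hr, rfl⟩
    obtain ⟨v1, v2⟩ := f.mem_V.1 (conj_mem_of_mem_normalizer h2 hv)
    have e' : t = g * v * g⁻¹ * (g * r * g⁻¹) := by rw [conj_mul, ← e]; group
    have rS := f.U_le k (hT _ hr').1
    refine ⟨_, hr', ?_, ?_⟩
    · rw [e', f.L_mul _ v1.1 _ rS, v1.2, one_mul]
    · rw [e', f.u_mul _ v1.1 _ rS, v1.2, v2, one_mulVec, zero_add]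
  refine mem_normalizer_of_cj_le fun r hr => ?_
  have rS := f.U_le k (hT r hr).1
  refine f.mem_R.2 ⟨rS, fun i hi => ?_, f.chv_co (hT r hr)⟩
  obtain ⟨p0, p1, p2, p3, -⟩ := f.exQ 0 (Pi.single i 1) 0
  obtain ⟨p, hp, p4, p5⟩ := lift p0 (f.mem_R.2 ⟨p1.1, fun s _ => by rw [p2, Pi.zero_apply], fun s hs => by
    rw [p3, Pi.single_eq_of_ne (fun e => by rw [e] at hs; omega)], fun s t hs _ => by
    rw [p1.2, one_apply_ne hs.ne]⟩)
  rw [p1.2] at p4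
  rw [p3] at p5
  have pS := f.U_le k (hT p hp).1
  have wp : ∀ s : Fin n, s.val < j → f.w p s = 0 := fun s hs => by
    have hs' : s < ⟨j, hn⟩ := hs
    obtain ⟨a0, a1, a2, a3, a4⟩ := f.exEl hs' 1
    obtain ⟨a, ha, a5, -⟩ := lift a0 (f.mem_R.2 ⟨a1, fun s _ => by rw [a3, Pi.zero_apply],
      fun s _ => by rw [a4, Pi.zero_apply], fun s' t ht h => by
        rw [a2, Matrix.add_apply, one_apply_ne ht.ne, zero_add, single_apply_of_ne]
        rintro ⟨rfl, rfl⟩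
        rcases h with h | h
        exacts [absurd hs (not_lt.2 h), lt_irrefl _ h]⟩)
    obtain ⟨-, c2, -, -⟩ := (f.comm_iff (f.U_le k (hT a ha).1) pS).1 (hc a ha p hp)
    rw [p4, vecMul_one, add_comm, add_left_inj, a5, a2, vecMul_add, vecMul_one, left_eq_add] at c2
    have := congrFun c2 ⟨j, hn⟩
    simpa [vecMul, dotProduct, single_apply] using this
  obtain ⟨-, -, -, c4⟩ := (f.comm_iff rS pS).1 (hc r hr p hp)
  rw [p5, dotProduct_single, mul_one] at c4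
  rw [c4]
  refine Finset.sum_eq_zero fun s _ => ?_
  by_cases e : s.val < j
  · rw [wp s e, zero_mul]
  · rw [(f.chv_co (hT r hr)).1 s (by omega), mul_zero]

theorem U_inj {k k' : ℕ} (hk : k ≤ n) (hk' : k' ≤ n) (h : f.U k = f.U k') : k = k' := by
  by_contra hne
  have hR : f.R k ≤ f.U k := h ▸ f.R_le_U hk hne
  have h2 := f.hn
  by_cases e0 : k = 0
  · obtain ⟨q, q1, q2, q3, -⟩ := f.exQ (Pi.single f.i0 1) 0 0
    have := (f.mem_U.1 (hR (by rw [e0, f.R_zero]; exact f.mem_V.2 ⟨q1, q3⟩))).2.1 e0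
    rw [q2, Pi.single_eq_same] at this
    exact one_ne_zero this
  by_cases en : k = n
  · obtain ⟨q, q1, q2, q3, -⟩ := f.exQ 0 (Pi.single f.iL 1) 0
    have := (f.mem_U.1 (hR (by rw [en, f.R_n]; exact f.mem_W.2 ⟨q1, q2⟩))).2.2.1 en
    rw [q3, Pi.single_eq_same] at this
    exact one_ne_zero this
  have hs : (⟨k - 1, by omega⟩ : Fin n) < ⟨k, by omega⟩ := by show k - 1 < k; omega
  obtain ⟨a, a1, a2, a3, a4⟩ := f.exEl hs 1
  have := (f.mem_U.1 (hR (f.mem_R.2 ⟨a1, fun s _ => by rw [a3, Pi.zero_apply],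
    fun s _ => by rw [a4, Pi.zero_apply], fun s t ht h => by
      rw [a2, Matrix.add_apply, one_apply_ne ht.ne, zero_add, single_apply_of_ne]
      rintro ⟨rfl, rfl⟩
      rcases h with h | h
      · have : k ≤ k - 1 := h
        omega
      · exact lt_irrefl _ h⟩))).2.2.2 ⟨k - 1, by omega⟩ ⟨k, by omega⟩ (by show k - 1 + 1 = k; omega) rfl
  rw [a2, Matrix.add_apply, one_apply_ne hs.ne, zero_add, single_apply_same] at this
  exact one_ne_zero this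

end Fr

end H46.Sl
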