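import Cfsg.Agent.Lib.SLM.A2
import Cfsg.Agent.Lib.SLM.A1d
import Cfsg.Agent.Lib.SLM.A1f
import Cfsg.Agent.Lib.SLM.A1g
import Cfsg.Agent.Lib.SLM.BI4
import Cfsg.Agent.Lib.SLM.C1b
import Cfsg.Agent.Lib.SLM.C2
import Cfsg.Agent.Lib.SLM.C3c

/-! Unitriangular Sylow 2-subgroups, package CL: see `blueprint/SLM/README.md`. -/

set_option autoImplicit false
set_option linter.unusedSectionVars false

namespace H46.Sl
open Subgroup H69 Cfsg Matrix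
open scoped commutatorElement

namespace Fr
variable {G : Type*} [Group G] [Finite G] {F : Type*} [Field F] [Fintype F] [CharP F 2] {n : ℕ}
  (f : Fr G F n) {E P M : Subgroup G}

theorem Mid.nV {f : Fr G F n} {k : ℕ} (h : f.Mid P M k) : P ≤ 𝐍(f.V) := by
  have := h.k1
  rcases Nat.lt_or_ge k 3 with c | c
  · obtain rfl | rfl : k = 1 ∨ k = 2 := by omega
    exacts [h.one, h.two]
  · exact h.big c

theorem B2.false {f : Fr G F n} (b : f.B2 E P M) : False := by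
  have hE := b.me.le
  by_cases c1 : ∃ y, f.Rg P M y ∧ f.H1 E y
  · obtain ⟨y, hy, h1⟩ := c1
    exact b.c1 hy h1 (b.c2 hy h1)
  by_cases c2 : ∃ y, f.Rg P M y ∧ f.H2 E y
  · obtain ⟨y, hy, h2⟩ := c2
    have yE : y ∈ E := (b.reg hy).1.1.1
    exact c1 ⟨y, hy, (f.dual_H2 hE yE).1 (b.dual.c2 (f.dual_Rg.2 hy) ((f.dual_H1 hE yE).2 h2))⟩
  exact b.c3 (fun y hy h => c1 ⟨y, hy, h⟩) fun y hy h => c2 ⟨y, hy, h⟩

theorem cl (h : ME f.S E P M) : ∃ k ≤ n, E = f.U k ∧ (1 ≤ k → P ≤ 𝐍(f.V)) ∧ (k < n → P ≤ 𝐍(f.W)) := by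
  by_cases hZ : f.Z ≤ 𝐂(P)
  · have hO : Oc P f.Z := fun g hg _ => le_centralizer_iff.1 hZ hg
    obtain ⟨j, i, a⟩ := f.ex_A1 h hO (f.a2 h hO)
    obtain ⟨k, e, m⟩ := a.mid
    exact ⟨k, m.kn.le, e, fun _ => m.nV, fun _ => m.dual.nV.trans_eq (by rw [V, f.dual_Vs])⟩
  by_cases c : ∃ x ∈ P, x ∉ M ∧ ∃ z ∈ f.Z, z ∉ 𝐂(P) ∧ x * z * x⁻¹ ∈ f.Q
  · obtain ⟨x, hx, hM, z, hz, hP, hQ⟩ := c
    rcases f.bi h hx hM hz hP hQ with ⟨e, k⟩ | ⟨e, k⟩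
    · exact ⟨n, le_rfl, e, fun _ => k, fun c => (lt_irrefl _ c).elim⟩
    · exact ⟨0, Nat.zero_le _, e, fun c => by omega, fun _ => k⟩
  · exact (B2.false (f := f) ⟨h, hZ, fun x hx hM z hz hQ => by_contra fun hP =>
      c ⟨x, hx, hM, z, hz, hP, hQ⟩⟩).elim

end Fr

end H46.Sl
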