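import Cfsg.Agent.Lib.SLM.Bas2
import Cfsg.Agent.Lib.SLM.LA
import Cfsg.Agent.Lib.SLM.MB2

/-! Unitriangular Sylow 2-subgroups, package DD: see `blueprint/SLM/README.md`. -/

set_option autoImplicit false
set_option linter.unusedSectionVars false

namespace H46.Sl
open Subgroup H69 Cfsg Matrix
open scoped commutatorElement

namespace Fr
variable {G : Type*} [Group G] [Finite G] {F : Type*} [Field F] [Fintype F] [CharP F 2] {n : ℕ}
  (f : Fr G F n) {E P M : Subgroup G}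

theorem DD_ZE (h : ME f.S E P M) : f.Z ≤ Yp E := fun z hz =>
  have c : z ∈ 𝐂(E) := centralizer_anti h.le (f.Z_cen hz)
  ⟨h.cen ⟨f.Q_le (f.Vs_le _ hz), c⟩, c, f.V_sq (f.Vs_anti (Nat.zero_le _) hz)⟩

theorem DD_half (h : ME f.S E P M) (hZ : Oc P f.Z) : ∃ j, 1 ≤ j ∧ j ≤ n ∧ Oc P (f.Vs j) ∧
    ¬ Oc P (f.Vs (j - 1)) ∧ f.Vs (j - 1) ≤ E ∧ P ≤ 𝐍(f.Vs j) := by
  classical
  have hn : f.Vs n ≤ E ∧ Oc P (f.Vs n) := ⟨fun z hz => (f.DD_ZE h hz).1, hZ⟩
  have ex : ∃ j, f.Vs j ≤ E ∧ Oc P (f.Vs j) := ⟨n, hn⟩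
  obtain ⟨a, b⟩ := Nat.find_spec ex
  have mn := fun m => Nat.find_min ex (m := m)
  have jn := Nat.find_min' ex hn
  generalize Nat.find ex = j at a b mn jn
  have PV := h.norm_of_Oc (f.nVs j) b
  have j1 : 1 ≤ j := Nat.one_le_iff_ne_zero.2 (by
    rintro rfl
    exact h.not_Oc_of a PV ((inf_le_inf_right _ h.le).trans f.cenV) b)
  have VE : f.Vs (j - 1) ≤ E := fun v hv => by
    by_contra hE
    have k : ∀ e ∈ E, ⁅v, e⁆ ∈ f.Vs j := fun e he => by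
      have := inv_mem (f.cmVs (h.le he) hv)
      rwa [commutatorElement_inv, Nat.sub_add_cancel j1] at this
    have hN : v ∈ 𝐍(E) := mem_normalizer_fintype fun e he => by
      have := mul_mem (a (k e he)) he
      rwa [commutatorElement_def, inv_mul_cancel_right] at this
    exact h.not_Oc fun g hg ho => odd_two (h.pS.to_le h.le) a ho
      (h.pm_mod h.nE PV ⟨f.Q_le (f.Vs_le _ hv), hN⟩ hE k g hg ho) (b g hg ho)
  exact ⟨j, j1, jn, b, fun o => mn (j - 1) (by omega) ⟨VE, o⟩, VE, PV⟩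

/-- the elements of `S` centralised by `g` modulo `D j i` -/
def DD_K (j i : ℕ) (g : G) : Subgroup G :=
  sub (fun a => a ∈ f.S ∧ ⁅a, g⁆ ∈ f.D j i) ⟨one_mem _, by simp⟩ fun a b ha hb => ⟨mul_mem ha.1 hb.1, by
    have := mul_mem ((mem_normalizer_iff.1 (f.nD j i ha.1) _).1 hb.2) ha.2
    rwa [show a * ⁅b, g⁆ * a⁻¹ * ⁅a, g⁆ = ⁅a * b, g⁆ by simp only [commutatorElement_def]; group] at this⟩

theorem DD_mem {j i : ℕ} {g a : G} : a ∈ f.DD_K j i g ↔ a ∈ f.S ∧ ⁅a, g⁆ ∈ f.D j i := Iff.rfl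

theorem ex_DD (h : ME f.S E P M) (hZ : Oc P f.Z) : ∃ j i, f.DD E P j i := by
  obtain ⟨j, a1, a2, a3, a4, a5, a6⟩ := f.DD_half h hZ
  obtain ⟨i, b1, b2, b3, b4, b5, b6⟩ := f.dual.DD_half (E := E) (P := P) (M := M) h (by rwa [f.dual_Z])
  rw [f.dual_Vs] at b3 b4 b5 b6
  exact ⟨j, i, a1, a2, b1, b2, a3, b3, a4, b4, a5, b5, a6, b6⟩

theorem DD.PD {f : Fr G F n} {j i : ℕ} (d : f.DD E P j i) : P ≤ 𝐍(f.D j i) := by
  exact (le_inf d.PV d.PW).trans (normalizer_inf_normalizer_le_normalizer_sup _ _)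

theorem DD.cD {f : Fr G F n} {j i : ℕ} (d : f.DD E P j i) : Oc P (f.D j i) := by
  intro g hg ho a ha
  have : f.D j i ≤ centralizer {g} := sup_le
    (fun x hx => mem_centralizer_singleton_iff.2 (d.cV g hg ho x hx))
    fun x hx => mem_centralizer_singleton_iff.2 (d.cW g hg ho x hx)
  exact mem_centralizer_singleton_iff.1 (this ha)

theorem DD.DE {f : Fr G F n} {j i : ℕ} (d : f.DD E P j i) : f.D (j - 1) (i - 1) ≤ E := by
  exact sup_le d.VE d.WE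

theorem DD.cmD {f : Fr G F n} {j i : ℕ} (d : f.DD E P j i) {p s : G} (hp : p ∈ f.D (j - 1) (i - 1))
    (hs : s ∈ f.S) : ⁅p, s⁆ ∈ f.D j i := by
  have : f.D (j - 1) (i - 1) ≤ f.DD_K j i s := sup_le (fun v hv => ⟨f.Q_le (f.Vs_le _ hv), by
      have := inv_mem (f.cmVs hs hv)
      rw [commutatorElement_inv, Nat.sub_add_cancel d.j1] at this
      exact mem_sup_left this⟩) fun v hv => ⟨f.Q_le (f.Ws_le _ hv), by
      have := inv_mem (f.cmWs hs hv)
      rw [commutatorElement_inv, Nat.sub_add_cancel d.i1] at this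
      exact mem_sup_right this⟩
  exact (this hp).2

theorem DD.exV {f : Fr G F n} {j i : ℕ} (h : ME f.S E P M) (d : f.DD E P j i) :
    ∃ v ∈ f.Vs (j - 1), ∃ g ∈ P, ⁅v, g⁆ ∉ f.D j i := by
  by_contra! k
  refine d.nV fun g hg ho => centralizer_anti (B := f.DD_K j i g)
    (fun v hv => ⟨f.Q_le (f.Vs_le _ hv), k v hv g hg⟩) (odd_two (A := f.DD_K j i g) (B := f.D j i)
      (h.pS.to_le fun a ha => ha.1)
      (fun b hb => ⟨f.Q_le (sup_le (f.Vs_le j) (f.Ws_le i) hb), ?_⟩) ho (fun a ha => ?_) (d.cD g hg ho))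
  · rw [commutatorElement_eq_one_iff_mul_comm.2 (d.cD g hg ho b hb)]
    exact one_mem _
  · rw [← commutatorElement_inv]
    exact inv_mem ha.2

theorem cZ_of (h : ME f.S E P M) (hZ : Oc P f.Z) : P ≤ 𝐂(f.Z) := by
  exact h.gen_odd (inf_le_left.trans (le_centralizer_iff.1 f.Z_cen)) hZ

theorem ZE (h : ME f.S E P M) : f.Z ≤ Yp E := by
  exact f.DD_ZE h

theorem DD_eqns : True := by
  have := @DD_K.eq_1.{0, 0}
  trivial

end Fr

end H46.Sl
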