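import Cfsg.Agent.Lib.LocStruct.SylowIn

/-! # Simple groups with a unitriangular Sylow 2-subgroup: definitions.  See `blueprint/SLM/README.md`. -/

set_option autoImplicit false
set_option linter.unusedSectionVars false

namespace H46.Sl
open Subgroup H69 Cfsg Matrix
open scoped commutatorElement

variable {G : Type*} [Group G]

/-- a multiplicatively closed subset of a finite group -/
def sub [Finite G] (p : G → Prop) (h1 : p 1) (hm : ∀ a b, p a → p b → p (a * b)) : Subgroup G where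
  carrier := {a | p a}
  one_mem' := h1
  mul_mem' := hm _ _
  inv_mem' := fun {a} ha => by
    have k : ∀ m : ℕ, p (a ^ m) := fun m => by
      induction m with
      | zero => simpa using h1
      | succ m ih => rw [pow_succ]; exact hm _ _ ih ha
    have e : a⁻¹ = a ^ (orderOf a - 1) := inv_eq_of_mul_eq_one_right (by
      rw [← pow_succ', Nat.sub_add_cancel (orderOf_pos a), pow_orderOf_eq_one])
    exact e ▸ k _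

theorem mem_sub [Finite G] {p : G → Prop} {h1 hm} {a : G} : a ∈ sub p h1 hm ↔ p a := Iff.rfl

/-- the elements of odd order of `P` centralise `A` -/
def Oc (P A : Subgroup G) : Prop := ∀ g ∈ P, Odd (orderOf g) → g ∈ 𝐂(A)

/-- `Ω₁(Z(E))` -/
def Yp (E : Subgroup G) : Subgroup G where
  carrier := {e | e ∈ E ∧ e ∈ 𝐂(E) ∧ e * e = 1}
  one_mem' := ⟨one_mem _, one_mem _, mul_one _⟩
  mul_mem' := fun {a b} ha hb => ⟨mul_mem ha.1 hb.1, mul_mem ha.2.1 hb.2.1, by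
    rw [mul_assoc, ← mul_assoc b, ha.2.1 b hb.1, mul_assoc, hb.2.2, mul_one, ha.2.2]⟩
  inv_mem' := fun {a} ha => by rwa [inv_eq_of_mul_eq_one_right ha.2.2]

theorem mem_Yp {E : Subgroup G} {e : G} : e ∈ Yp E ↔ e ∈ E ∧ e ∈ 𝐂(E) ∧ e * e = 1 := Iff.rfl

/-- minimal essential configuration: `R = S ⊓ 𝐍(E)` is Sylow in `P ≤ 𝐍(E)`, `M / E` is strongly embedded in
`P / E` and `M` is the only maximal subgroup of `P` over `R` -/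
structure ME (S E P M : Subgroup G) : Prop where
  pS : IsPGroup 2 S
  le : E ≤ S
  ne : ¬ S ≤ E
  nE : P ≤ 𝐍(E)
  RM : S ⊓ 𝐍(E) ≤ M
  MP : M ≤ P
  nM : ¬ P ≤ M
  syl : IsSylowIn 2 (S ⊓ 𝐍(E)) P
  cM : P ⊓ 𝐂(E) ≤ M
  se : ∀ x ∈ P, ∀ a ∈ M, (∃ k : ℕ, a ^ 2 ^ k = 1) → a ∉ E → x * a * x⁻¹ ∈ M → x ∈ M
  min : ∀ K : Subgroup G, S ⊓ 𝐍(E) ≤ K → K ≤ P → K ≤ M ∨ P ≤ K

/-- the point-hyperplane geometry of the conjugates of `V` and `W` -/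
structure Geo (V W : Subgroup G) (q n : ℕ) : Prop where
  sq : ∀ v ∈ V, v * v = 1
  cV : Nat.card V = q ^ (n + 1)
  cen : 𝐂(V) ≤ V
  ti : ∀ g, V ⊓ V ^ᶜ g ≠ ⊥ → g ∈ 𝐍(V)
  inc : V ⊓ W ≠ ⊥
  flag : ∀ b, V ⊓ W ^ᶜ b ≠ ⊥ → ∃ g ∈ 𝐍(V), g * b ∈ 𝐍(W)
  flag' : ∀ a, V ^ᶜ a ⊓ W ≠ ⊥ → ∃ g ∈ 𝐍(W), g * a ∈ 𝐍(V)
  trans : ∀ a a' b b', V ⊓ W ^ᶜ b ≠ ⊥ → V ^ᶜ a ⊓ W ^ᶜ b ≠ ⊥ → V ⊓ W ^ᶜ b' ≠ ⊥ → V ^ᶜ a' ⊓ W ^ᶜ b' ≠ ⊥ →
    ∃ c, V ^ᶜ a ⊓ W ^ᶜ c ≠ ⊥ ∧ V ^ᶜ a' ⊓ W ^ᶜ c ≠ ⊥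
  two : ∀ a a', a ∉ 𝐍(V) → a' ∉ 𝐍(V) → V ^ᶜ a ⊓ W ≠ ⊥ → V ^ᶜ a' ⊓ W ≠ ⊥ →
    ∃ g ∈ 𝐍(V), V ^ᶜ (g * a) = V ^ᶜ a'
  ex : ∃ a, a ∉ 𝐍(V) ∧ V ^ᶜ a ⊓ W ≠ ⊥
  cN : ∀ a, a ∉ 𝐍(V) → V ^ᶜ a ⊓ W ≠ ⊥ → Nat.card (V ⊓ 𝐍(V ^ᶜ a) : Subgroup G) = q ^ n
  mv : ∀ v ∈ V, v ≠ 1 → ∃ a b, V ⊓ W ^ᶜ b ≠ ⊥ ∧ V ^ᶜ a ⊓ W ^ᶜ b ≠ ⊥ ∧ v ∉ 𝐍(V ^ᶜ a)
  fus : ∀ v ∈ V, v ≠ 1 → ∀ g, g * v * g⁻¹ ∈ 𝐍(V) ⊔ 𝐍(W) → g ∈ 𝐍(V) ⊔ 𝐍(W)
  cov : ∀ U : Subgroup G, IsPGroup 2 U → U ≤ 𝐍(V) ⊔ 𝐍(W) →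
    ∃ v ∈ V, v ≠ 1 ∧ ∃ g ∈ 𝐍(V) ⊔ 𝐍(W), ∀ x ∈ U, x * (g * v * g⁻¹) = g * v * g⁻¹ * x

/-- the points -/
def Pt (V W : Subgroup G) : Type _ := {p : Subgroup G // ∃ g ∈ 𝐍(V) ⊔ 𝐍(W), p = V ^ᶜ g}

instance (V W : Subgroup G) : MulAction (𝐍(V) ⊔ 𝐍(W) : Subgroup G) (Pt V W) where
  smul g p := ⟨p.1 ^ᶜ (g : G), let ⟨a, ha, e⟩ := p.2; ⟨g * a, mul_mem g.2 ha, by rw [e, cj_cj]⟩⟩
  one_smul p := Subtype.ext (cj_one p.1)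
  mul_smul a b p := Subtype.ext (cj_cj p.1 _ _).symm

theorem smul_val {V W : Subgroup G} (g : (𝐍(V) ⊔ 𝐍(W) : Subgroup G)) (p : Pt V W) :
    (g • p).1 = p.1 ^ᶜ (g : G) := rfl

/-- a Sylow 2-subgroup `S` with coordinates `[[1, w, c], [0, L, u], [0, 0, 1]]`, `L` upper unitriangular -/
structure Fr (G : Type*) [Group G] (F : Type*) [Field F] [Fintype F] (n : ℕ) where
  S : Subgroup G
  L : G → Matrix (Fin n) (Fin n) F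
  w : G → Fin n → F
  u : G → Fin n → F
  c : G → F
  hn : 2 ≤ n
  hq : 4 ≤ Fintype.card F
  syl : IsSylowIn 2 S ⊤
  ut : ∀ a ∈ S, ∀ i j, j ≤ i → L a i j = (1 : Matrix (Fin n) (Fin n) F) i j
  L_mul : ∀ a ∈ S, ∀ b ∈ S, L (a * b) = L a * L b
  w_mul : ∀ a ∈ S, ∀ b ∈ S, w (a * b) = w a ᵥ* L b + w b
  u_mul : ∀ a ∈ S, ∀ b ∈ S, u (a * b) = u a + L a *ᵥ u b
  c_mul : ∀ a ∈ S, ∀ b ∈ S, c (a * b) = c a + c b + w a ⬝ᵥ u b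
  L_one : L 1 = 1
  w_one : w 1 = 0
  u_one : u 1 = 0
  c_one : c 1 = 0
  inj : ∀ a ∈ S, ∀ b ∈ S, L a = L b → w a = w b → u a = u b → c a = c b → a = b
  full : ∀ A : Matrix (Fin n) (Fin n) F, (∀ i j, j ≤ i → A i j = (1 : Matrix (Fin n) (Fin n) F) i j) →
    ∀ x y z, ∃ a ∈ S, L a = A ∧ w a = x ∧ u a = y ∧ c a = z

namespace Fr
variable [Finite G] {F : Type*} [Field F] [Fintype F] {n : ℕ} (f : Fr G F n)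

def i0 : Fin n := ⟨0, by have := f.hn; omega⟩
def i1 : Fin n := ⟨1, f.hn⟩
def iL : Fin n := ⟨n - 1, by have := f.hn; omega⟩

/-- the frame of the inverse anti-transposed matrices -/
def dual : Fr G F n where
  S := f.S
  L a := of fun i j => f.L a⁻¹ j.rev i.rev
  w a i := f.u a⁻¹ i.rev
  u a i := f.w a⁻¹ i.rev
  c a := f.c a⁻¹
  hn := f.hn
  hq := f.hq
  syl := f.syl
  ut a ha i j h := by
    rw [of_apply, f.ut _ (inv_mem ha) _ _ (Fin.rev_le_rev.2 h)]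
    simp [one_apply, eq_comm]
  L_mul a ha b hb := by
    ext i j
    simp only [of_apply, _root_.mul_inv_rev, f.L_mul _ (inv_mem hb) _ (inv_mem ha), mul_apply]
    exact Fintype.sum_equiv Fin.revPerm _ _ fun k => by simp [mul_comm]
  w_mul a ha b hb := by
    ext i
    simp only [_root_.mul_inv_rev, f.u_mul _ (inv_mem hb) _ (inv_mem ha), Pi.add_apply, vecMul, mulVec,
      dotProduct, of_apply, add_comm]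
    exact congrArg (_ + ·) (Fintype.sum_equiv Fin.revPerm _ _ fun k => by simp [mul_comm])
  u_mul a ha b hb := by
    ext i
    simp only [_root_.mul_inv_rev, f.w_mul _ (inv_mem hb) _ (inv_mem ha), Pi.add_apply, vecMul, mulVec,
      dotProduct, of_apply, add_comm]
    exact congrArg (_ + ·) (Fintype.sum_equiv Fin.revPerm _ _ fun k => by simp [mul_comm])
  c_mul a ha b hb := by
    simp only [_root_.mul_inv_rev, f.c_mul _ (inv_mem hb) _ (inv_mem ha), dotProduct, add_comm (f.c b⁻¹)]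
    exact congrArg (_ + ·) (Fintype.sum_equiv Fin.revPerm _ _ fun k => by simp [mul_comm])
  L_one := by ext i j; simp [f.L_one, one_apply, eq_comm]
  w_one := by ext i; simp [f.u_one]
  u_one := by ext i; simp [f.w_one]
  c_one := by simp [f.c_one]
  inj a ha b hb h1 h2 h3 h4 := inv_injective (f.inj _ (inv_mem ha) _ (inv_mem hb)
    (by ext i j; simpa using congrFun (congrFun h1 j.rev) i.rev)
    (by ext i; simpa using congrFun h3 i.rev) (by ext i; simpa using congrFun h2 i.rev) h4)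
  full A hA x y z := by
    obtain ⟨a, ha, e1, e2, e3, e4⟩ := f.full (of fun i j => A j.rev i.rev) (fun i j h => by
      rw [of_apply, hA _ _ (Fin.rev_le_rev.2 h)]; simp [one_apply, eq_comm])
      (fun i => y i.rev) (fun i => x i.rev) z
    exact ⟨a⁻¹, inv_mem ha, by ext i j; simp [e1], by ext i; simp [e3], by ext i; simp [e2], by simp [e4]⟩

def Q : Subgroup G := sub (fun a => a ∈ f.S ∧ f.L a = 1) ⟨one_mem _, f.L_one⟩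
  fun a b ha hb => ⟨mul_mem ha.1 hb.1, by rw [f.L_mul _ ha.1 _ hb.1, ha.2, hb.2, mul_one]⟩

/-- first row, `w i = 0` for `i < j`; `Vs 0 = V`, `Vs n = Z`, `Vs (n + 1) = ⊥` -/
def Vs (j : ℕ) : Subgroup G :=
  sub (fun a => a ∈ f.Q ∧ f.u a = 0 ∧ (∀ i : Fin n, i.val < j → f.w a i = 0) ∧ (n < j → f.c a = 0))
    ⟨one_mem _, f.u_one, fun i _ => by simp [f.w_one], fun _ => f.c_one⟩ fun a b ha hb =>
    ⟨mul_mem ha.1 hb.1, by simp [f.u_mul _ ha.1.1 _ hb.1.1, ha.2.1, hb.2.1],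
      fun i hi => by simp [f.w_mul _ ha.1.1 _ hb.1.1, hb.1.2, ha.2.2.1 i hi, hb.2.2.1 i hi],
      fun h => by simp [f.c_mul _ ha.1.1 _ hb.1.1, hb.2.1, ha.2.2.2 h, hb.2.2.2 h]⟩

/-- last column, the last `j` coordinates of `u` vanish; `Ws 0 = W`, `Ws n = Z`, `Ws (n + 1) = ⊥` -/
def Ws (j : ℕ) : Subgroup G :=
  sub (fun a => a ∈ f.Q ∧ f.w a = 0 ∧ (∀ i : Fin n, n ≤ i.val + j → f.u a i = 0) ∧ (n < j → f.c a = 0))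
    ⟨one_mem _, f.w_one, fun i _ => by simp [f.u_one], fun _ => f.c_one⟩ fun a b ha hb =>
    ⟨mul_mem ha.1 hb.1, by simp [f.w_mul _ ha.1.1 _ hb.1.1, ha.2.1, hb.2.1],
      fun i hi => by simp [f.u_mul _ ha.1.1 _ hb.1.1, ha.1.2, ha.2.2.1 i hi, hb.2.2.1 i hi],
      fun h => by simp [f.c_mul _ ha.1.1 _ hb.1.1, ha.2.1, ha.2.2.2 h, hb.2.2.2 h]⟩

abbrev V : Subgroup G := f.Vs 0
abbrev W : Subgroup G := f.Ws 0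
abbrev Z : Subgroup G := f.Vs n
/-- `D j i = Vs j ⊔ Ws i` -/
abbrev D (j i : ℕ) : Subgroup G := f.Vs j ⊔ f.Ws i
/-- `A E = N_Q(E)` -/
abbrev A (E : Subgroup G) : Subgroup G := f.Q ⊓ 𝐍(E)

/-- the graph of `μ e₀ ∧ e₁`; `I 0 = V` -/
def I (μ : F) : Subgroup G :=
  sub (fun a => a ∈ f.Q ∧ f.u a f.i0 = μ * f.w a f.i1 ∧ f.u a f.i1 = μ * f.w a f.i0 ∧
      ∀ i : Fin n, 2 ≤ i.val → f.u a i = 0)
    ⟨one_mem _, by simp [f.u_one, f.w_one], by simp [f.u_one, f.w_one], fun i _ => by simp [f.u_one]⟩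
    fun a b ha hb => ⟨mul_mem ha.1 hb.1,
      by simp [f.u_mul _ ha.1.1 _ hb.1.1, f.w_mul _ ha.1.1 _ hb.1.1, ha.1.2, hb.1.2, ha.2.1, hb.2.1, mul_add],
      by simp [f.u_mul _ ha.1.1 _ hb.1.1, f.w_mul _ ha.1.1 _ hb.1.1, ha.1.2, hb.1.2, ha.2.2.1, hb.2.2.1,
        mul_add],
      fun i hi => by simp [f.u_mul _ ha.1.1 _ hb.1.1, ha.1.2, ha.2.2.2 i hi, hb.2.2.2 i hi]⟩

/-- the entry `(k, k + 1)` of the big matrix vanishes; `U (n + 1) = S` -/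
def UP (k : ℕ) (a : G) : Prop := a ∈ f.S ∧ (k = 0 → f.w a f.i0 = 0) ∧ (k = n → f.u a f.iL = 0) ∧
  ∀ i j : Fin n, i.val + 1 = k → j.val = k → f.L a i j = 0
def U (k : ℕ) : Subgroup G := closure {a | f.UP k a}

/-- only the entries `(s, t)` with `s ≤ j < t` of the big matrix; `R 0 = V`, `R n = W` -/
def RP (j : ℕ) (a : G) : Prop := a ∈ f.S ∧ (∀ i : Fin n, i.val < j → f.w a i = 0) ∧
  (∀ i : Fin n, j ≤ i.val → f.u a i = 0) ∧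
  ∀ s t : Fin n, s < t → j ≤ s.val ∨ t.val < j → f.L a s t = 0
def R (j : ℕ) : Subgroup G := closure {a | f.RP j a}

/-- the bilinear form on `Q / Z` -/
def B (p q : G) : F := f.w p ⬝ᵥ f.u q + f.w q ⬝ᵥ f.u p
/-- `a = 1 + l E_{s t}` in the middle block -/
def El (s t : Fin n) (l : F) (a : G) : Prop :=
  a ∈ f.S ∧ f.L a = 1 + single s t l ∧ f.w a = 0 ∧ f.u a = 0
/-- `y` centralises `q ∈ Q` modulo `Z` -/
def Ker (y q : G) : Prop := f.w q ᵥ* f.L y = f.w q ∧ f.L y *ᵥ f.u q = f.u q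
/-- `C_S(y) = E` -/
def Reg (E : Subgroup G) (y : G) : Prop := y ∈ Yp E ∧ f.S ⊓ centralizer {y} ≤ E
def H1 (E : Subgroup G) (y : G) : Prop := ∃ v ∈ f.V, f.Ker y v ∧ v ∉ E
def H2 (E : Subgroup G) (y : G) : Prop := ∃ v ∈ f.W, f.Ker y v ∧ v ∉ E
/-- the cubic form `[[a, y], b]` for `a ∈ V`, `b ∈ W` -/
def cu (y a b : G) : F := (f.w a ᵥ* f.L y + f.w a) ⬝ᵥ f.u b
/-- every `U k` occurs -/
def Full : Prop := ∀ k ≤ n, ∃ P M, ME f.S (f.U k) P M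

/-- `Vs j` and `Ws i` are the largest members of the two chains centralised by the odd order elements -/
structure DD (E P : Subgroup G) (j i : ℕ) : Prop where
  j1 : 1 ≤ j
  jn : j ≤ n
  i1 : 1 ≤ i
  in' : i ≤ n
  cV : Oc P (f.Vs j)
  cW : Oc P (f.Ws i)
  nV : ¬ Oc P (f.Vs (j - 1))
  nW : ¬ Oc P (f.Ws (i - 1))
  VE : f.Vs (j - 1) ≤ E
  WE : f.Ws (i - 1) ≤ E
  PV : P ≤ 𝐍(f.Vs j)
  PW : P ≤ 𝐍(f.Ws i)

/-- case (a1) -/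
structure A1 (E P M : Subgroup G) (j i : ℕ) : Prop where
  me : ME f.S E P M
  dd : f.DD E P j i
  QE : f.Q ≤ E
  nQ : P ≤ 𝐍(f.Q)
  cZ : P ≤ 𝐂(f.Z)

/-- case (a1), `E = U k` found -/
structure Mid (P M : Subgroup G) (k : ℕ) : Prop where
  k1 : 1 ≤ k
  kn : k < n
  a1 : f.A1 (f.U k) P M (k + 1) (n - k + 1)
  reg : ∀ p ∈ f.D k (n - k), p ∉ f.D (k + 1) (n - k + 1) → ∀ x ∈ P, x ∉ M → ∀ s ∈ f.S,
    ⁅x * p * x⁻¹, s⁆ ∈ f.D (k + 1) (n - k + 1) → s ∈ f.U k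

/-- case (b-i); `U = E ⊓ Q`, `I = U ⊓ U ^ᶜ x` -/
structure B1 (E : Subgroup G) (x y : G) : Prop where
  nE : x ∈ 𝐍(E)
  yZ : y ∈ f.Z ^ᶜ x
  yQ : y ∈ f.Q
  y1 : y ∉ f.Z
  eq : ∀ s, s ∈ E ↔ s ∈ f.S ∧ s * y = y * s
  zz : f.Z ⊓ f.Z ^ᶜ x = ⊥
  line : ∀ p ∈ f.Z ^ᶜ x, p ∈ f.Q ∧ ∃ l : F, f.w p = l • f.w y ∧ f.u p = l • f.u y
  ZI : f.Z ≤ (E ⊓ f.Q) ⊓ (E ⊓ f.Q) ^ᶜ x
  cU : Nat.card (E ⊓ f.Q : Subgroup G) = Fintype.card F ^ (2 * n)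
  sq : ∀ p ∈ (E ⊓ f.Q) ⊓ (E ⊓ f.Q) ^ᶜ x, p * p = 1
  fix : ∀ p ∈ (E ⊓ f.Q) ⊓ (E ⊓ f.Q) ^ᶜ x, (∀ e ∈ (E ⊓ f.Q) ^ᶜ x, ⁅e, p⁆ ∈ f.Z) →
    ∃ l : F, f.w p = l • f.w y ∧ f.u p = l • f.u y

/-- case (b-ii) -/
structure B2 (E P M : Subgroup G) : Prop where
  me : ME f.S E P M
  nZ : ¬ f.Z ≤ 𝐂(P)
  out : ∀ x ∈ P, x ∉ M → ∀ z ∈ f.Z, x * z * x⁻¹ ∈ f.Q → z ∈ 𝐂(P)

/-- the conjugates of the elements of `Z` outside `𝐂(P)` by elements outside `M` -/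
def Rg (P M : Subgroup G) (y : G) : Prop := ∃ x ∈ P, x ∉ M ∧ ∃ z ∈ f.Z, z ∉ 𝐂(P) ∧ y = x * z * x⁻¹

/-- characteristic 2 at the centre of `S` -/
structure Ch : Prop where
  full : f.Full
  cz : ∀ z ∈ f.Z, z ≠ 1 → centralizer {z} ≤ 𝐍(f.V) ⊓ 𝐍(f.W)
  cV : 𝐂(f.V) ≤ f.V
  cW : 𝐂(f.W) ≤ f.W

theorem mem_Q {a : G} : a ∈ f.Q ↔ a ∈ f.S ∧ f.L a = 1 := Iff.rfl
theorem mem_Vs {j : ℕ} {a : G} : a ∈ f.Vs j ↔
    a ∈ f.Q ∧ f.u a = 0 ∧ (∀ i : Fin n, i.val < j → f.w a i = 0) ∧ (n < j → f.c a = 0) := Iff.rfl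
theorem mem_Ws {j : ℕ} {a : G} : a ∈ f.Ws j ↔
    a ∈ f.Q ∧ f.w a = 0 ∧ (∀ i : Fin n, n ≤ i.val + j → f.u a i = 0) ∧ (n < j → f.c a = 0) := Iff.rfl
theorem mem_I {μ : F} {a : G} : a ∈ f.I μ ↔ a ∈ f.Q ∧ f.u a f.i0 = μ * f.w a f.i1 ∧
    f.u a f.i1 = μ * f.w a f.i0 ∧ ∀ i : Fin n, 2 ≤ i.val → f.u a i = 0 := Iff.rfl
theorem dual_S : f.dual.S = f.S := rfl

end Fr

end H46.Sl
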