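import Cfsg.Agent.Lib.SLM.Defs

/-! Unitriangular Sylow 2-subgroups, package EL1: see `blueprint/SLM/README.md`. -/

set_option autoImplicit false
set_option linter.unusedSectionVars false

namespace H46.Sl
open Subgroup H69 Cfsg Matrix
open scoped commutatorElement

variable {G : Type*} [Group G] [Finite G] {S E P M : Subgroup G}

variable {V W : Subgroup G} {q n : ℕ}

theorem EL1_cj {a b : G} (g : G) (h : V ^ᶜ a ⊓ W ^ᶜ b ≠ ⊥) : V ^ᶜ (g * a) ⊓ W ^ᶜ (g * b) ≠ ⊥ := by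
  rw [← cj_cj, ← cj_cj, ← cj_inf]
  exact fun e => h (cj_eq_bot_iff.1 e)

theorem Geo.mem (h : Geo V W q n) {a b : G} (h1 : V ⊓ W ^ᶜ b ≠ ⊥) (h2 : V ^ᶜ a ⊓ W ^ᶜ b ≠ ⊥) : a ∈ 𝐍(V) ⊔ 𝐍(W) := by
  obtain ⟨g, hg, hb⟩ := h.flag b h1
  have h3 := EL1_cj g h2
  rw [cj_eq_of_mem_normalizer hb] at h3
  obtain ⟨g', hg', ha⟩ := h.flag' _ h3
  have e : a = g⁻¹ * (g'⁻¹ * (g' * (g * a))) := by group
  rw [e]
  exact mul_mem (mem_sup_left (inv_mem hg)) (mul_mem (mem_sup_right (inv_mem hg')) (mem_sup_left ha))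

theorem Geo.adj (h : Geo V W q n) {a : G} (ha : a ∈ 𝐍(V) ⊔ 𝐍(W)) : ∃ b, V ⊓ W ^ᶜ b ≠ ⊥ ∧ V ^ᶜ a ⊓ W ^ᶜ b ≠ ⊥ := by
  have hi : V ⊓ W ^ᶜ (1 : G) ≠ ⊥ := by rw [cj_one]; exact h.inc
  have inv : ∀ a : G, (∃ b, V ⊓ W ^ᶜ b ≠ ⊥ ∧ V ^ᶜ a ⊓ W ^ᶜ b ≠ ⊥) →
      ∃ b, V ⊓ W ^ᶜ b ≠ ⊥ ∧ V ^ᶜ a⁻¹ ⊓ W ^ᶜ b ≠ ⊥ := by
    rintro a ⟨b, h1, h2⟩
    refine ⟨a⁻¹ * b, ?_, ?_⟩
    · have := EL1_cj a⁻¹ h2
      rwa [inv_mul_cancel, cj_one] at this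
    · have h1' : V ^ᶜ (1 : G) ⊓ W ^ᶜ b ≠ ⊥ := by rwa [cj_one]
      have := EL1_cj a⁻¹ h1'
      rwa [mul_one] at this
  let K : Subgroup G :=
    { carrier := {a | ∃ b, V ⊓ W ^ᶜ b ≠ ⊥ ∧ V ^ᶜ a ⊓ W ^ᶜ b ≠ ⊥}
      one_mem' := ⟨1, hi, by rw [cj_one]; exact hi⟩
      inv_mem' := fun {a} ha => inv a ha
      mul_mem' := fun {a a'} ha ha' => by
        obtain ⟨b, h1, h2⟩ := inv a ha
        obtain ⟨b', h3, h4⟩ := ha'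
        obtain ⟨c, h5, h6⟩ := h.trans _ _ _ _ h1 h2 h3 h4
        refine ⟨a * c, ?_, EL1_cj a h6⟩
        have := EL1_cj a h5
        rwa [mul_inv_cancel, cj_one] at this }
  have hK : 𝐍(V) ⊔ 𝐍(W) ≤ K := sup_le
    (fun a ha => ⟨1, hi, by rw [cj_eq_of_mem_normalizer ha]; exact hi⟩)
    (fun a ha => ⟨1, hi, by
      have h1' : V ^ᶜ (1 : G) ⊓ W ^ᶜ (1 : G) ≠ ⊥ := by rw [cj_one]; exact hi
      have := EL1_cj a h1'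
      rwa [mul_one, cj_eq_of_mem_normalizer ha, ← cj_one W] at this⟩)
  exact hK ha

theorem EL1_std (h : Geo V W q n) {x y : Pt V W} (h1 : x ≠ y) :
    ∃ g : (𝐍(V) ⊔ 𝐍(W) : Subgroup G), ∃ a, a ∉ 𝐍(V) ∧ V ^ᶜ a ⊓ W ≠ ⊥ ∧ (g • x).1 = V ∧ (g • y).1 = V ^ᶜ a := by
  obtain ⟨g1, m1, e1⟩ := x.2
  obtain ⟨g2, m2, e2⟩ := y.2
  obtain ⟨b, h2, h3⟩ := h.adj (mul_mem (inv_mem m1) m2)
  obtain ⟨g, hg, hb⟩ := h.flag b h2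
  have h4 := EL1_cj g h3
  rw [cj_eq_of_mem_normalizer hb] at h4
  have ex : (((⟨g * g1⁻¹, mul_mem (mem_sup_left hg) (inv_mem m1)⟩ : (𝐍(V) ⊔ 𝐍(W) : Subgroup G))) • x).1 = V := by
    rw [smul_val, e1, cj_cj]
    simpa using cj_eq_of_mem_normalizer hg
  have ey : (((⟨g * g1⁻¹, mul_mem (mem_sup_left hg) (inv_mem m1)⟩ : (𝐍(V) ⊔ 𝐍(W) : Subgroup G))) • y).1 =
      V ^ᶜ (g * (g1⁻¹ * g2)) := by
    rw [smul_val, e2, cj_cj, mul_assoc]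
  refine ⟨_, _, fun ha => h1 ?_, h4, ex, ey⟩
  rw [cj_eq_of_mem_normalizer ha] at ey
  exact smul_left_cancel _ (Subtype.ext (ex.trans ey.symm))

theorem Geo.two' (h : Geo V W q n) {x y u v : Pt V W} (h1 : x ≠ y) (h2 : u ≠ v) :
    ∃ g : (𝐍(V) ⊔ 𝐍(W) : Subgroup G), g • x = u ∧ g • y = v := by
  obtain ⟨g, a, ha, hb, e1, e2⟩ := EL1_std h h1
  obtain ⟨g', a', ha', hb', e1', e2'⟩ := EL1_std h h2
  obtain ⟨k, hk, e⟩ := h.two a a' ha ha' hb hb'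
  refine ⟨g'⁻¹ * (⟨k, mem_sup_left hk⟩ * g), ?_, ?_⟩
  · rw [mul_smul, inv_smul_eq_iff, mul_smul]
    refine Subtype.ext ?_
    rw [smul_val, e1, e1']
    exact cj_eq_of_mem_normalizer hk
  · rw [mul_smul, inv_smul_eq_iff, mul_smul]
    refine Subtype.ext ?_
    rw [smul_val, e2, e2', cj_cj]
    exact e

theorem Geo.faith (h : Geo V W q n) {g : (𝐍(V) ⊔ 𝐍(W) : Subgroup G)} (hg : ∀ x : Pt V W, g • x = x) : g = 1 := by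
  have key : ∀ k : (𝐍(V) ⊔ 𝐍(W) : Subgroup G), (∀ x : Pt V W, k • x = x) → (k : G) ∈ V → (k : G) = 1 := by
    intro k hk hV
    by_contra h1
    obtain ⟨a, b, h2, h3, h4⟩ := h.mv _ hV h1
    exact h4 (cj_eq_self_iff.1 (congrArg Subtype.val (hk ⟨V ^ᶜ a, a, h.mem h2 h3, rfl⟩)))
  have hN : (g : G) ∈ 𝐍(V) :=
    cj_eq_self_iff.1 (congrArg Subtype.val (hg ⟨V, 1, one_mem _, (cj_one V).symm⟩))
  refine Subtype.ext (key g hg (h.cen fun v hv => ?_))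
  have hv' : v ∈ 𝐍(V) ⊔ 𝐍(W) := mem_sup_left (le_normalizer hv)
  have := key (g * ⟨v, hv'⟩ * g⁻¹ * ⟨v, hv'⟩⁻¹) (fun x => by
    rw [mul_smul, mul_smul, mul_smul, hg, inv_smul_eq_iff.2 (hg _).symm, smul_inv_smul])
    (mul_mem ((mem_normalizer_iff.1 hN v).1 hv) (inv_mem hv))
  have e : (g : G) * v * (g : G)⁻¹ * v⁻¹ = 1 := this
  rw [mul_inv_eq_one, mul_inv_eq_iff_eq_mul] at e
  exact e.symm

theorem Geo.pair (h : Geo V W q n) : ∃ x y : Pt V W, x ≠ y ∧ x.1 = V ∧ Nat.card (V ⊓ 𝐍(y.1) : Subgroup G) = q ^ n := by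
  obtain ⟨a, ha, hb⟩ := h.ex
  have hm : a ∈ 𝐍(V) ⊔ 𝐍(W) := h.mem (b := 1) (by rw [cj_one]; exact h.inc) (by rwa [cj_one])
  refine ⟨⟨V, 1, one_mem _, (cj_one V).symm⟩, ⟨V ^ᶜ a, a, hm, rfl⟩, fun e => ha ?_, rfl, h.cN a ha hb⟩
  exact cj_eq_self_iff.1 (congrArg Subtype.val e).symm

theorem Pt.le (x : Pt V W) : x.1 ≤ 𝐍(V) ⊔ 𝐍(W) := by
  obtain ⟨g, hg, e⟩ := x.2
  rw [e]
  exact cj_le_of_mem (le_normalizer.trans le_sup_left) hg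

end H46.Sl
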