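import Cfsg.Agent.Lib.SLM.Bas2
import Cfsg.Agent.Lib.SLM.LA
import Cfsg.Agent.Lib.SLM.MB2

/-! Unitriangular Sylow 2-subgroups, package FM: see `blueprint/SLM/README.md`. -/

set_option autoImplicit false
set_option linter.unusedSectionVars false

namespace H46.Sl
open Subgroup H69 Cfsg Matrix
open scoped commutatorElement

namespace Fr
variable {G : Type*} [Group G] [Finite G] {F : Type*} [Field F] [Fintype F] [CharP F 2] {n : ℕ}
  (f : Fr G F n) {E P M : Subgroup G}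

theorem fm_one {H : Subgroup G} {X : Type*} [Group X] (π : H →* X) (hk : Odd (Nat.card π.ker)) (a : H)
    (ha : (a : G) ∈ f.S) (e : π a = 1) : a = 1 := by
  obtain ⟨k, h1⟩ := isPGroup_iff_mem.1 f.syl.isP _ ha
  have h2 : orderOf a ∣ 2 ^ k := orderOf_dvd_of_pow_eq_one (Subtype.ext h1)
  have h3 : orderOf a ∣ Nat.card π.ker := orderOf_dvd_natCard _ (MonoidHom.mem_ker.2 e)
  exact orderOf_eq_one_iff.1 (Nat.eq_one_of_dvd_coprimes
    (Nat.Coprime.pow_left k (Nat.coprime_two_left.2 hk)) h2 h3)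

theorem fm_lift {H : Subgroup G} {X : Type*} [Group X] (π : H →* X) (hk : Odd (Nat.card π.ker)) :
    ∃ l : X → G, ∀ a : H, (a : G) ∈ f.S → l (π a) = a := by
  classical
  refine ⟨fun x => if h : ∃ a : H, (a : G) ∈ f.S ∧ π a = x then h.choose else 1, fun a ha => ?_⟩
  have h : ∃ b : H, (b : G) ∈ f.S ∧ π b = π a := ⟨a, ha, rfl⟩
  have := f.fm_one π hk (h.choose⁻¹ * a) (mul_mem (inv_mem h.choose_spec.1) ha)
    (by rw [map_mul, map_inv, h.choose_spec.2, inv_mul_cancel])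
  exact (dif_pos h).trans (congrArg Subtype.val (inv_mul_eq_one.1 this))

theorem ex_map {H : Subgroup G} (hH : f.S ≤ H) {X : Type*} [Group X] [Finite X] (π : H →* X)
    (hπ : Function.Surjective π) (hk : Odd (Nat.card π.ker)) : ∃ f' : Fr X F n,
    f'.S = (f.S.subgroupOf H).map π ∧ f'.V = (f.V.subgroupOf H).map π ∧ f'.W = (f.W.subgroupOf H).map π ∧
    f'.Z = (f.Z.subgroupOf H).map π ∧ ∀ a : H, (a : G) ∈ f.S → π a = 1 → a = 1 := by
  obtain ⟨l, hl⟩ := f.fm_lift π hk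
  have l1 : l 1 = 1 := by simpa using hl 1 (one_mem _)
  have lm : ∀ x ∈ (f.S.subgroupOf H).map π, l x ∈ f.S := by
    rintro _ ⟨a, ha, rfl⟩
    rw [hl a ha]; exact ha
  have ll : ∀ x ∈ (f.S.subgroupOf H).map π, ∀ y ∈ (f.S.subgroupOf H).map π, l (x * y) = l x * l y := by
    rintro _ ⟨a, ha, rfl⟩ _ ⟨b, hb, rfl⟩
    rw [← map_mul, hl a ha, hl b hb, hl (a * b) (mul_mem ha hb), coe_mul]
  let f' : Fr X F n :=
    { S := (f.S.subgroupOf H).map π
      L := fun x => f.L (l x)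
      w := fun x => f.w (l x)
      u := fun x => f.u (l x)
      c := fun x => f.c (l x)
      hn := f.hn
      hq := f.hq
      syl := map_top_of_surjective π hπ ▸ (f.syl.mono hH le_top).subgroupOf_top.map π
      ut := fun x hx => f.ut _ (lm x hx)
      L_mul := fun x hx y hy => by rw [ll x hx y hy, f.L_mul _ (lm x hx) _ (lm y hy)]
      w_mul := fun x hx y hy => by rw [ll x hx y hy, f.w_mul _ (lm x hx) _ (lm y hy)]
      u_mul := fun x hx y hy => by rw [ll x hx y hy, f.u_mul _ (lm x hx) _ (lm y hy)]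
      c_mul := fun x hx y hy => by rw [ll x hx y hy, f.c_mul _ (lm x hx) _ (lm y hy)]
      L_one := by rw [l1, f.L_one]
      w_one := by rw [l1, f.w_one]
      u_one := by rw [l1, f.u_one]
      c_one := by rw [l1, f.c_one]
      inj := fun x hx y hy h1 h2 h3 h4 => by
        have := f.inj _ (lm x hx) _ (lm y hy) h1 h2 h3 h4
        obtain ⟨a, ha, rfl⟩ := hx
        obtain ⟨b, hb, rfl⟩ := hy
        rw [hl a ha, hl b hb] at this
        rw [Subtype.ext this]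
      full := fun A hA x y z => by
        obtain ⟨a, ha, h⟩ := f.full A hA x y z
        refine ⟨π ⟨a, hH ha⟩, ⟨_, ha, rfl⟩, ?_⟩
        rw [hl ⟨a, hH ha⟩ ha]
        exact h }
  have key : ∀ (A : Subgroup G) (A' : Subgroup X), A ≤ f.S →
      (∀ x, x ∈ A' ↔ x ∈ (f.S.subgroupOf H).map π ∧ l x ∈ A) → A' = (A.subgroupOf H).map π := by
    intro A A' hA h
    ext x
    rw [h]
    constructor
    · rintro ⟨⟨a, ha, rfl⟩, k⟩
      exact ⟨a, by rwa [hl a ha] at k, rfl⟩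
    · rintro ⟨a, ha, rfl⟩
      exact ⟨⟨a, hA ha, rfl⟩, by rwa [hl a (hA ha)]⟩
  have kV : ∀ j, f'.Vs j = ((f.Vs j).subgroupOf H).map π := fun j =>
    key _ _ ((f.Vs_le j).trans f.Q_le) fun x =>
      ⟨fun h => ⟨h.1.1, ⟨lm x h.1.1, h.1.2⟩, h.2⟩, fun h => ⟨⟨h.1, h.2.1.2⟩, h.2.2⟩⟩
  exact ⟨f', rfl, kV 0, key _ _ ((f.Ws_le 0).trans f.Q_le) fun x =>
    ⟨fun h => ⟨h.1.1, ⟨lm x h.1.1, h.1.2⟩, h.2⟩, fun h => ⟨⟨h.1, h.2.1.2⟩, h.2.2⟩⟩, kV n, f.fm_one π hk⟩

end Fr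

end H46.Sl
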