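import Cfsg.Agent.Lib.SLM.Defs
import Cfsg.Agent.Lib.GL.Unitri

/-! Unitriangular Sylow 2-subgroups, package FR: see `blueprint/SLM/README.md`. -/

set_option autoImplicit false
set_option linter.unusedSectionVars false

namespace H46.Sl
open Subgroup H69 Cfsg Matrix
open scoped commutatorElement

variable {G : Type*} [Group G] [Finite G] {S E P M : Subgroup G}

theorem FR_equiv {F : Type*} [Field F] [Fintype F] [CharP F 2] {n : ℕ}
    (P : Sylow 2 (ProjectiveSpecialLinearGroup (Fin (n + 2)) F)) :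
    Nonempty (H10.unitriSL (Fin (n + 2)) F ≃* (P : Subgroup (ProjectiveSpecialLinearGroup (Fin (n + 2)) F))) := by
  haveI : Fact (Nat.Prime 2) := ⟨Nat.prime_two⟩
  let π := QuotientGroup.mk' (Subgroup.center (Matrix.SpecialLinearGroup (Fin (n + 2)) F))
  have hs : Function.Surjective π := QuotientGroup.mk'_surjective _
  let T := H10.unitriSylowSL (Fin (n + 2)) F 2
  have hT : (T : Subgroup _) = H10.unitriSL (Fin (n + 2)) F := rfl
  have hi : Function.Injective (π.subgroupMap (H10.unitriSL (Fin (n + 2)) F)) := by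
    refine (injective_iff_map_eq_one _).2 fun g hg => ?_
    have h1 : g.1 ∈ Subgroup.center _ := (QuotientGroup.eq_one_iff _).1 (congrArg Subtype.val hg)
    obtain ⟨r, -, hr⟩ := Matrix.SpecialLinearGroup.mem_center_iff.1 h1
    have h2 := (H10.mem_unitriSL.1 g.2).2 0
    rw [← hr] at h2
    have : r = 1 := by simpa using h2
    exact Subtype.ext (Subtype.ext (by rw [← hr, this, map_one]; rfl))
  exact ⟨(MulEquiv.ofBijective _ ⟨hi, π.subgroupMap_surjective _⟩).trans ((T.mapSurjective hs).equiv P)⟩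

/-- the middle indices -/
abbrev FR_md {n : ℕ} (i : Fin n) : Fin (n + 2) := i.castSucc.succ

theorem FR_cases {n : ℕ} (i : Fin (n + 2)) : i = 0 ∨ i = Fin.last (n + 1) ∨ ∃ k : Fin n, i = FR_md k := by
  by_cases h0 : i.val = 0
  · exact Or.inl (Fin.ext h0)
  by_cases h1 : i.val = n + 1
  · exact Or.inr (Or.inl (Fin.ext h1))
  · exact Or.inr (Or.inr ⟨⟨i.val - 1, by omega⟩, Fin.ext (by simp; omega)⟩)

theorem FR_sum {F : Type*} [Field F] {n : ℕ} (g : Fin (n + 2) → F) :
    ∑ k, g k = g 0 + ∑ k : Fin n, g (FR_md k) + g (Fin.last (n + 1)) := by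
  rw [Fin.sum_univ_succ, Fin.sum_univ_castSucc]
  exact (add_assoc _ _ _).symm

theorem FR_ut {F : Type*} [Field F] {m : ℕ} {A : Matrix (Fin m) (Fin m) F} :
    ((∀ i j, j < i → A i j = 0) ∧ ∀ i, A i i = 1) ↔
      ∀ i j, j ≤ i → A i j = (1 : Matrix (Fin m) (Fin m) F) i j := by
  refine ⟨fun h i j hij => ?_, fun h => ⟨fun i j hij => ?_, fun i => ?_⟩⟩
  · rcases hij.lt_or_eq with e | rfl
    · rw [h.1 i j e, one_apply_ne e.ne']
    · rw [h.2, one_apply_eq]
  · rw [h i j hij.le, one_apply_ne hij.ne']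
  · rw [h i i le_rfl, one_apply_eq]

theorem FR_big {F : Type*} [Field F] {n : ℕ} (A : Matrix (Fin n) (Fin n) F)
    (hA : ∀ i j, j ≤ i → A i j = (1 : Matrix (Fin n) (Fin n) F) i j) (x y : Fin n → F) (z : F) :
    ∃ B : Matrix (Fin (n + 2)) (Fin (n + 2)) F, ((∀ i j, j < i → B i j = 0) ∧ ∀ i, B i i = 1) ∧
      (∀ i j, B (FR_md i) (FR_md j) = A i j) ∧ (∀ j, B 0 (FR_md j) = x j) ∧
      (∀ i, B (FR_md i) (Fin.last _) = y i) ∧ B 0 (Fin.last _) = z := by
  obtain ⟨h1, h2⟩ := FR_ut.2 hA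
  refine ⟨of (Fin.cons (Fin.cons 1 (Fin.snoc x z)) (Fin.snoc (fun i => Fin.cons 0 (Fin.snoc (A i) (y i)))
    (Fin.cons 0 (Fin.snoc 0 1)))), ⟨fun i j hij => ?_, fun i => ?_⟩, fun i j => ?_, fun j => ?_,
    fun i => ?_, ?_⟩
  · rcases FR_cases i with rfl | rfl | ⟨k, rfl⟩
    · exact absurd hij (not_lt.2 (Fin.zero_le _))
    · rcases FR_cases j with rfl | rfl | ⟨l, rfl⟩
      · simp [← Fin.succ_last]
      · exact absurd hij (lt_irrefl _)
      · simp [← Fin.succ_last]
    · rcases FR_cases j with rfl | rfl | ⟨l, rfl⟩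
      · simp
      · exact absurd hij (not_lt.2 (Fin.le_last _))
      · simpa using h1 k l (by simpa using hij)
  · rcases FR_cases i with rfl | rfl | ⟨k, rfl⟩
    · simp
    · simp [← Fin.succ_last]
    · simpa using h2 k
  · simp
  · simp
  · simp [← Fin.succ_last]
  · simp [← Fin.succ_last]

theorem ex_fr {F : Type*} [Field F] [Fintype F] [CharP F 2] {n : ℕ} (hn : 2 ≤ n) (hq : 4 ≤ Fintype.card F)
    (T : Sylow 2 G) (T' : Sylow 2 (ProjectiveSpecialLinearGroup (Fin (n + 2)) F))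
    (e : (T : Subgroup G) ≃* (T' : Subgroup (ProjectiveSpecialLinearGroup (Fin (n + 2)) F))) : Nonempty (Fr G F n) := by
  classical
  obtain ⟨e0⟩ := FR_equiv T'
  let φ := e.trans e0.symm
  obtain ⟨m, hm⟩ : ∃ m : G → Matrix (Fin (n + 2)) (Fin (n + 2)) F,
      ∀ a : (T : Subgroup G), m a = (φ a).1.1 :=
    ⟨fun a => if h : a ∈ (T : Subgroup G) then (φ ⟨a, h⟩).1.1 else 1, fun a => dif_pos a.2⟩
  have mul : ∀ a ∈ (T : Subgroup G), ∀ b ∈ (T : Subgroup G), m (a * b) = m a * m b := fun a ha b hb => by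
    have := hm (⟨a, ha⟩ * ⟨b, hb⟩)
    rw [map_mul] at this
    rw [hm ⟨a, ha⟩, hm ⟨b, hb⟩]
    exact this
  have one : m 1 = 1 := by
    have := hm 1
    rw [map_one] at this
    exact this
  have lo : ∀ a ∈ (T : Subgroup G), ∀ i j, j < i → m a i j = 0 := fun a ha => by
    rw [hm ⟨a, ha⟩]; exact (H10.mem_unitriSL.1 (φ ⟨a, ha⟩).2).1
  have di : ∀ a ∈ (T : Subgroup G), ∀ i, m a i i = 1 := fun a ha => by
    rw [hm ⟨a, ha⟩]; exact (H10.mem_unitriSL.1 (φ ⟨a, ha⟩).2).2
  have l0 : ∀ k : Fin n, (0 : Fin (n + 2)) < FR_md k := fun k => Fin.succ_pos _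
  have l1 : ∀ k : Fin n, FR_md k < Fin.last (n + 1) := fun k => by
    rw [Fin.lt_def]; simp
  have l2 : (0 : Fin (n + 2)) < Fin.last (n + 1) := Fin.last_pos
  refine ⟨⟨T, fun a => of fun i j => m a (FR_md i) (FR_md j), fun a j => m a 0 (FR_md j),
    fun a i => m a (FR_md i) (Fin.last _), fun a => m a 0 (Fin.last _), hn, hq,
    ⟨le_top, T.isPGroup', fun R hR _ hp => T.is_maximal' hp hR⟩, fun a ha => ?_, fun a ha b hb => ?_,
    fun a ha b hb => ?_, fun a ha b hb => ?_, fun a ha b hb => ?_, ?_, ?_, ?_, ?_,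
    fun a ha b hb h1 h2 h3 h4 => ?_, fun A hA x y z => ?_⟩⟩
  · exact FR_ut.1 ⟨fun i j hij => lo a ha _ _ (by simpa using hij), fun i => di a ha _⟩
  · ext i j
    rw [of_apply, mul a ha b hb, mul_apply, FR_sum, lo a ha _ _ (l0 i), lo b hb _ _ (l1 j), mul_apply]
    simp
  · ext j
    rw [mul a ha b hb, mul_apply, FR_sum, di a ha, lo b hb _ _ (l1 j)]
    simp [vecMul, dotProduct, add_comm]
  · ext i
    rw [mul a ha b hb, mul_apply, FR_sum, di b hb, lo a ha _ _ (l0 i)]
    simp [mulVec, dotProduct, add_comm]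
  · rw [mul a ha b hb, mul_apply, FR_sum, di a ha, di b hb]
    simp only [dotProduct]
    ring
  · ext i j
    rw [of_apply, one]
    by_cases h : i = j
    · rw [h, one_apply_eq, one_apply_eq]
    · rw [one_apply_ne h, one_apply_ne (by simpa using h)]
  · ext j
    rw [one, one_apply_ne (l0 j).ne]; rfl
  · ext i
    rw [one, one_apply_ne (l1 i).ne]; rfl
  · rw [one, one_apply_ne l2.ne]
  · have : m a = m b := by
      ext i j
      rcases lt_trichotomy j i with h | rfl | h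
      · rw [lo a ha _ _ h, lo b hb _ _ h]
      · rw [di a ha, di b hb]
      rcases FR_cases i with rfl | rfl | ⟨k, rfl⟩
      · rcases FR_cases j with rfl | rfl | ⟨l, rfl⟩
        · exact absurd h (lt_irrefl _)
        · exact h4
        · exact congrFun h2 l
      · exact absurd h (not_lt.2 (Fin.le_last _))
      · rcases FR_cases j with rfl | rfl | ⟨l, rfl⟩
        · exact absurd h (not_lt.2 (Fin.zero_le _))
        · exact congrFun h3 k
        · exact congrFun (congrFun h1 k) l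
    rw [hm ⟨a, ha⟩, hm ⟨b, hb⟩] at this
    exact congrArg Subtype.val (φ.injective (Subtype.ext (Subtype.ext this)))
  · obtain ⟨B, hB, b1, b2, b3, b4⟩ := FR_big A hA x y z
    have hd : B.det = 1 := by
      rw [det_of_isUpperTriangular (fun i j h => hB.1 i j h)]
      simp [hB.2]
    obtain ⟨a, ha⟩ := φ.surjective ⟨⟨B, hd⟩, H10.mem_unitriSL.2 hB⟩
    have e1 : m a = B := by rw [hm, ha]
    refine ⟨a, a.2, ?_, ?_, ?_, ?_⟩
    · ext i j; rw [of_apply, e1, b1]
    · ext j; rw [e1, b2]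
    · ext i; rw [e1, b3]
    · rw [e1, b4]

end H46.Sl
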