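import Cfsg.Agent.Lib.SLM.Defs

/-! Unitriangular Sylow 2-subgroups, package MB1: see `blueprint/SLM/README.md`. -/

set_option autoImplicit false
set_option linter.unusedSectionVars false

namespace H46.Sl
open Subgroup H69 Cfsg Matrix
open scoped commutatorElement

variable {G : Type*} [Group G] [Finite G] {S E P M : Subgroup G}

theorem MB1.two (hS : IsPGroup 2 S) {a : G} (ha : a ∈ S) : ∃ k : ℕ, a ^ 2 ^ k = 1 :=
  let ⟨k, hk⟩ := hS ⟨a, ha⟩; ⟨k, congrArg Subtype.val hk⟩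

theorem MB1.odd_mod {A B C : Subgroup G} (hA : IsPGroup 2 A) (hB : B ≤ A) {g : G}
    (hg : g ∈ 𝐍(C)) (ho : Odd (orderOf g)) (h1 : ∀ a ∈ A, ⁅g, a⁆ ∈ B) (h2 : ∀ b ∈ B, ⁅g, b⁆ ∈ C) :
    ∀ a ∈ A, ⁅g, a⁆ ∈ C := fun a ha => by
  have : ∀ m : ℕ, ⁅g ^ m, a⁆ * (⁅g, a⁆ ^ m)⁻¹ ∈ C := fun m => by
    induction m with
    | zero => simp
    | succ m ih =>
      have := mul_mem (conj_mem_of_mem_normalizer hg ih) (h2 _ (pow_mem (h1 a ha) m))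
      convert this using 1
      rw [pow_succ', pow_succ ⁅g, a⁆]
      generalize ⁅g, a⁆ ^ m = b
      simp only [commutatorElement_def]; group
  have := this (orderOf g)
  rw [pow_orderOf_eq_one, commutatorElement_one_left, one_mul, inv_mem_iff] at this
  obtain ⟨k, hk⟩ := MB1.two hA (hB (h1 a ha))
  exact zpowers_le.2 this (mem_zpowers_pow_iff.2 (Nat.Coprime.coprime_dvd_right (orderOf_dvd_of_pow_eq_one hk)
    (Nat.Coprime.pow_right k (Nat.coprime_two_right.2 ho))))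

/-- the elements of `L` fixing `p` modulo `D` -/
def MB1.fixK (L D : Subgroup G) (h : L ≤ 𝐍(D)) (p : G) : Subgroup G :=
  sub (fun g => g ∈ L ∧ ⁅p, g⁆ ∈ D) ⟨one_mem _, by simp⟩ fun a b ha hb => ⟨mul_mem ha.1 hb.1, by
    have := mul_mem ha.2 (conj_mem_of_mem_normalizer (h ha.1) hb.2)
    convert this using 1; simp only [commutatorElement_def]; group⟩

theorem grow (hS : IsPGroup 2 S) {K : Subgroup G} (h1 : E ≤ K) (h2 : K ≤ S) (h : K ⊓ 𝐍(E) ≤ E) : K ≤ E := by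
  have := Fact.mk Nat.prime_two
  by_contra k
  exact (lt_inf_normalizer_of_lt (hS.to_le h2) (lt_of_le_not_ge h1 k)).not_ge h

theorem grow' (hS : IsPGroup 2 S) (hE : E ≤ S) {K : Subgroup G} (h1 : E ≤ 𝐍(K)) (h2 : K ≤ S) (h : K ⊓ 𝐍(E) ≤ E) :
    K ≤ E := by
  refine le_sup_left.trans (grow hS le_sup_right (sup_le h2 hE) fun x hx => ?_)
  obtain ⟨k, hk, e, he, rfl⟩ := (mem_sup_of_le_normalizer_left h1).1 hx.1
  exact mul_mem (h ⟨hk, (mul_mem_cancel_right (le_normalizer he)).1 hx.2⟩) he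

/-- coprime action: an element of odd order centralising `A / B` and `B` centralises `A` -/
theorem odd_two {A B : Subgroup G} (hA : IsPGroup 2 A) (hB : B ≤ A) {g : G} (ho : Odd (orderOf g))
    (h1 : ∀ a ∈ A, ⁅g, a⁆ ∈ B) (h2 : g ∈ 𝐂(B)) : g ∈ 𝐂(A) := fun a ha =>
  (commutatorElement_eq_one_iff_mul_comm.1 (mem_bot.1 (MB1.odd_mod hA hB (C := ⊥) (by rw [normalizer_eq_top]; trivial) ho h1
    (fun b hb => mem_bot.2 (commutatorElement_eq_one_iff_mul_comm.2 (h2 b hb).symm)) a ha))).symm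

theorem odd_mod {A B C : Subgroup G} (hA : IsPGroup 2 A) (hB : B ≤ A) (hC : C ≤ B) (hn : A ≤ 𝐍(C)) {g : G}
    (hg : g ∈ 𝐍(C)) (ho : Odd (orderOf g)) (h1 : ∀ a ∈ A, ⁅g, a⁆ ∈ B) (h2 : ∀ b ∈ B, ⁅g, b⁆ ∈ C) :
    ∀ a ∈ A, ⁅g, a⁆ ∈ C := MB1.odd_mod hA hB hg ho h1 h2

theorem ME.ex (h : ME S E P M) : ∃ a ∈ S ⊓ 𝐍(E), a ∉ E := by
  by_contra! k
  exact h.ne (grow h.pS h.le le_rfl k)

theorem ME.EP (h : ME S E P M) : E ≤ P := fun _ he => h.MP (h.RM ⟨h.le he, le_normalizer he⟩)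

theorem ME.ex_x (h : ME S E P M) : ∃ x ∈ P, x ∉ M := SetLike.not_le_iff_exists.1 h.nM

theorem ME.out (h : ME S E P M) {x a : G} (hx : x ∈ P) (hM : x ∉ M) (ha : a ∈ S ⊓ 𝐍(E)) (hE : a ∉ E) :
    x * a * x⁻¹ ∈ P ∧ x * a * x⁻¹ ∉ M :=
  ⟨mul_mem (mul_mem hx (h.syl.le ha)) (inv_mem hx), fun k => hM (h.se x hx a (h.RM ha) (MB1.two h.pS ha.1) hE k)⟩

theorem ME.gen (h : ME S E P M) {g x a : G} (hg : g ∈ P) (hx : x ∈ P) (hM : g⁻¹ * x ∉ M)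
    (ha : a ∈ S ⊓ 𝐍(E)) (hE : a ∉ E) {K : Subgroup G} (h1 : (S ⊓ 𝐍(E)) ^ᶜ g ≤ K) (h2 : x * a * x⁻¹ ∈ K) : P ≤ K := by
  rcases h.min ((K ⊓ P) ^ᶜ g⁻¹) (cj_le_iff.1 (le_inf h1 (cj_le_of_mem h.syl.le hg)))
    (cj_le_of_mem inf_le_right (inv_mem hg)) with k | k
  · refine ((h.out (mul_mem (inv_mem hg) hx) hM ha hE).2 (k (mem_cj.2 ?_))).elim
    rw [show g⁻¹⁻¹ * (g⁻¹ * x * a * (g⁻¹ * x)⁻¹) * g⁻¹ = x * a * x⁻¹ by group]
    exact mem_inf.2 ⟨h2, mul_mem (mul_mem hx (h.syl.le ha)) (inv_mem hx)⟩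
  · exact fun p hp => (mem_inf.1 (cj_mem_iff.1 (k (mul_mem (mul_mem (inv_mem hg) hp) (inv_mem (inv_mem hg)))))).1

theorem ME.gen_out (h : ME S E P M) {K : Subgroup G} (hK : ∀ x ∈ P, x ∉ M → x ∈ K) : P ≤ K := fun p hp => by
  obtain ⟨x, hx, hM⟩ := h.ex_x
  by_cases k : p ∈ M
  · exact (mul_mem_cancel_right (hK x hx hM)).1 (hK _ (mul_mem hp hx) fun e => hM ((mul_mem_cancel_left k).1 e))
  · exact hK p hp k

theorem ME.gen_odd (h : ME S E P M) {K : Subgroup G} (h1 : S ⊓ 𝐍(E) ≤ K)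
    (h2 : ∀ g ∈ P, Odd (orderOf g) → g ∈ K) : P ≤ K := by
  have := Fact.mk Nat.prime_two
  obtain ⟨O, hO⟩ : ∃ O, O = closure {g | g ∈ P ∧ Odd (orderOf g)} := ⟨_, rfl⟩
  have OK : O ≤ K ⊓ P := hO ▸ (closure_le _).2 fun g hg => ⟨h2 g hg.1 hg.2, hg.1⟩
  have : (O.subgroupOf P).Normal := (normal_subgroupOf_iff_le_normalizer (OK.trans inf_le_right)).2
    (le_normalizer_of_cj_le fun g hg => map_le_iff_le_comap.2 (hO ▸ (closure_le _).2 fun a ha => subset_closure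
      ⟨mul_mem (mul_mem hg ha.1) (inv_mem hg), by
        rw [orderOf_injective (MulAut.conj g).toMonoidHom (MulAut.conj g).injective]; exact ha.2⟩))
  have hQ : IsPGroup 2 (P ⧸ O.subgroupOf P) := fun x => by
    obtain ⟨g, rfl⟩ := QuotientGroup.mk_surjective x
    obtain ⟨k, m, hm, e⟩ := Nat.exists_eq_two_pow_mul_odd (orderOf_pos (g : G)).ne'
    refine ⟨k, (QuotientGroup.mk_pow _ g _).symm.trans ((QuotientGroup.eq_one_iff _).2 (mem_subgroupOf.2 ?_))⟩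
    exact hO ▸ subset_closure ⟨(g ^ 2 ^ k).2, hm.of_dvd_nat (orderOf_dvd_of_pow_eq_one (by
      rw [coe_pow, ← pow_mul, ← e, pow_orderOf_eq_one]))⟩
  obtain ⟨k, hk⟩ := hQ.exists_card_eq
  have d : (K ⊓ P).relIndex P ∣ 2 ^ k := hk ▸ relIndex_dvd_of_le_left P OK
  have := (Nat.Prime.coprime_iff_not_dvd Nat.prime_two).2 (h.syl.not_dvd_relIndex_of_le (le_inf h1 h.syl.le) inf_le_right)
  exact (relIndex_eq_one.1 (Nat.Coprime.eq_one_of_dvd (this.symm.pow_right k) d)).trans inf_le_left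

theorem ME.pm (h : ME S E P M) {K : Subgroup G} (hK : P ≤ 𝐍(K)) {a : G} (ha : a ∈ S ⊓ 𝐍(E)) (hE : a ∉ E)
    (haK : a ∈ K) : ∀ g ∈ P, Odd (orderOf g) → g ∈ K := fun g hg ho => by
  obtain ⟨x, hx, hM⟩ := h.ex_x
  have o := h.out hx hM ha hE
  have n : P ≤ 𝐍(K ⊓ P) := le_normalizer_inf hK le_normalizer
  have le := (h.min ((K ⊓ P) ⊔ (S ⊓ 𝐍(E))) le_sup_right (sup_le inf_le_right h.syl.le)).resolve_left fun k =>
    o.2 (k (mem_sup_left ⟨conj_mem_of_mem_normalizer (hK hx) haK, o.1⟩))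
  obtain ⟨k, hk, r, hr, rfl⟩ := (mem_sup_of_le_normalizer_left (h.syl.le.trans n)).1 (le hg)
  obtain ⟨j, hj⟩ := MB1.two h.pS hr.1
  have : ∀ m : ℕ, (k * r) ^ m * (r ^ m)⁻¹ ∈ K := fun m => by
    induction m with
    | zero => simp
    | succ m ih =>
      have := mul_mem (mem_inf.1 hk).1 (conj_mem_of_mem_normalizer (hK (h.syl.le hr)) ih)
      convert this using 1
      rw [pow_succ', pow_succ']
      generalize (k * r) ^ m = b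
      generalize r ^ m = c
      group
  have := this (2 ^ j)
  rw [hj, inv_one, mul_one] at this
  exact zpowers_le.2 this (mem_zpowers_pow_iff.2 (Nat.Coprime.pow_left j ((Nat.coprime_two_left).2 ho)))

/-- the form of `pm` for a section -/
theorem ME.pm_mod (h : ME S E P M) {A B : Subgroup G} (hA : P ≤ 𝐍(A)) (hB : P ≤ 𝐍(B)) {a : G}
    (ha : a ∈ S ⊓ 𝐍(E)) (hE : a ∉ E) (hc : ∀ p ∈ A, ⁅a, p⁆ ∈ B) :
    ∀ g ∈ P, Odd (orderOf g) → ∀ p ∈ A, ⁅g, p⁆ ∈ B := fun g hg ho =>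
  (h.pm (K := sub (fun g => g ∈ P ∧ ∀ p ∈ A, ⁅g, p⁆ ∈ B) ⟨one_mem _, fun p _ => by simp⟩ fun a b ha hb =>
    ⟨mul_mem ha.1 hb.1, fun p hp => by
      have := mul_mem (conj_mem_of_mem_normalizer (hB ha.1) (hb.2 p hp)) (ha.2 p hp)
      convert this using 1; simp only [commutatorElement_def]; group⟩)
    (le_normalizer_of_cj_le fun y hy _ hx => by
      obtain ⟨k, hk, rfl⟩ := mem_cj'.1 hx
      refine ⟨mul_mem (mul_mem hy hk.1) (inv_mem hy), fun p hp => ?_⟩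
      have := conj_mem_of_mem_normalizer (hB hy) (hk.2 _ (conj_mem_of_mem_normalizer' (hA hy) hp))
      convert this using 1; simp only [commutatorElement_def]; group) ha hE ⟨h.syl.le ha, hc⟩ g hg ho).2

theorem ME.not_Oc (h : ME S E P M) : ¬ Oc P E := fun k => h.nM (h.gen_odd h.RM fun g hg ho => h.cM ⟨hg, k g hg ho⟩)

theorem ME.cen (h : ME S E P M) : S ⊓ 𝐂(E) ≤ E := fun _ hs => by_contra fun k =>
  h.not_Oc (h.pm (le_normalizer_centralizer h.nE) ⟨hs.1, centralizer_le_normalizer _ hs.2⟩ k hs.2)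

/-- a self-centralising subgroup is not centralised by the odd order elements -/
theorem ME.not_Oc_of (h : ME S E P M) {A : Subgroup G} (hA : A ≤ E) (hP : P ≤ 𝐍(A)) (hc : E ⊓ 𝐂(A) ≤ A) :
    ¬ Oc P A := fun k => h.not_Oc fun g hg ho => odd_two (h.pS.to_le h.le) hA ho (fun e he => hc
      (mem_inf.2 ⟨mul_mem (conj_mem_of_mem_normalizer (h.nE hg) he) (inv_mem he), by
        have := mul_mem (k g hg ho) (conj_mem_of_mem_normalizer (le_normalizer_centralizer hP (h.EP he)) (inv_mem (k g hg ho)))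
        simpa only [commutatorElement_def, mul_assoc] using this⟩)) (k g hg ho)

theorem ME.norm_of_Oc (h : ME S E P M) {A : Subgroup G} (hS : S ≤ 𝐍(A)) (ho : Oc P A) : P ≤ 𝐍(A) :=
  h.gen_odd (inf_le_left.trans hS) fun g hg o => centralizer_le_normalizer _ (ho g hg o)

theorem MB1.fix_mod (h : ME S E P M) {D : Subgroup G} (hP : P ≤ 𝐍(D)) {x a p : G} (hx : x ∈ P) (hM : x ∉ M)
    (ha : a ∈ S ⊓ 𝐍(E)) (hE : a ∉ E) (h1 : ∀ s ∈ (S ⊓ 𝐍(E)) ^ᶜ x, ⁅p, s⁆ ∈ D) (h2 : ⁅p, a⁆ ∈ D) :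
    ∀ g ∈ P, ⁅p, g⁆ ∈ D := fun _ hg =>
  (h.gen (K := MB1.fixK P D hP p) hx (one_mem P) (by simpa using hM) ha hE
    (fun s hs => ⟨cj_le_of_mem h.syl.le hx hs, h1 s hs⟩) (by rw [one_mul, inv_one, mul_one]; exact ⟨h.syl.le ha, h2⟩) hg).2

/-- regularity modulo `D` -/
theorem ME.reg_mod (h : ME S E P M) {D : Subgroup G} (hS : S ≤ 𝐍(D)) (hP : P ≤ 𝐍(D)) {p : G} (hp : p ∈ E)
    (h1 : ∀ s ∈ S, ⁅p, s⁆ ∈ D) (h2 : ∃ g ∈ P, ⁅p, g⁆ ∉ D) {x : G} (hx : x ∈ P) (hM : x ∉ M) {s : G}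
    (hs : s ∈ S) (h3 : ⁅x * p * x⁻¹, s⁆ ∈ D) : s ∈ E := by
  have c : ∀ r, ⁅x * p * x⁻¹, x * r * x⁻¹⁆ = x * ⁅p, r⁆ * x⁻¹ := fun r => (conjugate_commutatorElement p r x).symm
  refine grow h.pS (K := MB1.fixK S D hS (x * p * x⁻¹)) (fun e he => ⟨h.le he, ?_⟩) (fun _ k => k.1)
    (fun a ha => by_contra fun hE => ?_) ⟨hs, h3⟩
  · have := conj_mem_of_mem_normalizer (hP hx) (h1 _ (h.le (conj_mem_of_mem_normalizer' (h.nE hx) he)))
    rwa [← c, show x * (x⁻¹ * e * x) * x⁻¹ = e by group] at this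
  · obtain ⟨g, hg, k⟩ := h2
    have := MB1.fix_mod h hP hx hM ⟨ha.1.1, ha.2⟩ hE (fun s hs => by
      obtain ⟨r, hr, rfl⟩ := mem_cj'.1 hs
      exact c r ▸ conj_mem_of_mem_normalizer (hP hx) (h1 r hr.1)) ha.1.2 _ (mul_mem (mul_mem hx hg) (inv_mem hx))
    exact k ((mem_normalizer_iff.1 (hP hx) _).2 (c g ▸ this))

/-- an element fixed modulo `D` by `R ^ᶜ x` and by an element of `R` outside `E` -/
theorem ME.fix_mod (h : ME S E P M) {D : Subgroup G} (hP : P ≤ 𝐍(D)) {x a p : G} (hx : x ∈ P) (hM : x ∉ M)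
    (ha : a ∈ S ⊓ 𝐍(E)) (hE : a ∉ E) (h1 : ∀ s ∈ (S ⊓ 𝐍(E)) ^ᶜ x, ⁅p, s⁆ ∈ D) (h2 : ⁅p, a⁆ ∈ D) :
    ∀ g ∈ P, ⁅p, g⁆ ∈ D := MB1.fix_mod h hP hx hM ha hE h1 h2

end H46.Sl
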