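import Cfsg.Agent.Lib.SLM.CL
import Cfsg.Agent.Lib.SLM.CHV

/-! Unitriangular Sylow 2-subgroups, package NAT: see `blueprint/SLM/README.md`. -/

set_option autoImplicit false
set_option linter.unusedSectionVars false

namespace H46.Sl
open Subgroup H69 Cfsg Matrix
open scoped commutatorElement

namespace Fr
variable {G : Type*} [Group G] [Finite G] {F : Type*} [Field F] [Fintype F] [CharP F 2] {n : ℕ}
  (f : Fr G F n) {E P M : Subgroup G}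

theorem NAT_inv {D : Subgroup G} {a b : G} (h : ⁅a, b⁆ ∈ D) : ⁅b, a⁆ ∈ D := by
  rw [← commutatorElement_inv]; exact inv_mem h

theorem NAT_R (k : ℕ) : f.S ⊓ 𝐍(f.U k) = f.S := inf_eq_left.2 (f.nU k)

theorem NAT_SP {k : ℕ} (h : ME f.S (f.U k) P M) : f.S ≤ P :=
  ((f.NAT_R k).ge.trans h.RM).trans h.MP

theorem NAT_VU {k : ℕ} (h1 : 1 ≤ k) : f.V ≤ f.U k := by
  have := f.R_le_U (j := 0) (k := k) (Nat.zero_le _) (by omega)
  rwa [f.R_zero] at this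

theorem NAT_not {k : ℕ} (h : ME f.S (f.U k) P M) (h1 : 1 ≤ k) (hV : P ≤ 𝐍(f.V)) : ¬ P ≤ 𝐍(f.Vs k) := by
  intro hk
  have hall : ∀ j, P ≤ 𝐍(f.Vs j) := fun j => by
    by_cases e : j = k
    · rw [e]; exact hk
    · exact fun g hg => f.chv h1 e (h.nE hg) (hV hg)
  obtain ⟨a, ha, haE⟩ := h.ex
  refine h.not_Oc_of (f.NAT_VU h1) hV
    ((inf_le_inf_right _ (f.U_le k)).trans f.cenV) fun g hg ho => ?_
  have key : ∀ m : ℕ, g ∈ 𝐂(f.Vs (n + 1 - m)) := fun m => by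
    induction m with
    | zero => rw [f.Vs_top (by omega), H69.centralizer_bot]; trivial
    | succ m ih =>
      by_cases hm : n + 1 ≤ m
      · have e : n + 1 - (m + 1) = n + 1 - m := by omega
        rwa [e]
      · have e : n + 1 - m = n + 1 - (m + 1) + 1 := by omega
        rw [e] at ih
        exact odd_two (f.pS.to_le ((f.Vs_le _).trans f.Q_le)) (f.Vs_anti (Nat.le_succ _)) ho
          (h.pm_mod (hall _) (hall _) ha haE (fun p hp => f.cmVs ha.1 hp) g hg ho) ih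
  have := key (n + 1)
  rwa [Nat.sub_self] at this

theorem NAT_comm {j : ℕ} {a b : G} (ha : a ∈ f.Vs j) (hb : b ∈ f.Vs j) : a * b = b * a := by
  rw [f.commQ (f.Vs_le _ ha) (f.Vs_le _ hb), B, ha.2.1, hb.2.1]; simp

theorem NAT_one {k : ℕ} (h : ME f.S (f.U k) P M) (h1 : 1 ≤ k) (hV : P ≤ 𝐍(f.V)) {x : G} (hx : x ∈ P)
    (hM : x ∉ M) : f.Vs k ⊓ f.Vs k ^ᶜ x ≤ f.Vs (k + 1) := by
  have hn : ∀ j, j ≠ k → P ≤ 𝐍(f.Vs j) := fun j e g hg => f.chv h1 e (h.nE hg) (hV hg)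
  have hn1 := hn (k + 1) (by omega)
  have hn0 := hn (k - 1) (by omega)
  have ek : k - 1 + 1 = k := by omega
  let C0 : Subgroup G := sub (fun v => v ∈ f.Vs k ∧ ∀ g ∈ P, ⁅v, g⁆ ∈ f.Vs (k + 1))
    ⟨one_mem _, fun g _ => by simp⟩ fun a b ha hb => ⟨mul_mem ha.1 hb.1, fun g hg => by
      have e : ⁅a * b, g⁆ = a * ⁅b, g⁆ * a⁻¹ * ⁅a, g⁆ := by simp only [commutatorElement_def]; group
      rw [e]
      exact mul_mem (conj_mem_of_mem_normalizer (f.nVs _ (f.Q_le (f.Vs_le _ ha.1))) (hb.2 g hg)) (ha.2 g hg)⟩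
  have hC : ∀ v, v ∈ C0 ↔ v ∈ f.Vs k ∧ ∀ g ∈ P, ⁅v, g⁆ ∈ f.Vs (k + 1) := fun v => Iff.rfl
  have hC1 : f.Vs (k + 1) ≤ C0 := fun v hv => (hC v).2 ⟨f.Vs_anti (Nat.le_succ _) hv, fun g hg => by
    have e : ⁅v, g⁆ = v * (g * v⁻¹ * g⁻¹) := by simp only [commutatorElement_def]; group
    rw [e]
    exact mul_mem hv (conj_mem_of_mem_normalizer (hn1 hg) (inv_mem hv))⟩
  have hCn : P ≤ 𝐍(C0) := le_normalizer_of_cj_le fun g hg v hv => by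
    obtain ⟨a, ha, rfl⟩ := mem_cj'.1 hv
    have e : g * a * g⁻¹ = ⁅g, a⁆ * a := by simp only [commutatorElement_def]; group
    rw [e]
    exact mul_mem (hC1 (NAT_inv (((hC a).1 ha).2 g hg))) ha
  have hR : ∀ p ∈ f.Vs k ^ᶜ x, ∀ s ∈ (f.S ⊓ 𝐍(f.U k)) ^ᶜ x, ⁅p, s⁆ ∈ f.Vs (k + 1) := fun p hp s hs => by
    obtain ⟨p', hp', rfl⟩ := mem_cj'.1 hp
    obtain ⟨s', hs', rfl⟩ := mem_cj'.1 hs
    have e : ⁅x * p' * x⁻¹, x * s' * x⁻¹⁆ = x * ⁅p', s'⁆ * x⁻¹ := by simp only [commutatorElement_def]; group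
    rw [e]
    exact conj_mem_of_mem_normalizer (hn1 hx) (NAT_inv (f.cmVs hs'.1 hp'))
  obtain ⟨a, ha, haE⟩ := h.ex
  have hI : f.Vs k ⊓ f.Vs k ^ᶜ x ≤ C0 := fun p hp => (hC p).2 ⟨hp.1,
    h.fix_mod hn1 hx hM ha haE (hR p hp.2) (NAT_inv (f.cmVs ha.1 hp.1))⟩
  have hne : ¬ f.Vs k ≤ C0 := fun hle => f.NAT_not h h1 hV (by
    have e : C0 = f.Vs k := le_antisymm (fun v hv => ((hC v).1 hv).1) hle
    rwa [e] at hCn)
  have hb : ¬ f.Vs k ^ᶜ x ≤ f.Vs k := fun hle => hne (by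
    have e := cj_eq_of_cj_le hle
    exact fun v hv => hI ⟨hv, by rw [e]; exact hv⟩)
  obtain ⟨b, hbx, hbk⟩ := SetLike.not_le_iff_exists.1 hb
  have hb0 : b ∈ f.Vs (k - 1) := cj_le_of_mem_normalizer (f.Vs_anti (Nat.sub_le _ _)) (hn0 hx) hbx
  have orb : ∀ v ∈ f.Vs k, ∃ s ∈ f.S, ⁅b, s⁆ = v⁻¹ := fun v hv => by
    obtain ⟨s, hs, e⟩ := f.orbVs (j := k - 1) (v := b) (v' := v * b) hb0 (by rwa [ek]) (by
      rw [ek, f.NAT_comm (f.Vs_anti (Nat.sub_le _ _) hv) hb0, inv_mul_cancel_left]; exact hv)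
    refine ⟨s, hs, ?_⟩
    have e2 : ⁅b, s⁆ = b * (s * b * s⁻¹)⁻¹ := by simp only [commutatorElement_def]; group
    rw [e2, e]; group
  intro c hc
  by_contra hc1
  obtain ⟨s, hs, e⟩ := orb c hc.1
  have hsE : s ∉ f.U k := fun hsE => hc1 (by
    have := hR b hbx s (cj_mono x (le_inf (f.U_le k) le_normalizer)
      (by rw [cj_eq_of_mem_normalizer (h.nE hx)]; exact hsE))
    rwa [e, inv_mem_iff] at this)
  have all := h.fix_mod (D := C0) hCn hx hM (a := s) (p := b) ⟨hs, f.nU k hs⟩ hsE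
    (fun t ht => hC1 (hR b hbx t ht)) (by rw [e]; exact inv_mem (hI hc))
  refine hne fun v hv => ?_
  obtain ⟨t, ht, e'⟩ := orb v hv
  have := all t (f.NAT_SP h ht)
  rwa [e', inv_mem_iff] at this

theorem NAT_card (B A : Subgroup G) : Nat.card (B ⊓ A : Subgroup G) * B.relIndex A = Nat.card A := by
  rw [← (B.subgroupOf A).card_mul_index, relIndex, ← inf_subgroupOf_right,
    Nat.card_congr (subgroupOfEquivOfLe (inf_le_right : B ⊓ A ≤ A)).toEquiv]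

theorem NAT_prod {A B T : Subgroup G} (h : A ≤ T) (hc : B.relIndex T ≤ B.relIndex A) {v : G} (hv : v ∈ T) :
    ∃ p ∈ A, p⁻¹ * v ∈ B := by
  have hb := (quotientSubgroupOfEmbeddingOfLE B h).injective.bijective_of_nat_card_le hc
  obtain ⟨c, hc⟩ := hb.2 (QuotientGroup.mk ⟨v, hv⟩)
  obtain ⟨p, rfl⟩ := QuotientGroup.mk_surjective c
  rw [quotientSubgroupOfEmbeddingOfLE_apply_mk, QuotientGroup.eq] at hc
  exact ⟨p, p.2, hc⟩

theorem nat {k : ℕ} (h : ME f.S (f.U k) P M) (h1 : 1 ≤ k) (hk : k ≤ n) (hV : P ≤ 𝐍(f.V)) {x : G} (hx : x ∈ P)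
    (hM : x ∉ M) : f.Vs k ⊓ f.Vs k ^ᶜ x ≤ f.Vs (k + 1) ∧ ∀ v ∈ f.Vs (k - 1), ∃ p ∈ f.Vs k ^ᶜ x, p⁻¹ * v ∈ f.Vs k := by
  have one := f.NAT_one h h1 hV hx hM
  refine ⟨one, fun v hv => ?_⟩
  have hn0 : x ∈ 𝐍(f.Vs (k - 1)) := f.chv h1 (by omega) (h.nE hx) (hV hx)
  have hle : f.Vs k ^ᶜ x ≤ f.Vs (k - 1) := cj_le_of_mem_normalizer (f.Vs_anti (Nat.sub_le _ _)) hn0
  have hq : 0 < Fintype.card F := Fintype.card_pos
  refine NAT_prod hle (le_of_mul_le_mul_left (a := Fintype.card F ^ (n + 1 - k)) ?_ (pow_pos hq _)) hv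
  have e1 := NAT_card (f.Vs k) (f.Vs (k - 1))
  have e2 := NAT_card (f.Vs k) (f.Vs k ^ᶜ x)
  rw [inf_eq_left.2 (f.Vs_anti (Nat.sub_le _ _)), f.card_Vs (by omega), f.card_Vs (by omega)] at e1
  rw [card_cj, f.card_Vs (by omega)] at e2
  have e3 := card_le_of_le one
  rw [f.card_Vs (by omega)] at e3
  have e4 : n + 1 - (k - 1) = n + 1 - k + 1 := by omega
  have e5 : n + 1 - k = n + 1 - (k + 1) + 1 := by omega
  rw [e1, e4, pow_succ]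
  refine Nat.mul_le_mul_left _ (le_of_mul_le_mul_left (a := Fintype.card F ^ (n + 1 - (k + 1))) ?_ (pow_pos hq _))
  rw [← pow_succ, ← e5, ← e2]
  exact Nat.mul_le_mul_right _ e3

theorem step {k : ℕ} (h : ME f.S (f.U k) P M) (h1 : 1 ≤ k) (hk : k ≤ n) (hV : P ≤ 𝐍(f.V)) {v : G}
    (hv : v ∈ f.Vs (k - 1)) (hv' : v ∉ f.Vs k) : ∃ g ∈ P, g * v * g⁻¹ ∈ f.Vs k ∧ g * v * g⁻¹ ∉ f.Vs (k + 1) := by
  obtain ⟨x, hx, hM⟩ := h.ex_x
  obtain ⟨p, hp, hpv⟩ := (f.nat h h1 hk hV hx hM).2 v hv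
  have ek : k - 1 + 1 = k := by omega
  have hn0 : x ∈ 𝐍(f.Vs (k - 1)) := f.chv h1 (by omega) (h.nE hx) (hV hx)
  have hn1 : x ∈ 𝐍(f.Vs (k + 1)) := f.chv h1 (by omega) (h.nE hx) (hV hx)
  have hp0 : p ∈ f.Vs (k - 1) := cj_le_of_mem_normalizer (f.Vs_anti (Nat.sub_le _ _)) hn0 hp
  have hpk : p ∉ f.Vs k := fun hh => hv' (by simpa using mul_mem hh hpv)
  obtain ⟨s, hs, e⟩ := f.orbVs (j := k - 1) (v := p) (v' := v) hp0 (by rwa [ek]) (by rwa [ek])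
  have e2 : x⁻¹ * s⁻¹ * v * (x⁻¹ * s⁻¹)⁻¹ = x⁻¹ * p * x := by rw [← e]; group
  refine ⟨x⁻¹ * s⁻¹, mul_mem (inv_mem hx) (inv_mem (f.NAT_SP h hs)), ?_, fun hh => hpk ?_⟩
  · rw [e2]; exact mem_cj.1 hp
  · rw [e2] at hh
    have := conj_mem_of_mem_normalizer hn1 hh
    have e3 : x * (x⁻¹ * p * x) * x⁻¹ = p := by group
    rw [e3] at this
    exact f.Vs_anti (Nat.le_succ _) this

theorem NAT_top (h : ME f.S (f.U n) P M) (hV : P ≤ 𝐍(f.V)) {z : G} (hz : z ∈ f.Z) (h1 : z ≠ 1) (hP : z ∈ 𝐂(P)) :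
    False := by
  obtain ⟨x, hx, hM⟩ := h.ex_x
  have hn := f.hn
  have := (f.nat h (by omega) le_rfl hV hx hM).1 (x := z) ⟨hz, mem_cj.2 (by
    have e : x⁻¹ * z * x = z := by rw [mul_assoc, ← hP x hx]; group
    rw [e]; exact hz)⟩
  rw [f.Vs_top (Nat.lt_succ_self n)] at this
  exact h1 (mem_bot.1 this)

theorem me_cen (h : ME f.S E P M) {z : G} (hz : z ∈ f.Z) (h1 : z ≠ 1) (hP : z ∈ 𝐂(P)) : P ≤ 𝐍(f.V) ⊓ 𝐍(f.W) := by
  obtain ⟨k, hk, rfl, hV, hW⟩ := f.cl h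
  have hn := f.hn
  by_cases e0 : k = 0
  · subst e0
    exfalso
    have e := f.dual_U (k := 0) (Nat.zero_le _)
    rw [Nat.sub_zero] at e
    refine f.dual.NAT_top (P := P) (M := M) (by rw [e]; exact h) ?_ (z := z) (by rw [f.dual_Z]; exact hz) h1 hP
    have := hW (by omega)
    rwa [show f.W = f.dual.V from (f.dual_Vs 0).symm] at this
  by_cases e1 : k = n
  · subst e1
    exact (f.NAT_top h (hV (by omega)) hz h1 hP).elim
  exact le_inf (hV (by omega)) (hW (by omega))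

end Fr

end H46.Sl
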