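import Cfsg.Agent.Lib.SLM.LQ
import Cfsg.Agent.Lib.SLM.PHI2
import Cfsg.Agent.Lib.SLM.LAG

/-! Unitriangular Sylow 2-subgroups, package NS: see `blueprint/SLM/README.md`. -/

set_option autoImplicit false
set_option linter.unusedSectionVars false

namespace H46.Sl
open Subgroup H69 Cfsg Matrix
open scoped commutatorElement

namespace Fr
variable {G : Type*} [Group G] [Finite G] {F : Type*} [Field F] [Fintype F] [CharP F 2] {n : ℕ}
  (f : Fr G F n) {E P M : Subgroup G}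

theorem cenS : f.S ⊓ 𝐂(f.S) = f.Z :=
  le_antisymm ((inf_le_inf_left _ (centralizer_anti f.Q_le)).trans f.cenQ)
    (le_inf ((f.Vs_le n).trans f.Q_le) f.Z_cen)

theorem nsZ : 𝐍(f.S) ≤ 𝐍(f.Z) :=
  f.cenS ▸ le_normalizer_inf le_rfl (normalizer_le_normalizer_centralizer _)

theorem NS_or {g : G} (hg : g ∈ 𝐍(f.S)) : f.V ^ᶜ g = f.V ∨ f.V ^ᶜ g = f.W := by
  have eS := cj_eq_of_mem_normalizer hg
  have hT : f.V ^ᶜ g ≤ f.Q := cj_le_of_mem_normalizer (f.Vs_le 0) (f.lq le_rfl f.Q_le hg (f.nsZ hg))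
  have hn : f.S ≤ 𝐍(f.V ^ᶜ g) := by
    rw [← cj_normalizer, ← eS]
    exact cj_mono g (f.nVs 0)
  have hc : f.S ⊓ 𝐂(f.V ^ᶜ g) ≤ f.V ^ᶜ g := by
    rw [← cj_centralizer, ← eS, ← cj_inf]
    exact cj_mono g f.cenV
  have sq : ∀ p ∈ f.V ^ᶜ g, p * p = 1 := fun p hp => by
    obtain ⟨a, ha, rfl⟩ := mem_cj'.1 hp
    rw [conj_mul, f.V_sq ha, mul_one, mul_inv_cancel]
  have hZ : f.Z ≤ f.V ^ᶜ g :=
    (cj_eq_of_mem_normalizer (f.nsZ hg)).ge.trans (cj_mono g (f.Vs_anti (Nat.zero_le n)))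
  have cd : Fintype.card F ^ (n + 1) ≤ Nat.card (f.V ^ᶜ g) := by
    rw [card_cj, f.card_Vs (Nat.zero_le _), Nat.sub_zero]
  rcases f.lag hT hn hc sq with h | h
  · obtain ⟨μ, e⟩ := f.graph hT hZ sq h cd fun s hs _ _ => hn hs
    obtain rfl := f.phi_V (f.U_le n) le_rfl (Or.inr rfl) hg e
    exact Or.inl (e.trans f.I_zero)
  · obtain ⟨μ, e⟩ := f.dual.graph (f.dual_Q.symm ▸ hT) (f.dual_Z.symm ▸ hZ) sq
      (by rw [f.dual_Z, W, f.dual_Ws]; exact h) cd fun s hs _ _ => hn hs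
    obtain rfl := f.dual.phi_W (g := g) hg (by rw [W, f.dual_Ws]; exact e)
    exact Or.inr (e.trans (f.dual.I_zero.trans (f.dual_Vs 0)))

theorem nsV : 𝐍(f.S) ≤ 𝐍(f.V) := fun g hg => by
  refine (f.NS_or hg).elim cj_eq_self_iff.1 fun e => ?_
  have d := f.dual.NS_or (g := g) hg
  simp only [V, W, f.dual_Vs, f.dual_Ws] at d
  have g2 : g ^ 2 ∈ 𝐍(f.V) := cj_eq_self_iff.1 (by
    rw [sq, ← cj_cj, e]
    exact d.resolve_left fun h => f.V_not_le_W (cj_inj.1 (e.trans h.symm)).le)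
  obtain ⟨k, hk⟩ := Nat.not_even_iff_odd.1 fun h =>
    (f.syl.mono le_normalizer le_top).not_dvd_relIndex (even_iff_two_dvd.1 h)
  have gk : g ^ (2 * k + 1) ∈ f.S := hk ▸ mem_subgroupOf.1 (pow_index_mem (f.S.subgroupOf 𝐍(f.S)) ⟨g, hg⟩)
  have := f.nVs 0 gk
  rw [pow_succ, pow_mul] at this
  exact (mul_mem_cancel_left (pow_mem g2 k)).1 this

theorem nsW : 𝐍(f.S) ≤ 𝐍(f.W) := by
  have := f.dual.nsV
  rwa [V, f.dual_Vs] at this

end Fr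

end H46.Sl
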