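import Cfsg.Agent.Lib.SLM.DD

/-! Unitriangular Sylow 2-subgroups, package TY: see `blueprint/SLM/README.md`. -/

set_option autoImplicit false
set_option linter.unusedSectionVars false

namespace H46.Sl
open Subgroup H69 Cfsg Matrix
open scoped commutatorElement

theorem ty_add {F : Type*} [Field F] [CharP F 2] {n : ℕ} {a b : Fin n → F} : a + b = 0 ↔ a = b := by
  constructor
  · intro h; funext i; exact CharTwo.add_eq_zero.1 (congrFun h i)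
  · rintro rfl; funext i; exact CharTwo.add_self_eq_zero _

theorem ty_row {F : Type*} [Field F] [CharP F 2] {n : ℕ} {a : Fin n → F} {L : Matrix (Fin n) (Fin n) F} :
    a ᵥ* (L + 1) = 0 ↔ a ᵥ* L = a := by
  rw [vecMul_add, vecMul_one, ty_add]

theorem ty_col {F : Type*} [Field F] [CharP F 2] {n : ℕ} {a : Fin n → F} {L : Matrix (Fin n) (Fin n) F} :
    (L + 1) *ᵥ a = 0 ↔ L *ᵥ a = a := by
  rw [add_mulVec, one_mulVec, ty_add]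

theorem ty_nrm {G : Type*} [Group G] [Finite G] {E : Subgroup G} {a : G} (h : ∀ e ∈ E, ⁅e, a⁆ ∈ E) :
    a ∈ 𝐍(E) := by
  refine mem_normalizer_of_cj_le fun x hx => ?_
  obtain ⟨e, he, rfl⟩ := mem_cj'.1 hx
  have : a * e * a⁻¹ = ⁅e, a⁆⁻¹ * e := by rw [commutatorElement_def]; group
  rw [this]
  exact mul_mem (inv_mem (h e he)) he

theorem ty_cm_mem {G : Type*} [Group G] {E : Subgroup G} {a e : G} (ha : a ∈ 𝐍(E)) (he : e ∈ E) :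
    ⁅e, a⁆ ∈ E := by
  have : ⁅e, a⁆ = e * (a * e⁻¹ * a⁻¹) := by rw [commutatorElement_def]; group
  rw [this]
  exact mul_mem he (conj_mem_of_mem_normalizer ha (inv_mem he))

namespace Fr
variable {G : Type*} [Group G] [Finite G] {F : Type*} [Field F] [Fintype F] [CharP F 2] {n : ℕ}
  (f : Fr G F n) {E P M : Subgroup G}

variable {y y' : G}

theorem Reg.ty_iff {f : Fr G F n} (h : f.Reg E y) (hE : E ≤ f.S) {s : G} (hs : s ∈ f.S) :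
    s ∈ E ↔ y * s = s * y :=
  ⟨fun m => (mem_centralizer_iff_commute.1 h.1.2.1 s m).symm,
    fun c => h.2 ⟨hs, mem_centralizer_singleton_iff.2 c.symm⟩⟩

theorem Reg.mem {f : Fr G F n} (hE : E ≤ f.S) (h : f.Reg E y) {q : G} (hq : q ∈ f.Q) :
    q ∈ E ↔ f.Ker y q ∧ f.B y q = 0 := by
  rw [h.ty_iff hE hq.1, f.comm_iff (hE h.1.1) hq.1, hq.2, mul_one, one_mul, vecMul_one, one_mulVec, Ker, B,
    CharTwo.add_eq_zero, add_comm (f.w y), add_left_inj, add_comm (f.u q), add_right_inj]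
  constructor
  · rintro ⟨-, a, b, c⟩; exact ⟨⟨a.symm, b⟩, c⟩
  · rintro ⟨⟨a, b⟩, c⟩; exact ⟨rfl, a.symm, b, c⟩

theorem Reg.cm {f : Fr G F n} (hE : E ≤ f.S) (h : y ∈ Yp E) {q : G} (hq : q ∈ f.Q) : ⁅y, q⁆ ∈ f.Q ∧
    f.w ⁅y, q⁆ = f.w q ᵥ* f.L y + f.w q ∧ f.u ⁅y, q⁆ = f.L y *ᵥ f.u q + f.u q ∧
    f.c ⁅y, q⁆ = f.w y ⬝ᵥ f.u q + (f.w q ᵥ* f.L y) ⬝ᵥ f.u y + f.cu y q q := by
  have := f.cmQ (hE h.1) hq
  rw [(f.inv_co (hE h.1) h.2.2).1] at this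
  exact this

theorem ty_KerV {v : G} (hv : v ∈ f.V) : f.Ker y v ↔ f.w v ᵥ* f.L y = f.w v := by
  rw [Ker, (f.mem_V.1 hv).2, mulVec_zero]; simp

theorem ty_KerW {v : G} (hv : v ∈ f.W) : f.Ker y v ↔ f.L y *ᵥ f.u v = f.u v := by
  rw [Ker, (f.mem_W.1 hv).2, zero_vecMul]; simp

theorem ty_BV {v : G} (hv : v ∈ f.V) : f.B y v = f.w v ⬝ᵥ f.u y := by
  rw [B, (f.mem_V.1 hv).2, dotProduct_zero, zero_add]

theorem ty_BW {v : G} (hv : v ∈ f.W) : f.B y v = f.w y ⬝ᵥ f.u v := by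
  rw [B, (f.mem_W.1 hv).2, zero_dotProduct, add_zero]

theorem ty_exV (x : Fin n → F) : ∃ v ∈ f.V, f.w v = x := by
  obtain ⟨a, ha, e1, e2, -⟩ := f.exQ x 0 0
  exact ⟨a, f.mem_V.2 ⟨ha, e2⟩, e1⟩

theorem ty_exW (x : Fin n → F) : ∃ v ∈ f.W, f.u v = x := by
  obtain ⟨a, ha, e1, e2, -⟩ := f.exQ 0 x 0
  exact ⟨a, f.mem_W.2 ⟨ha, e1⟩, e2⟩

theorem Reg.kt {f : Fr G F n} (hE : E ≤ f.S) (h : f.Reg E y) (h1 : ¬ f.H1 E y) (h2 : ¬ f.H2 E y) {q : G}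
    (hq : q ∈ f.Q) : q ∈ E ↔ f.Ker y q := by
  refine ⟨fun m => ((h.mem hE hq).1 m).1, fun k => ?_⟩
  obtain ⟨v, hv, v', hv', e, e1, e2⟩ := f.decQ hq
  rw [e]
  refine mul_mem ?_ ?_
  · by_contra m
    exact h1 ⟨v, hv, (f.ty_KerV hv).2 (by rw [e1]; exact k.1), m⟩
  · by_contra m
    exact h2 ⟨v', hv', (f.ty_KerW hv').2 (by rw [e2]; exact k.2), m⟩

theorem Reg.h1 {f : Fr G F n} (hE : E ≤ f.S) (h : f.Reg E y) (h' : f.Reg E y') (k : f.H1 E y) : f.H1 E y' := by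
  by_contra k'
  have k'' : ∀ v ∈ f.V, f.Ker y' v → v ∈ E := fun v hv c => by
    by_contra m; exact k' ⟨v, hv, c, m⟩
  obtain ⟨v, hv, kv, vE⟩ := k
  have b0 : f.w v ⬝ᵥ f.u y ≠ 0 := fun e =>
    vE ((h.mem hE (f.Vs_le _ hv)).2 ⟨kv, by rw [f.ty_BV hv, e]⟩)
  have kv' := (f.ty_KerV hv).1 kv
  by_cases k2 : f.H2 E y
  · obtain ⟨v', hv', kw, wE⟩ := k2
    have b1 : f.w y ⬝ᵥ f.u v' ≠ 0 := fun e =>
      wE ((h.mem hE (f.Ws_le _ hv')).2 ⟨kw, by rw [f.ty_BW hv', e]⟩)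
    have kw' := (f.ty_KerW hv').1 kw
    obtain ⟨q, hq, e1, e2, -⟩ := f.exQ (f.w v) ((f.w v ⬝ᵥ f.u y * (f.w y ⬝ᵥ f.u v')⁻¹) • f.u v') 0
    have qE : q ∈ E := (h.mem hE hq).2 ⟨⟨by rw [e1, kv'], by rw [e2, mulVec_smul, kw']⟩, by
      rw [B, e1, e2, dotProduct_smul, smul_eq_mul, mul_assoc, inv_mul_cancel₀ b1, mul_one,
        CharTwo.add_self_eq_zero]⟩
    have := ((h'.mem hE hq).1 qE).1.1
    rw [e1] at this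
    exact vE (k'' v hv ((f.ty_KerV hv).2 this))
  · refine b0 (ker_cross (N := f.L y + 1) (N' := f.L y' + 1) (x := f.u y) (y' := f.w y') (fun a => ?_)
      (fun b => ?_) _ (ty_row.2 kv'))
    · obtain ⟨p, hp, rfl⟩ := f.ty_exV a
      rw [ty_row, ty_row, ← f.ty_KerV hp, ← f.ty_KerV hp, ← f.ty_BV hp, ← h.mem hE (f.Vs_le _ hp)]
      exact ⟨fun m => ((h'.mem hE (f.Vs_le _ hp)).1 m).1, k'' p hp⟩
    · obtain ⟨p, hp, rfl⟩ := f.ty_exW b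
      rw [ty_col, ty_col, ← f.ty_KerW hp, ← f.ty_KerW hp, ← f.ty_BW hp, ← h'.mem hE (f.Ws_le _ hp)]
      refine ⟨fun c => ?_, fun m => ((h.mem hE (f.Ws_le _ hp)).1 m).1⟩
      by_contra m
      exact k2 ⟨p, hp, c, m⟩

theorem Reg.ty_dual {f : Fr G F n} (h : f.Reg E y) : f.dual.Reg E y := h

theorem Reg.h2 {f : Fr G F n} (hE : E ≤ f.S) (h : f.Reg E y) (h' : f.Reg E y') (k : f.H2 E y) : f.H2 E y' :=
  (f.dual_H1 hE h'.1.1).1 (Reg.h1 (f := f.dual) hE h.ty_dual h'.ty_dual ((f.dual_H1 hE h.1.1).2 k))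

theorem ty_modZ {p q : G} (hp : p ∈ f.Q) (hq : q ∈ f.Q) (e1 : f.w p = f.w q) (e2 : f.u p = f.u q) :
    p⁻¹ * q ∈ f.Z := by
  have a := f.mulQ (inv_mem hp) hq
  have b := f.invQ hp
  exact f.mem_Z.2 ⟨mul_mem (inv_mem hp) hq, by rw [a.1, b.1, ty_add, e1], by rw [a.2.1, b.2.1, ty_add, e2]⟩

theorem Reg.nrm {f : Fr G F n} (hE : E ≤ f.S) (hZ : f.Z ≤ Yp E) (h : f.Reg E y) {q s : G} (hq : q ∈ f.Q)
    (hs : s ∈ Yp E) (hs' : s ∈ f.Q) (e1 : f.w ⁅y, q⁆ = f.w s) (e2 : f.u ⁅y, q⁆ = f.u s) : q ∈ 𝐍(E) := by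
  have m : ⁅y, q⁆ ∈ Yp E := by
    simpa using mul_mem hs (hZ (f.ty_modZ hs' (Reg.cm hE h.1 hq).1 e1.symm e2.symm))
  refine nrm_of hE h.1.2.1 h.2 hq.1 ?_
  have : q * y * q⁻¹ = ⁅y, q⁆⁻¹ * y := by rw [commutatorElement_def]; group
  rw [this]
  exact mul_mem (inv_mem m.2.1) h.1.2.1

theorem Reg.split {f : Fr G F n} (hE : E ≤ f.S) (h : f.Reg E y) (h2 : ¬ f.H2 E y) {b : G} (hb : b ∈ f.A E) :
    ∃ a ∈ f.V ⊓ 𝐍(E), ∃ a' ∈ f.W ⊓ 𝐍(E), b = a * a' ∧ f.w a = f.w b ∧ f.u a' = f.u b := by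
  obtain ⟨v, hv, v', hv', e, e1, e2⟩ := f.decQ hb.1
  have n' : v' ∈ 𝐍(E) := ty_nrm fun s hs => by
    by_contra m
    have mW : ⁅s, v'⁆ ∈ f.W := f.Ws_anti (Nat.zero_le _) (f.cmWs (hE hs) hv')
    have c := f.cmQ (hE hs) hb.1
    have k := ((h.mem hE c.1).1 (ty_cm_mem hb.2 hs)).1.2
    refine h2 ⟨_, mW, (f.ty_KerW mW).2 ?_, m⟩
    rw [(f.cmQ (hE hs) (f.Ws_le _ hv')).2.2.1, e2, ← c.2.2.1]
    exact k
  refine ⟨v, ⟨hv, ?_⟩, v', ⟨hv', n'⟩, e, e1, e2⟩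
  have : v = b * v'⁻¹ := by rw [e, mul_inv_cancel_right]
  rw [this]
  exact Subgroup.mul_mem _ hb.2 (Subgroup.inv_mem _ n')

/-- `A E` is closed under scalars -/
theorem Reg.smulA {f : Fr G F n} (hE : E ≤ f.S) (h : f.Reg E y) {a b : G} (ha : a ∈ f.A E) (hb : b ∈ f.Q) {l : F}
    (e1 : f.w b = l • f.w a) (e2 : f.u b = l • f.u a) : b ∈ 𝐍(E) := ty_nrm fun s hs => by
  have c := f.cmQ (hE hs) ha.1
  have d := f.cmQ (hE hs) hb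
  have k := (h.mem hE c.1).1 (ty_cm_mem ha.2 hs)
  have a1 : f.w ⁅s, b⁆ = l • f.w ⁅s, a⁆ := by rw [c.2.1, d.2.1, e1, smul_vecMul, smul_add]
  have a2 : f.u ⁅s, b⁆ = l • f.u ⁅s, a⁆ := by rw [c.2.2.1, d.2.2.1, e2, mulVec_smul, smul_add]
  refine (h.mem hE d.1).2 ⟨⟨?_, ?_⟩, ?_⟩
  · rw [a1, smul_vecMul, k.1.1]
  · rw [a2, mulVec_smul, k.1.2]
  · have := k.2
    rw [B] at this ⊢
    rw [a1, a2, dotProduct_smul, smul_dotProduct, ← smul_add, this, smul_zero]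

/-- `H1`: the commutators with `V ∩ Ker` fill `Z` -/
theorem Reg.fill {f : Fr G F n} (hE : E ≤ f.S) (hZ : f.Z ≤ Yp E) (h : f.Reg E y) (k : f.H1 E y) {t : G}
    (ht : t ∈ f.Z) : ∃ v ∈ f.V, f.Ker y v ∧ v ∈ 𝐍(E) ∧ ⁅y, v⁆ = t ∧ (t ≠ 1 → v ∉ E) := by
  obtain ⟨v0, hv0, kv, vE⟩ := k
  have b0 : f.w v0 ⬝ᵥ f.u y ≠ 0 := fun e =>
    vE ((h.mem hE (f.Vs_le _ hv0)).2 ⟨kv, by rw [f.ty_BV hv0, e]⟩)
  obtain ⟨v, hv, e⟩ := f.ty_exV ((f.c t * (f.w v0 ⬝ᵥ f.u y)⁻¹) • f.w v0)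
  have k1 : f.w v ᵥ* f.L y = f.w v := by rw [e, smul_vecMul, kv.1]
  have u0 := (f.mem_V.1 hv).2
  obtain ⟨c0, c1, c2, c3⟩ := Reg.cm hE h.1 (f.Vs_le _ hv)
  rw [k1, ty_add.2 rfl] at c1
  rw [u0, mulVec_zero, add_zero] at c2
  have e' : ⁅y, v⁆ = t := f.Z_ext (f.mem_Z.2 ⟨c0, c1, c2⟩) ht (by
    rw [c3, cu, k1, u0, dotProduct_zero, dotProduct_zero, zero_add, add_zero, e, smul_dotProduct,
      smul_eq_mul, mul_assoc, inv_mul_cancel₀ b0, mul_one])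
  refine ⟨v, hv, (f.ty_KerV hv).2 k1,
    h.nrm hE hZ (f.Vs_le _ hv) (one_mem _) (one_mem _) (by rw [c1, f.w_one]) (by rw [c2, f.u_one]), e',
    fun t1 m => t1 ?_⟩
  rw [← e', commutatorElement_eq_one_iff_mul_comm]
  exact (h.ty_iff hE (hE m)).1 m

theorem ty_Z {z : G} (hz : z ∈ f.Z) : z ∈ f.S ⊓ 𝐂(f.S) ∧ z * z = 1 :=
  ⟨⟨(f.Vs_le _ hz).1, f.Z_cen hz⟩, f.V_sq (f.Vs_anti (Nat.zero_le _) hz)⟩

theorem B2.reg {f : Fr G F n} (b : f.B2 E P M) (h : f.Rg P M y) : f.Reg E y ∧ y ∉ f.Q := by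
  obtain ⟨x, hx, hM, z, hz, hP, rfl⟩ := h
  exact ⟨b.me.reg (f.ty_Z hz).1 (f.ty_Z hz).2 hP hx hM, fun m => hP (b.out x hx hM z hz m)⟩

theorem B2.ex {f : Fr G F n} (b : f.B2 E P M) {x : G} (hx : x ∈ P) (hM : x ∉ M) :
    ∃ z ∈ f.Z, z ∉ 𝐂(P) ∧ f.Rg P M (x * z * x⁻¹) ∧ f.Rg P M (x⁻¹ * z * x) := by
  obtain ⟨z, hz, hP⟩ := SetLike.not_le_iff_exists.1 b.nZ
  exact ⟨z, hz, hP, ⟨x, hx, hM, z, hz, hP, rfl⟩,
    x⁻¹, inv_mem hx, fun m => hM (by simpa using inv_mem m), z, hz, hP, by rw [inv_inv]⟩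

theorem B2.nV {f : Fr G F n} (b : f.B2 E P M) : ¬ f.V ⊓ 𝐍(E) ≤ E := fun h => by
  have VE : f.V ≤ E := grow' b.me.pS b.me.le (b.me.le.trans (f.nVs 0)) ((f.Vs_le 0).trans f.Q_le) h
  obtain ⟨x, hx, hM⟩ := b.me.ex_x
  obtain ⟨z, -, -, r, -⟩ := b.ex hx hM
  obtain ⟨r1, r2⟩ := b.reg r
  exact r2 (f.Vs_le 0 (f.cenV ⟨b.me.le r1.1.1, centralizer_anti VE r1.1.2.1⟩))

theorem B2.nW {f : Fr G F n} (b : f.B2 E P M) : ¬ f.W ⊓ 𝐍(E) ≤ E := by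
  have := b.dual.nV
  rwa [V, f.dual_Vs] at this

/-- `γ a = [z, a ^ x] = z y` with `y` regular -/
theorem B2.gam {f : Fr G F n} (b : f.B2 E P M) {x z a : G} (hx : x ∈ P) (hM : x ∉ M) (hz : z ∈ f.Z)
    (hP : z ∉ 𝐂(P)) (ha : a ∈ f.S ⊓ 𝐍(E)) (hE : a ∉ E) :
    ∃ y, f.Rg P M y ∧ ⁅z, x * a * x⁻¹⁆ = z * y ∧ f.L (z * y) = f.L y ∧ ∀ s ∈ f.S, ⁅z * y, s⁆ = ⁅y, s⁆ := by
  obtain ⟨o1, o2⟩ := b.me.out hx hM ha hE
  generalize x * a * x⁻¹ = k at o1 o2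
  have r : f.Rg P M (k * z * k⁻¹) := ⟨k, o1, o2, z, hz, hP, rfl⟩
  have yS : k * z * k⁻¹ ∈ f.S := b.me.le (b.reg r).1.1.1
  obtain ⟨⟨zS, zc⟩, z2⟩ := f.ty_Z hz
  refine ⟨_, r, ?_, ?_, fun s hs => ?_⟩
  · rw [commutatorElement_def, inv_eq_of_mul_eq_one_right z2]; group
  · rw [f.L_mul _ zS _ yS, (f.Vs_le _ hz).2, one_mul]
  · generalize k * z * k⁻¹ = y at yS
    have c := conj_eq_of_mem_centralizer zc (mul_mem (mul_mem yS hs) (inv_mem yS))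
    calc ⁅z * y, s⁆ = z * (y * s * y⁻¹) * z⁻¹ * s⁻¹ := by rw [commutatorElement_def]; group
      _ = _ := by rw [c, commutatorElement_def]

end Fr

end H46.Sl
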